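import Mathlib
import Cfsg.Agent.H4.Isolated
import Cfsg.Agent.H9.Simple

/-! Brauer–Fowler type counting: groups with a four-group all of whose involutions have small
centralizers. -/

set_option autoImplicit false
set_option linter.style.haveILetI false

namespace Cfsg.Agent.H20.BF

open Subgroup

section

variable {X : Type*} [Group X] [Finite X]

/-- the `N`-conjugates of `v` -/
def cls (N : Subgroup X) (v : X) : Set X := Set.range (fun y : N => (y : X) * v * (y : X)⁻¹)

theorem card_cls (N : Subgroup X) (v : X) :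
    Nat.card (cls N v) * Nat.card (N ⊓ centralizer ({v} : Set X) : Subgroup X) = Nat.card N := by
  classical
  letI : MulAction N X := MulAction.compHom X ((MulAut.conj : X →* MulAut X).comp N.subtype)
  have hsm : ∀ (y : N) (x : X), y • x = (y : X) * x * (y : X)⁻¹ := fun _ _ => rfl
  have h1 : (MulAction.orbit N v) = cls N v := rfl
  have h2 := MulAction.index_stabilizer N v
  have h3 := (MulAction.stabilizer N v).card_mul_index
  rw [h2, h1, ← Nat.card_coe_set_eq] at h3
  have h4 : Nat.card (MulAction.stabilizer N v) = Nat.card (N ⊓ centralizer ({v} : Set X) : Subgroup X) := by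
    rw [← Subgroup.card_map_of_injective N.subtype_injective]
    congr 1
    have : (MulAction.stabilizer N v).map N.subtype = (N ⊓ centralizer ({v} : Set X) : Subgroup X) := by
      ext x
      rw [mem_map, mem_inf, mem_centralizer_singleton_iff]
      constructor
      · rintro ⟨y, hy, rfl⟩
        refine ⟨y.2, ?_⟩
        rw [MulAction.mem_stabilizer_iff, hsm] at hy
        exact mul_inv_eq_iff_eq_mul.1 hy
      · rintro ⟨hx, hc⟩
        refine ⟨⟨x, hx⟩, ?_, rfl⟩
        rw [MulAction.mem_stabilizer_iff, hsm]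
        exact mul_inv_eq_iff_eq_mul.2 hc
    rw [this]
  rw [← h4, mul_comm]; exact h3

/-- centralizers do not grow in quotients -/
theorem card_centralizer_quot (N : Subgroup X) [N.Normal] (v : X) :
    Nat.card (centralizer ({QuotientGroup.mk' N v} : Set (X ⧸ N))) ≤ Nat.card (centralizer ({v} : Set X)) := by
  classical
  set C := centralizer ({QuotientGroup.mk' N v} : Set (X ⧸ N)) with hC
  set D := C.comap (QuotientGroup.mk' N) with hD
  have h1 : Nat.card D = Nat.card N * Nat.card C := by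
    have e1 : D.index = C.index := Subgroup.index_comap_of_surjective C (QuotientGroup.mk'_surjective N)
    have e2 := D.card_mul_index
    have e3 := C.card_mul_index
    have e4 : Nat.card (X ⧸ N) * Nat.card N = Nat.card X := (Subgroup.card_eq_card_quotient_mul_card_subgroup N).symm
    have hpos : 0 < C.index := Nat.pos_of_ne_zero C.index_ne_zero_of_finite
    rw [e1] at e2
    apply Nat.eq_of_mul_eq_mul_right hpos
    rw [e2, ← e4, ← e3]; ring
  have hm : ∀ s : cls D v, (s : X) * v⁻¹ ∈ N := by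
    rintro ⟨s, y, hy⟩
    have h3 : (y : X) ∈ D := y.2
    have hy' : (y : X) * v * (y : X)⁻¹ = s := hy
    show s * v⁻¹ ∈ N
    rw [← hy']
    generalize (y : X) = z at h3
    have h4 : QuotientGroup.mk' N z ∈ C := h3
    rw [hC, mem_centralizer_singleton_iff] at h4
    rw [← QuotientGroup.eq_one_iff]
    have : ((z * v * z⁻¹ * v⁻¹ : X) : X ⧸ N)
        = QuotientGroup.mk' N z * QuotientGroup.mk' N v * (QuotientGroup.mk' N z)⁻¹ * (QuotientGroup.mk' N v)⁻¹ := by
      simp
    rw [this, h4]; group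
  have h2 : Nat.card (cls D v) ≤ Nat.card N := by
    apply Nat.card_le_card_of_injective (fun s : cls D v => (⟨(s : X) * v⁻¹, hm s⟩ : N))
    intro s t hst
    have := congrArg Subtype.val hst
    simp only at this
    exact Subtype.ext (mul_right_cancel this)
  have h3 := card_cls D v
  have h4 : Nat.card (D ⊓ centralizer ({v} : Set X) : Subgroup X) ≤ Nat.card (centralizer ({v} : Set X)) :=
    Subgroup.card_le_of_le inf_le_right
  have h5 : Nat.card N * Nat.card C ≤ Nat.card N * Nat.card (centralizer ({v} : Set X)) := by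
    rw [← h1, ← h3]
    exact Nat.mul_le_mul h2 h4
  exact Nat.le_of_mul_le_mul_left h5 Nat.card_pos

/-- class pairs -/
theorem card_le_conj (N : Subgroup X) [N.Normal] {v : X} (hv : v * v = 1) :
    Nat.card N ≤ Nat.card (N ⊓ centralizer ({v} : Set X) : Subgroup X) ^ 2 * Nat.card (ConjClasses N) := by
  classical
  have hsq : ∀ s ∈ cls N v, s * s = 1 := by
    rintro _ ⟨y, rfl⟩
    simp only
    have : (y : X) * v * (y : X)⁻¹ * ((y : X) * v * (y : X)⁻¹) = y * (v * v) * (y : X)⁻¹ := by group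
    rw [this, hv]; simp
  have hco : ∀ s ∈ cls N v, s * v⁻¹ ∈ N := by
    rintro _ ⟨y, rfl⟩
    simp only
    have : (y : X) * v * (y : X)⁻¹ * v⁻¹ = y * (v * (y : X)⁻¹ * v⁻¹) := by group
    rw [this]
    exact N.mul_mem y.2 ((inferInstance : N.Normal).conj_mem _ (N.inv_mem y.2) v)
  have hco2 : ∀ s ∈ cls N v, ∀ t ∈ cls N v, s * t ∈ N := by
    intro s hs t ht
    have h1 := N.mul_mem (hco s hs) (N.inv_mem (hco t ht))
    have : s * v⁻¹ * (t * v⁻¹)⁻¹ = s * t := by
      have ht1 : t⁻¹ = t := inv_eq_of_mul_eq_one_left (hsq t ht)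
      rw [mul_inv_rev, inv_inv, ht1]; group
    rwa [this] at h1
  -- base point
  let pt : N → X := fun x => if h : ∃ s ∈ cls N v, s * x * s⁻¹ = (x : X)⁻¹ then h.choose else 1
  have hpt : ∀ x : N, (∃ s ∈ cls N v, s * x * s⁻¹ = (x : X)⁻¹) →
      pt x ∈ cls N v ∧ pt x * x * (pt x)⁻¹ = (x : X)⁻¹ := by
    intro x h
    have : pt x = h.choose := dif_pos h
    rw [this]
    exact h.choose_spec
  have hinv : ∀ s ∈ cls N v, ∀ t ∈ cls N v, s * (s * t) * s⁻¹ = (s * t)⁻¹ := by
    intro s hs t ht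
    have h1 := hsq s hs
    have h2 := hsq t ht
    have e1 : s⁻¹ = s := inv_eq_of_mul_eq_one_left h1
    have e2 : t⁻¹ = t := inv_eq_of_mul_eq_one_left h2
    rw [mul_inv_rev, e1, e2]
    have : s * (s * t) * s = (s * s) * t * s := by group
    rw [this, h1, one_mul]
  let f : cls N v × cls N v → { p : N × N // Commute p.1 p.2 } := fun st =>
    ⟨(⟨(st.1 : X) * st.2, hco2 _ st.1.2 _ st.2.2⟩,
      ⟨pt ⟨(st.1 : X) * st.2, hco2 _ st.1.2 _ st.2.2⟩ * st.1, by
        have h := hpt ⟨(st.1 : X) * st.2, hco2 _ st.1.2 _ st.2.2⟩ ⟨st.1, st.1.2, hinv _ st.1.2 _ st.2.2⟩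
        exact hco2 _ h.1 _ st.1.2⟩), by
      have h := hpt ⟨(st.1 : X) * st.2, hco2 _ st.1.2 _ st.2.2⟩ ⟨st.1, st.1.2, hinv _ st.1.2 _ st.2.2⟩
      set p := pt ⟨(st.1 : X) * st.2, hco2 _ st.1.2 _ st.2.2⟩ with hp
      have h1 := h.2
      have h2 := hinv _ st.1.2 _ st.2.2
      have h3 := hsq _ h.1
      have e1 : p⁻¹ = p := inv_eq_of_mul_eq_one_left h3
      apply Subtype.ext
      show (st.1 : X) * st.2 * (p * st.1) = p * st.1 * ((st.1 : X) * st.2)
      simp only at h1
      have h4 : p * ((st.1 : X) * st.2)⁻¹ * p⁻¹ = (st.1 : X) * st.2 := by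
        have := congrArg (fun z => z⁻¹) h1
        simp only [mul_inv_rev, inv_inv] at this
        rw [← mul_inv_rev, e1] at this
        rw [e1]
        rw [mul_assoc]; exact this
      calc (st.1 : X) * st.2 * (p * st.1) = (p * ((st.1 : X) * st.2)⁻¹ * p⁻¹) * (p * st.1) := by rw [h4]
        _ = p * (((st.1 : X) * st.2)⁻¹ * st.1) := by group
        _ = p * ((st.1 * ((st.1 : X) * st.2) * (st.1 : X)⁻¹) * st.1) := by rw [h2]
        _ = p * st.1 * ((st.1 : X) * st.2) := by group⟩
  have hf : Function.Injective f := by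
    rintro ⟨s, t⟩ ⟨s', t'⟩ h
    have h1 := congrArg (fun z => (z.1.1 : X)) h
    have h2 := congrArg (fun z => (z.1.2 : X)) h
    simp only [f] at h1 h2
    have h3 : (⟨(s : X) * t, hco2 _ s.2 _ t.2⟩ : N) = ⟨(s' : X) * t', hco2 _ s'.2 _ t'.2⟩ := Subtype.ext h1
    rw [h3] at h2
    have h4 : (s : X) = s' := mul_left_cancel h2
    rw [h4] at h1
    have h5 : (t : X) = t' := mul_left_cancel h1
    exact Prod.ext (Subtype.ext h4) (Subtype.ext h5)
  have h1 := Nat.card_le_card_of_injective f hf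
  rw [Nat.card_prod, card_comm_eq_card_conjClasses_mul_card] at h1
  have h2 := card_cls N v
  set c := Nat.card (N ⊓ centralizer ({v} : Set X) : Subgroup X) with hc
  set s := Nat.card (cls N v) with hs
  have hNpos : 0 < Nat.card N := Nat.card_pos
  have h3 : Nat.card N * Nat.card N ≤ (c ^ 2 * Nat.card (ConjClasses N)) * Nat.card N := by
    calc Nat.card N * Nat.card N = (s * c) * (s * c) := by rw [h2]
      _ = c ^ 2 * (s * s) := by ring
      _ ≤ c ^ 2 * (Nat.card (ConjClasses N) * Nat.card N) := Nat.mul_le_mul_left _ h1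
      _ = _ := by ring
  exact Nat.le_of_mul_le_mul_right h3 hNpos

theorem cls_eq_of_mem (N : Subgroup X) {v w : X} (h : w ∈ cls N v) : cls N w = cls N v := by
  obtain ⟨y, rfl⟩ := h
  ext z
  constructor
  · rintro ⟨x, rfl⟩
    refine ⟨x * y, ?_⟩
    simp only [Subgroup.coe_mul]
    group
  · rintro ⟨x, rfl⟩
    refine ⟨x * y⁻¹, ?_⟩
    simp only [Subgroup.coe_mul, Subgroup.coe_inv]
    group

theorem card_inf_centralizer_of_mem (N : Subgroup X) {v w : X} (h : w ∈ cls N v) :
    Nat.card (N ⊓ centralizer ({w} : Set X) : Subgroup X) =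
      Nat.card (N ⊓ centralizer ({v} : Set X) : Subgroup X) := by
  have h1 := card_cls N v
  have h2 := card_cls N w
  rw [cls_eq_of_mem N h, ← h1] at h2
  have hpos : 0 < Nat.card (cls N v) := by
    have : Nonempty (cls N v) := ⟨⟨w, h⟩⟩
    exact Nat.card_pos
  exact Nat.eq_of_mul_eq_mul_left hpos h2

/-- a four-group acting on a normal subgroup of odd order -/
theorem card_le_four (Y : Subgroup X) [Y.Normal] (hY : Odd (Nat.card Y)) {a b : X} (ha : a * a = 1)
    (hb : b * b = 1) (hab : a * b = b * a) :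
    Nat.card Y ≤ Nat.card (Y ⊓ centralizer ({a} : Set X) : Subgroup X) *
      Nat.card (Y ⊓ centralizer ({b} : Set X) : Subgroup X) *
      Nat.card (Y ⊓ centralizer ({a * b} : Set X) : Subgroup X) := by
  classical
  haveI : Fintype X := Fintype.ofFinite X
  have hsq : ∀ v : X, v * v = 1 → ∀ s ∈ cls Y v, s * s = 1 := by
    rintro v hv _ ⟨y, rfl⟩
    simp only
    have : (y : X) * v * (y : X)⁻¹ * ((y : X) * v * (y : X)⁻¹) = y * (v * v) * (y : X)⁻¹ := by group
    rw [this, hv]; simp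
  have hco : ∀ v : X, ∀ s ∈ cls Y v, (s : X ⧸ Y) = (v : X ⧸ Y) := by
    rintro v _ ⟨y, rfl⟩
    have : ((y : X) : X ⧸ Y) = 1 := (QuotientGroup.eq_one_iff _).2 y.2
    simp only [QuotientGroup.mk_mul, QuotientGroup.mk_inv, this]
    simp
  have hcc : (a * b) * (a * b) = 1 := by
    have : a * b * (a * b) = a * (b * a) * b := by group
    rw [this, ← hab]
    have : a * (a * b) * b = (a * a) * (b * b) := by group
    rw [this, ha, hb, one_mul]
  set n := Nat.card Y with hn
  obtain ⟨m, hm⟩ := hY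
  -- the main facts about w
  have hinv : ∀ s t : X, s * s = 1 → t * t = 1 → s * (s * t) * s⁻¹ = (s * t)⁻¹ := by
    intro s t h1 h2
    have e1 : s⁻¹ = s := inv_eq_of_mul_eq_one_left h1
    have e2 : t⁻¹ = t := inv_eq_of_mul_eq_one_left h2
    rw [mul_inv_rev, e1, e2]
    have : s * (s * t) * s = (s * s) * t * s := by group
    rw [this, h1, one_mul]
  have hinv' : ∀ s t : X, s * s = 1 → t * t = 1 → t * (s * t) * t⁻¹ = (s * t)⁻¹ := by
    intro s t h1 h2
    have e1 : s⁻¹ = s := inv_eq_of_mul_eq_one_left h1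
    have e2 : t⁻¹ = t := inv_eq_of_mul_eq_one_left h2
    rw [mul_inv_rev, e1, e2]
    have : t * (s * t) * t = t * s * (t * t) := by group
    rw [this, h2, mul_one]
  have key : ∀ s ∈ cls Y a, ∀ t ∈ cls Y b, (s * t) ^ n ∈ cls Y (a * b) ∧
      s * (s * t) ^ n = (s * t) ^ n * s ∧ t * (s * t) ^ n = (s * t) ^ n * t := by
    intro s hs t ht
    have hs2 := hsq a ha s hs
    have ht2 := hsq b hb t ht
    set u := s * t with hu
    have huq : (u : X ⧸ Y) = ((a * b : X) : X ⧸ Y) := by
      rw [hu, QuotientGroup.mk_mul, hco a s hs, hco b t ht, ← QuotientGroup.mk_mul]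
    have hu2 : u * u ∈ Y := by
      rw [← QuotientGroup.eq_one_iff, QuotientGroup.mk_mul, huq, ← QuotientGroup.mk_mul, hcc]; rfl
    have hw2 : u ^ n * u ^ n = 1 := by
      have h1 : (⟨u * u, hu2⟩ : Y) ^ n = 1 := by rw [hn]; exact pow_card_eq_one'
      have h2 := congrArg Subtype.val h1
      simp only [Subgroup.coe_pow, Subgroup.coe_one] at h2
      rw [← pow_add, ← two_mul, pow_mul, sq]; exact h2
    have hwq : ((u ^ n : X) : X ⧸ Y) = ((a * b : X) : X ⧸ Y) := by
      rw [QuotientGroup.mk_pow, huq, ← QuotientGroup.mk_pow, hm, pow_succ, pow_mul, sq, hcc, one_pow, one_mul]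
    have hwc : u ^ n * (a * b) ∈ Y := by
      rw [← QuotientGroup.eq_one_iff, QuotientGroup.mk_mul, hwq, ← QuotientGroup.mk_mul, hcc]; rfl
    have hodd : Odd (orderOf (u ^ n * (a * b))) := by
      have h1 : orderOf (⟨u ^ n * (a * b), hwc⟩ : Y) ∣ Nat.card Y := orderOf_dvd_natCard _
      rw [← Subgroup.orderOf_coe] at h1
      exact Odd.of_dvd_nat ⟨m, hm⟩ h1
    obtain ⟨k, hk⟩ := Cfsg.Agent.H4.conj_of_odd hw2 hcc hodd
    refine ⟨?_, ?_, ?_⟩
    · refine ⟨⟨((u ^ n * (a * b)) ^ k)⁻¹, Y.inv_mem (Y.pow_mem hwc k)⟩, ?_⟩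
      simp only
      generalize (u ^ n * (a * b)) ^ k = g at hk
      rw [← hk]; group
    · have h1 := hinv s t hs2 ht2
      have h2 : s * u ^ n * s⁻¹ = (u ^ n)⁻¹ := by
        rw [← conj_pow, h1, inv_pow]
      have h3 : (u ^ n)⁻¹ = u ^ n := inv_eq_of_mul_eq_one_left hw2
      rw [h3] at h2
      exact mul_inv_eq_iff_eq_mul.1 h2
    · have h1 := hinv' s t hs2 ht2
      have h2 : t * u ^ n * t⁻¹ = (u ^ n)⁻¹ := by
        rw [← conj_pow, h1, inv_pow]
      have h3 : (u ^ n)⁻¹ = u ^ n := inv_eq_of_mul_eq_one_left hw2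
      rw [h3] at h2
      exact mul_inv_eq_iff_eq_mul.1 h2
  set cc := Nat.card (Y ⊓ centralizer ({a * b} : Set X) : Subgroup X) with hcc'
  let f : cls Y a × cls Y b → X := fun p => ((p.1 : X) * p.2) ^ n
  have h1 := Finset.card_le_mul_card_image (f := f) Finset.univ (cc * cc) (by
    intro w hw
    rw [Finset.mem_image] at hw
    obtain ⟨⟨s0, t0⟩, -, hw0⟩ := hw
    have k0 := key s0 s0.2 t0 t0.2
    have hw0' : ((s0 : X) * t0) ^ n = w := hw0
    rw [hw0'] at k0
    rw [← Fintype.card_subtype, ← Nat.card_eq_fintype_card, hcc', ← card_inf_centralizer_of_mem Y k0.1, ← Nat.card_prod]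
    have hdiff : ∀ v : X, ∀ s s0 : cls Y v, (s : X) * w = w * s → (s0 : X) * w = w * s0 →
        (s : X) * (s0 : X)⁻¹ ∈ (Y ⊓ centralizer ({w} : Set X) : Subgroup X) := by
      intro v s s0 h1 h2
      rw [mem_inf]
      refine ⟨?_, ?_⟩
      · rw [← QuotientGroup.eq_one_iff, QuotientGroup.mk_mul, QuotientGroup.mk_inv, hco v _ s.2, hco v _ s0.2]; simp
      · apply mul_mem
        · exact mem_centralizer_singleton_iff.2 h1
        · exact inv_mem (mem_centralizer_singleton_iff.2 h2)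
    have hk : ∀ p : {p : cls Y a × cls Y b // f p = w}, ((p.1.1 : X) * w = w * p.1.1) ∧ ((p.1.2 : X) * w = w * p.1.2) := by
      rintro ⟨⟨s, t⟩, hp⟩
      have k := key s s.2 t t.2
      have hp' : ((s : X) * t) ^ n = w := hp
      rw [hp'] at k
      exact ⟨k.2.1, k.2.2⟩
    apply Nat.card_le_card_of_injective (fun p : {p : cls Y a × cls Y b // f p = w} =>
      ((⟨(p.1.1 : X) * (s0 : X)⁻¹, hdiff a p.1.1 s0 (hk p).1 k0.2.1⟩,
       ⟨(p.1.2 : X) * (t0 : X)⁻¹, hdiff b p.1.2 t0 (hk p).2 k0.2.2⟩) :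
       (Y ⊓ centralizer ({w} : Set X) : Subgroup X) × (Y ⊓ centralizer ({w} : Set X) : Subgroup X)))
    rintro ⟨⟨s, t⟩, hp⟩ ⟨⟨s', t'⟩, hp'⟩ h
    have e1 := congrArg (fun z => (z.1 : X)) h
    have e2 := congrArg (fun z => (z.2 : X)) h
    simp only at e1 e2
    exact Subtype.ext (Prod.ext (Subtype.ext (mul_right_cancel e1)) (Subtype.ext (mul_right_cancel e2))))
  have h2 : (Finset.univ.image f).card ≤ Nat.card (cls Y (a * b)) := by
    rw [← Set.ncard_coe_finset, ← Nat.card_coe_set_eq]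
    apply Nat.card_mono (Set.toFinite _)
    intro w hw
    rw [Finset.mem_coe, Finset.mem_image] at hw
    obtain ⟨⟨s0, t0⟩, -, hw0⟩ := hw
    rw [← hw0]
    exact (key s0 s0.2 t0 t0.2).1
  rw [Finset.card_univ, ← Nat.card_eq_fintype_card, Nat.card_prod] at h1
  have ka := card_cls Y a
  have kb := card_cls Y b
  have kc := card_cls Y (a * b)
  rw [← hcc'] at kc
  set ca := Nat.card (Y ⊓ centralizer ({a} : Set X) : Subgroup X)
  set cb := Nat.card (Y ⊓ centralizer ({b} : Set X) : Subgroup X)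
  have hnpos : 0 < n := Nat.card_pos
  have h3 : n * n ≤ (ca * cb * cc) * n := by
    calc n * n = (Nat.card (cls Y a) * ca) * (Nat.card (cls Y b) * cb) := by rw [ka, kb]
      _ = (ca * cb) * (Nat.card (cls Y a) * Nat.card (cls Y b)) := by ring
      _ ≤ (ca * cb) * (cc * cc * Nat.card (cls Y (a * b))) :=
          Nat.mul_le_mul_left _ (h1.trans (Nat.mul_le_mul_left _ h2))
      _ = (ca * cb * cc) * (Nat.card (cls Y (a * b)) * cc) := by ring
      _ = _ := by rw [kc]
  exact Nat.le_of_mul_le_mul_right h3 hnpos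

end

end Cfsg.Agent.H20.BF
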