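import Mathlib
import Cfsg.Agent.H20.BF1
import Cfsg.Agent.H9.PowA
import Cfsg.Agent.H1.Chief

/-! Brauer–Fowler type bound: groups with a four-group all of whose involutions have small
centralizers, and with a bounded 2-part. -/

set_option autoImplicit false
set_option linter.style.haveILetI false
set_option linter.unusedSectionVars false

universe u

namespace Cfsg.Agent.H20.BF

open Subgroup

theorem ncard_carrier {G : Type*} [Group G] [Finite G] (x : G) :
    (ConjClasses.mk x).carrier.ncard = (centralizer ({x} : Set G)).index := by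
  have h1 : (ConjClasses.mk x).carrier = cls (⊤ : Subgroup G) x := by
    ext z
    rw [ConjClasses.mem_carrier_iff_mk_eq, ConjClasses.mk_eq_mk_iff_isConj]
    constructor
    · intro h
      obtain ⟨c, hc⟩ := isConj_iff.1 h.symm
      exact ⟨⟨c, mem_top _⟩, hc⟩
    · rintro ⟨y, rfl⟩
      exact (isConj_iff.2 ⟨(y : G), rfl⟩ : IsConj x _).symm
  have h2 := card_cls (⊤ : Subgroup G) x
  rw [top_inf_eq, card_top, ← (centralizer ({x} : Set G)).card_mul_index, mul_comm] at h2
  rw [h1, ← Nat.card_coe_set_eq]
  exact Nat.eq_of_mul_eq_mul_left Nat.card_pos h2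

/-- a simple group with many classes is small -/
theorem simple_card_le {T : Type*} [Group T] [Finite T] [IsSimpleGroup T] (hT : ¬ IsMulCommutative T)
    {m : ℕ} (h : Nat.card T ≤ m * Nat.card (ConjClasses T)) :
    Nat.card T ≤ (2 * m).factorial + 2 * m := by
  classical
  haveI : Fintype T := Fintype.ofFinite T
  haveI : Fintype (ConjClasses T) := Fintype.ofFinite _
  by_contra hcon
  push Not at hcon
  have hbig : (2 * m).factorial < Nat.card T := by omega
  -- sizes of classes
  have hsz : ∀ x : T, x ≠ 1 → 2 * m + 1 ≤ (ConjClasses.mk x).carrier.ncard := by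
    intro x hx
    by_contra hlt
    push Not at hlt
    rw [ncard_carrier] at hlt
    have hne : centralizer ({x} : Set T) ≠ ⊤ := by
      intro htop
      have : x ∈ center T := by
        rw [mem_center_iff]
        intro g
        have : g ∈ centralizer ({x} : Set T) := by rw [htop]; trivial
        exact mem_centralizer_singleton_iff.1 this
      rw [Cfsg.Agent.H9.Simple.center_eq_bot hT] at this
      exact hx (mem_bot.1 this)
    have h2 := Cfsg.Agent.H9.Simple.two_mul_card_dvd_factorial hT hne
    have h3 := Nat.le_of_dvd (Nat.factorial_pos _) h2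
    have h4 : (centralizer ({x} : Set T)).index.factorial ≤ (2 * m).factorial :=
      Nat.factorial_le (by omega)
    omega
  have hsum := Group.sum_card_conj_classes_eq_card (G := T)
  rw [finsum_eq_sum_of_fintype] at hsum
  have h1 : ∀ c : ConjClasses T, (if c = ConjClasses.mk 1 then 0 else (2 * m + 1)) ≤ c.carrier.ncard := by
    intro c
    induction c using Quotient.inductionOn with
    | h x =>
      by_cases hx : x = 1
      · subst hx
        rw [if_pos]
        · exact Nat.zero_le _
        · rfl
      · rw [if_neg]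
        · exact hsz x hx
        · intro hc
          apply hx
          have : IsConj x 1 := ConjClasses.mk_eq_mk_iff_isConj.1 hc
          exact isConj_one_left.1 this
  have h2 := Finset.sum_le_sum (fun c (_ : c ∈ Finset.univ) => h1 c)
  rw [hsum, Finset.sum_ite, Finset.sum_const_zero, zero_add, Finset.sum_const, smul_eq_mul] at h2
  have h3 : (Finset.univ.filter (fun c : ConjClasses T => ¬ c = ConjClasses.mk 1)).card =
      Nat.card (ConjClasses T) - 1 := by
    rw [Finset.filter_not, Finset.card_sdiff_of_subset (Finset.filter_subset _ _), Finset.filter_eq',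
      if_pos (Finset.mem_univ _), Finset.card_singleton, Finset.card_univ, Nat.card_eq_fintype_card]
  rw [h3] at h2
  have hpos : 0 < Nat.card (ConjClasses T) := Nat.card_pos
  obtain ⟨q, hq⟩ : ∃ q, Nat.card (ConjClasses T) = q + 1 := ⟨_, (Nat.succ_pred_eq_of_pos hpos).symm⟩
  rw [hq] at h2 h
  simp only [Nat.add_sub_cancel] at h2
  nlinarith [h2, h, hcon, Nat.factorial_pos (2 * m)]

/-- the bound for characteristically simple groups of even order -/
def bnd (a C : ℕ) : ℕ := 2 ^ a + ((2 * C).factorial + 2 * C) ^ a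

theorem charsimple_card_le {N : Type*} [Group N] [Finite N] [Nontrivial N]
    (hch : ∀ H : Subgroup N, H.Characteristic → H = ⊥ ∨ H = ⊤) (heven : 2 ∣ Nat.card N) {C a : ℕ}
    (h : Nat.card N ≤ C * Nat.card (ConjClasses N)) (ha : ¬ 2 ^ (a + 1) ∣ Nat.card N) :
    Nat.card N ≤ bnd a C := by
  classical
  by_cases hc : ∀ x y : N, x * y = y * x
  · obtain ⟨p, hp, m, -, ⟨e⟩⟩ := Cfsg.Agent.H9.Pow.exists_pow_abelian hch hc
    have h1 : Nat.card N = p ^ m := by
      rw [Nat.card_congr e.toEquiv, Nat.card_fun]
      simp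
    rw [h1] at heven ha ⊢
    have h2 : p = 2 := ((Nat.prime_dvd_prime_iff_eq Nat.prime_two hp.out).1
      (Nat.Prime.dvd_of_dvd_pow Nat.prime_two heven)).symm
    subst h2
    have h3 : m < a + 1 := by
      by_contra hcon
      push Not at hcon
      exact ha (pow_dvd_pow 2 hcon)
    have h4 : 2 ^ m ≤ 2 ^ a := Nat.pow_le_pow_right (by norm_num) (by omega)
    exact h4.trans (Nat.le_add_right _ _)
  · obtain ⟨T, hT, m, hm, hTs, hTn, ⟨e⟩⟩ := Cfsg.Agent.H9.Pow.exists_pow_nonabelian hch hc
    haveI : Nonempty (Fin m) := ⟨⟨0, hm⟩⟩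
    haveI hTfin : Finite T := by
      have : Function.Injective (fun t : T => e.symm (fun _ => t)) := by
        intro s t hst
        have := congrFun (e.symm.injective hst) ⟨0, hm⟩
        exact this
      exact Finite.of_injective _ this
    have h1 : Nat.card N = Nat.card T ^ m := by
      rw [Nat.card_congr e.toEquiv, Nat.card_fun]
      simp
    have hT2 : 2 ∣ Nat.card T := by
      rw [h1] at heven
      exact Nat.Prime.dvd_of_dvd_pow Nat.prime_two heven
    have hma : m ≤ a := by
      by_contra hcon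
      push Not at hcon
      apply ha
      rw [h1]
      exact (pow_dvd_pow 2 hcon).trans (pow_dvd_pow_of_dvd hT2 m)
    have hcp : commProb N ≤ commProb T := by
      have h2 : commProb N = commProb (Fin m → T) := by
        rw [commProb_def, commProb_def, Nat.card_congr e.toEquiv]
        congr 2
        apply Nat.card_congr
        exact {
          toFun := fun p => ⟨(e p.1.1, e p.1.2), p.2.map e⟩
          invFun := fun p => ⟨(e.symm p.1.1, e.symm p.1.2), p.2.map e.symm⟩
          left_inv := fun p => by simp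
          right_inv := fun p => by simp }
      rw [h2, commProb_function, Fintype.card_fin]
      exact pow_le_of_le_one (commProb_pos T).le (commProb_le_one T) (by omega)
    have hTC : Nat.card T ≤ C * Nat.card (ConjClasses T) := by
      rw [commProb_def', commProb_def'] at hcp
      have hNpos : (0 : ℚ) < Nat.card N := by exact_mod_cast Nat.card_pos
      have hTpos : (0 : ℚ) < Nat.card T := by exact_mod_cast Nat.card_pos
      rw [div_le_div_iff₀ hNpos hTpos] at hcp
      have hq : (Nat.card N : ℚ) ≤ C * Nat.card (ConjClasses N) := by exact_mod_cast h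
      have h3 : (Nat.card N : ℚ) * Nat.card T ≤ (C * Nat.card (ConjClasses T)) * Nat.card N := by
        calc (Nat.card N : ℚ) * Nat.card T ≤ (C * Nat.card (ConjClasses N)) * Nat.card T :=
              mul_le_mul_of_nonneg_right hq hTpos.le
          _ = C * (Nat.card (ConjClasses N) * Nat.card T) := by ring
          _ ≤ C * (Nat.card (ConjClasses T) * Nat.card N) :=
              mul_le_mul_of_nonneg_left hcp (Nat.cast_nonneg _)
          _ = _ := by ring
      have h4 : (Nat.card T : ℚ) ≤ C * Nat.card (ConjClasses T) := by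
        rw [mul_comm (Nat.card N : ℚ)] at h3
        exact le_of_mul_le_mul_right h3 hNpos
      exact_mod_cast h4
    have h5 := simple_card_le hTn hTC
    rw [h1]
    have h6 : 0 < Nat.card T := Nat.card_pos
    calc Nat.card T ^ m ≤ ((2 * C).factorial + 2 * C) ^ m := Nat.pow_le_pow_left h5 m
      _ ≤ ((2 * C).factorial + 2 * C) ^ a := Nat.pow_le_pow_right (by omega) hma
      _ ≤ bnd a C := Nat.le_add_left _ _

/-- characteristic subgroups of a minimal normal subgroup -/
theorem char_of_minimal {X : Type*} [Group X] {N : Subgroup X} (hN : N.Normal)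
    (hmin : ∀ K : Subgroup X, K.Normal → K ≤ N → K = ⊥ ∨ K = N) (H : Subgroup N) (hH : H.Characteristic) :
    H = ⊥ ∨ H = ⊤ := by
  have hHn : (H.map N.subtype).Normal := inferInstance
  rcases hmin _ hHn (Subgroup.map_subtype_le H) with h | h
  · left
    exact (Subgroup.map_eq_bot_iff_of_injective _ N.subtype_injective).1 h
  · right
    rw [eq_top_iff]
    intro x _
    have : (x : X) ∈ H.map N.subtype := by rw [h]; exact x.2
    obtain ⟨y, hy, hxy⟩ := this
    have : y = x := Subtype.ext hxy
    rwa [← this]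

theorem card_eq_of_centralizer {X : Type*} [Group X] [Finite X] {N : Subgroup X} [N.Normal] {v : X} (hv : v ∈ N) :
    Nat.card X ≤ Nat.card N * Nat.card (centralizer ({v} : Set X)) := by
  have h2 := card_cls (⊤ : Subgroup X) v
  rw [top_inf_eq, card_top] at h2
  rw [← h2]
  apply Nat.mul_le_mul_right
  have : cls (⊤ : Subgroup X) v ⊆ (N : Set X) := by
    rintro _ ⟨y, rfl⟩
    exact (inferInstance : N.Normal).conj_mem v hv y
  exact Nat.card_mono (Set.toFinite _) this

theorem odd_of_coprime_two {n : ℕ} (h : n.Coprime 2) : Odd n := by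
  rwa [Nat.coprime_two_right] at h

/-- the hypotheses on the four-group -/
structure Hyp (X : Type*) [Group X] (n : ℕ) (v w : X) : Prop where
  hv : v * v = 1
  hw : w * w = 1
  hvw : v * w = w * v
  hv1 : v ≠ 1
  hw1 : w ≠ 1
  hne : v ≠ w
  cv : Nat.card (centralizer ({v} : Set X)) ≤ n
  cw : Nat.card (centralizer ({w} : Set X)) ≤ n
  cvw : Nat.card (centralizer ({v * w} : Set X)) ≤ n

theorem Hyp.quot {X : Type*} [Group X] [Finite X] {n : ℕ} {v w : X} (h : Hyp X n v w) (N : Subgroup X) [N.Normal]
    (h1 : v ∉ N) (h2 : w ∉ N) (h3 : v * w ∉ N) : Hyp (X ⧸ N) n (QuotientGroup.mk' N v) (QuotientGroup.mk' N w) where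
  hv := by rw [← map_mul, h.hv, map_one]
  hw := by rw [← map_mul, h.hw, map_one]
  hvw := by rw [← map_mul, h.hvw, map_mul]
  hv1 := fun h' => h1 ((QuotientGroup.eq_one_iff v).1 h')
  hw1 := fun h' => h2 ((QuotientGroup.eq_one_iff w).1 h')
  hne := by
    intro h'
    apply h3
    rw [← QuotientGroup.eq_one_iff]
    have : QuotientGroup.mk' N (v * w) = 1 := by
      rw [map_mul, ← h', ← map_mul, h.hv, map_one]
    exact this
  cv := (card_centralizer_quot N v).trans h.cv
  cw := (card_centralizer_quot N w).trans h.cw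
  cvw := by
    rw [← map_mul]
    exact (card_centralizer_quot N (v * w)).trans h.cvw

theorem Hyp.vw {X : Type*} [Group X] {n : ℕ} {v w : X} (h : Hyp X n v w) : v * w ≠ 1 ∧ (v * w) * (v * w) = 1 := by
  constructor
  · intro h'
    apply h.hne
    have := h.hw
    exact mul_right_cancel (h'.trans this.symm)
  · calc v * w * (v * w) = v * w * (w * v) := by rw [h.hvw]
      _ = v * (w * w) * v := by group
      _ = 1 := by rw [h.hw, mul_one, h.hv]

theorem two_dvd_of_mem {X : Type*} [Group X] [Finite X] {v : X} (hv : v * v = 1) (hv1 : v ≠ 1) {N : Subgroup X}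
    (h : v ∈ N) : 2 ∣ Nat.card N := by
  have h1 : orderOf (⟨v, h⟩ : N) = 2 := by
    apply orderOf_eq_prime
    · rw [sq]; exact Subtype.ext hv
    · intro h'
      exact hv1 (congrArg Subtype.val h')
  rw [← h1]; exact orderOf_dvd_natCard _

theorem bf_step {X : Type*} [Group X] [Finite X] {n a : ℕ} {v w : X} (h : Hyp X n v w)
    (hcore : Cfsg.pPrimeCore 2 X = ⊥) (ha : ¬ 2 ^ (a + 2) ∣ Nat.card X) :
    Nat.card X ≤ bnd (a + 1) (n ^ 2) * n ∨
    ∃ N : Subgroup X, ∃ _ : N.Normal, Nat.card N ≤ bnd (a + 1) (n ^ 2) ∧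
      Hyp (X ⧸ N) n (QuotientGroup.mk' N v) (QuotientGroup.mk' N w) ∧ ¬ 2 ^ (a + 1) ∣ Nat.card (X ⧸ N) := by
  classical
  have hX : (⊤ : Subgroup X) ≠ ⊥ := by
    intro h'
    apply h.hv1
    rw [← mem_bot, ← h']; exact mem_top _
  obtain ⟨N, hN, hN1, -, hmin⟩ := Cfsg.Agent.H1.exists_minimal_normal_le (inferInstance : (⊤ : Subgroup X).Normal) hX
  haveI : Nontrivial N := (Subgroup.nontrivial_iff_ne_bot N).mpr hN1
  have heven : 2 ∣ Nat.card N := by
    by_contra hodd
    apply hN1
    rw [eq_bot_iff, ← hcore]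
    apply Cfsg.Agent.H1.le_pPrimeCore hN
    rw [Nat.coprime_two_right]
    exact Nat.odd_iff.2 (by omega)
  have hNb : Nat.card N ≤ bnd (a + 1) (n ^ 2) := by
    apply charsimple_card_le (char_of_minimal hN hmin) heven
    · refine (card_le_conj N h.hv).trans ?_
      apply Nat.mul_le_mul_right
      apply Nat.pow_le_pow_left
      exact (Subgroup.card_le_of_le inf_le_right).trans h.cv
    · intro h'
      exact ha (h'.trans (Subgroup.card_subgroup_dvd_card N))
  by_cases h1 : v ∈ N
  · left
    exact (card_eq_of_centralizer h1).trans (Nat.mul_le_mul hNb h.cv)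
  by_cases h2 : w ∈ N
  · left
    exact (card_eq_of_centralizer h2).trans (Nat.mul_le_mul hNb h.cw)
  by_cases h3 : v * w ∈ N
  · left
    exact (card_eq_of_centralizer h3).trans (Nat.mul_le_mul hNb h.cvw)
  right
  refine ⟨N, hN, hNb, h.quot N h1 h2 h3, ?_⟩
  intro h'
  apply ha
  rw [Subgroup.card_eq_card_quotient_mul_card_subgroup N, pow_succ]
  exact mul_dvd_mul h' heven

theorem bf (n : ℕ) : ∀ a : ℕ, ∃ B : ℕ, ∀ (X : Type u) [Group X] [Finite X] (v w : X), Hyp X n v w →
    ¬ 2 ^ (a + 1) ∣ Nat.card X → Nat.card X ≤ B := by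
  intro a
  induction a with
  | zero =>
    refine ⟨0, ?_⟩
    intro X _ _ v w h hX
    exfalso
    apply hX
    have := two_dvd_of_mem h.hv h.hv1 (mem_top v)
    rwa [card_top] at this
  | succ a ih =>
    obtain ⟨B, hB⟩ := ih
    refine ⟨(n * n * n) * (bnd (a + 1) (n ^ 2) * (n + B)), ?_⟩
    intro X _ _ v w h hX
    set Y := Cfsg.pPrimeCore 2 X with hY
    haveI hYn : Y.Normal := Cfsg.Agent.H1.pPrimeCore_normal 2 X
    have hYodd : Odd (Nat.card Y) := odd_of_coprime_two (Cfsg.Agent.H1.pPrimeCore_coprime 2 X)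
    have hnot : ∀ x : X, x * x = 1 → x ≠ 1 → x ∉ Y := by
      intro x hx hx1 hxY
      have := two_dvd_of_mem hx hx1 hxY
      rw [Nat.odd_iff] at hYodd
      omega
    have hYb : Nat.card Y ≤ n * n * n := by
      refine (card_le_four Y hYodd h.hv h.hw h.hvw).trans ?_
      apply Nat.mul_le_mul (Nat.mul_le_mul _ _) _
      · exact (Subgroup.card_le_of_le inf_le_right).trans h.cv
      · exact (Subgroup.card_le_of_le inf_le_right).trans h.cw
      · exact (Subgroup.card_le_of_le inf_le_right).trans h.cvw
    have h1 := h.quot Y (hnot v h.hv h.hv1) (hnot w h.hw h.hw1) (hnot _ h.vw.2 h.vw.1)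
    have hX1 : ¬ 2 ^ (a + 2) ∣ Nat.card (X ⧸ Y) := by
      intro h'
      apply hX
      rw [Subgroup.card_eq_card_quotient_mul_card_subgroup Y]
      exact Dvd.dvd.mul_right h' _
    have hq : Nat.card (X ⧸ Y) ≤ bnd (a + 1) (n ^ 2) * (n + B) := by
      rcases bf_step h1 (Cfsg.Agent.H1.pPrimeCore_quotient_eq_bot 2) hX1 with h2 | ⟨N, hN, hNb, h2, h3⟩
      · exact h2.trans (Nat.mul_le_mul_left _ (Nat.le_add_right _ _))
      · have h4 := hB _ _ _ h2 h3
        rw [Subgroup.card_eq_card_quotient_mul_card_subgroup N, mul_comm]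
        exact Nat.mul_le_mul hNb (h4.trans (Nat.le_add_left _ _))
    rw [Subgroup.card_eq_card_quotient_mul_card_subgroup Y, mul_comm]
    exact Nat.mul_le_mul hYb hq

end Cfsg.Agent.H20.BF
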