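import Mathlib
import Cfsg.Agent.H20.BF2
import Cfsg.Agent.H26.Defic
import Cfsg.Agent.H26.Landau
import Cfsg.Agent.H3.Clifford

/-! 2-blocks: groups of deficiency class r with an elementary abelian 2-subgroup of rank r+1. -/

set_option autoImplicit false
set_option linter.style.haveILetI false
set_option linter.unusedSectionVars false

universe u

namespace Cfsg.Agent.H20.BF

open Subgroup Cfsg

/-- deficiency class r -/
def DC (p : ℕ) (M : Ideal AlgInt) (G : Type u) [Group G] [Finite G] (r : ℕ) : Prop :=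
  ∀ B : Set (IrrCharacter G), IsPBlock M B → B ≠ principalBlock M G → blockDefect p B < r

theorem le_blockDefect {G : Type u} [Group G] [Finite G] {p : ℕ} [hp : Fact p.Prime] {Q : Subgroup G} (hQ : Q ≤ center G)
    {j : ℕ} (hj : Nat.card Q = p ^ j) (B : Set (IrrCharacter G)) : j ≤ blockDefect p B := by
  classical
  have hcard : Q.index * p ^ j = Nat.card G := by rw [← hj]; exact Q.index_mul_card
  have hpos : 0 < Q.index := Nat.pos_of_ne_zero Q.index_ne_zero_of_finite
  have hfac : (Nat.card G).factorization p = (Q.index).factorization p + j := by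
    rw [← hcard, Nat.factorization_mul hpos.ne' (pow_ne_zero _ hp.out.ne_zero)]
    simp [hp.out.factorization_self]
  unfold blockDefect
  by_cases hB : B.Nonempty
  · obtain ⟨χ, hχ⟩ := hB
    have h1 : sInf ((fun χ : IrrCharacter G => (charDegree (χ : G → ℂ)).factorization p) '' B) ≤
        (charDegree (χ : G → ℂ)).factorization p := Nat.sInf_le ⟨χ, hχ, rfl⟩
    have h2 : charDegree (χ : G → ℂ) ∣ Q.index := by
      have hQn : Q.Normal := ⟨fun x hx g => by
        have := mem_center_iff.1 (hQ hx) g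
        rw [this, mul_assoc, mul_inv_cancel, mul_one]; exact hx⟩
      apply Cfsg.Agent.H3.ito_degree_dvd χ.2 Q hQn
      · intro x hx y hy
        exact (mem_center_iff.1 (hQ hy) x)
      · exact (Cfsg.Agent.H27.charDegree_cast (Cfsg.Agent.H3.irr_isChar χ.2)).symm
    have h3 : (charDegree (χ : G → ℂ)).factorization p ≤ (Q.index).factorization p :=
      (Nat.factorization_le_iff_dvd (Nat.pos_of_dvd_of_pos h2 hpos).ne' hpos.ne').2 h2 p
    omega
  · rw [Set.not_nonempty_iff_eq_empty] at hB
    subst hB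
    simp only [Set.image_empty, Nat.sInf_empty]
    omega

theorem bnd_all (p : ℕ) [Fact p.Prime] (a : ℕ) : ∃ N : ℕ, ∀ (G : Type u) [Group G] [Finite G]
    (M : Ideal AlgInt), IsPModular p M → (Nat.card G).factorization p ≤ a →
    (∀ B : Set (IrrCharacter G), IsPBlock M B → B = principalBlock M G) → Nat.card G ≤ N := by
  choose L hL using fun a => Cfsg.Agent.H26.st4718.{u} p a
  refine ⟨∑ j ∈ Finset.range (a + 1), L j, fun G _ _ M hM hG hB => ?_⟩
  exact (hL _ G M hM rfl hB).trans (Finset.single_le_sum (f := L) (fun _ _ => Nat.zero_le _)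
    (Finset.mem_range.mpr (by omega)))

theorem main (a : ℕ) : ∀ k : ℕ, ∃ N : ℕ, ∀ (G : Type u) [Group G] [Finite G] (M : Ideal AlgInt) (r : ℕ),
    IsPModular 2 M → (Nat.card G).factorization 2 ≤ a → DC 2 M G r →
    ∀ E : Subgroup G, (∀ x ∈ E, ∀ y ∈ E, x * y = y * x) → (∀ x ∈ E, x * x = 1) → Nat.card E = 2 ^ (r + 1) →
    ∀ Q : Subgroup G, Q ≤ E → Q ≤ center G → 2 ^ r ≤ Nat.card Q * 2 ^ k → Nat.card G ≤ N := by
  intro k
  induction k with
  | zero =>
    obtain ⟨N, hN⟩ := bnd_all.{u} 2 a
    refine ⟨N, ?_⟩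
    intro G _ _ M r hM ha hDC E hEc hE2 hEcard Q hQE hQZ hQ
    apply hN G M hM ha
    intro B hB
    by_contra hne
    have h1 := hDC B hB hne
    obtain ⟨j, hj⟩ : ∃ j, Nat.card Q = 2 ^ j := by
      have : Nat.card Q ∣ 2 ^ (r + 1) := by rw [← hEcard]; exact Subgroup.card_dvd_of_le hQE
      obtain ⟨j, -, hj⟩ := (Nat.dvd_prime_pow Nat.prime_two).1 this
      exact ⟨j, hj⟩
    have h2 := le_blockDefect hQZ hj B
    rw [hj, pow_zero, mul_one] at hQ
    have h3 : r ≤ j := (Nat.pow_le_pow_iff_right (by norm_num)).1 hQ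
    omega
  | succ k ih =>
    obtain ⟨n, hn⟩ := ih
    obtain ⟨B, hB⟩ := bf.{u} n a
    refine ⟨n + 2 ^ a * B, ?_⟩
    intro G _ _ M r hM ha hDC E hEc hE2 hEcard Q hQE hQZ hQ
    by_cases hcase : 2 ^ r ≤ Nat.card Q * 2 ^ k
    · exact (hn G M r hM ha hDC E hEc hE2 hEcard Q hQE hQZ hcase).trans (Nat.le_add_right _ _)
    push Not at hcase
    haveI hQn : Q.Normal := ⟨fun x hx g => by
      have := mem_center_iff.1 (hQZ hx) g
      rw [this, mul_assoc, mul_inv_cancel, mul_one]; exact hx⟩
    have hGpos : Nat.card G ≠ 0 := Nat.card_pos.ne'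
    -- small centralizers
    have hcent : ∀ v ∈ E, v ∉ Q → Nat.card (centralizer ({v} : Set G)) ≤ n := by
      intro v hvE hvQ
      set C := centralizer ({v} : Set G) with hC
      have hv1 : v ≠ 1 := by rintro rfl; exact hvQ Q.one_mem
      have hv2 : v * v = 1 := hE2 v hvE
      have hord : orderOf v = 2 := orderOf_eq_prime (by rw [sq]; exact hv2) hv1
      have hEC : E ≤ C := by
        intro x hx
        rw [hC, mem_centralizer_singleton_iff]
        exact hEc x hx v hvE
      have hQ1E : Q ⊔ zpowers v ≤ E := sup_le hQE (by rwa [zpowers_le])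
      have hQ1C : Q ⊔ zpowers v ≤ C := hQ1E.trans hEC
      have hQ1c : Q ⊔ zpowers v ≤ centralizer (C : Set G) := by
        refine sup_le (hQZ.trans (center_le_centralizer _)) ?_
        rw [zpowers_le, mem_centralizer_iff]
        intro h hh
        exact mem_centralizer_singleton_iff.1 hh
      refine hn C M r hM ?_ ?_ (E.subgroupOf C) ?_ ?_ ?_ ((Q ⊔ zpowers v).subgroupOf C) ?_ ?_ ?_
      · refine le_trans ?_ ha
        exact (Nat.factorization_le_iff_dvd Nat.card_pos.ne' hGpos).2 (Subgroup.card_subgroup_dvd_card C) 2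
      · exact (Cfsg.Agent.H26.st4717 2 M hM r).1 hDC v ⟨1, by rw [hord]; norm_num⟩
      · intro x hx y hy
        exact Subtype.ext (hEc x (mem_subgroupOf.1 hx) y (mem_subgroupOf.1 hy))
      · intro x hx
        exact Subtype.ext (hE2 x (mem_subgroupOf.1 hx))
      · rw [Nat.card_congr (Subgroup.subgroupOfEquivOfLe hEC).toEquiv]; exact hEcard
      · intro x hx
        exact mem_subgroupOf.2 (hQ1E (mem_subgroupOf.1 hx))
      · intro x hx
        rw [mem_center_iff]
        intro y
        exact Subtype.ext (mem_centralizer_iff.1 (hQ1c (mem_subgroupOf.1 hx)) y y.2)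
      · rw [Nat.card_congr (Subgroup.subgroupOfEquivOfLe hQ1C).toEquiv]
        have hlt : Q < Q ⊔ zpowers v := by
          rw [left_lt_sup]
          intro h
          exact hvQ (h (mem_zpowers v))
        obtain ⟨c, hc⟩ := Subgroup.card_dvd_of_le hlt.le
        have h1 : Nat.card Q < Nat.card (Q ⊔ zpowers v : Subgroup G) := by
          apply lt_of_le_of_ne (Subgroup.card_le_of_le hlt.le)
          intro h
          exact hlt.ne (Subgroup.eq_of_le_of_card_ge hlt.le h.ge)
        have hc2 : 2 ≤ c := by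
          rcases c with _ | _ | c
          · omega
          · omega
          · omega
        have h2 : Nat.card Q * 2 ≤ Nat.card (Q ⊔ zpowers v : Subgroup G) := by
          rw [hc]; exact Nat.mul_le_mul_left _ hc2
        calc 2 ^ r ≤ Nat.card Q * 2 ^ (k + 1) := hQ
          _ = Nat.card Q * 2 * 2 ^ k := by ring
          _ ≤ _ := Nat.mul_le_mul_right _ h2
    -- the four-group
    have hQlt : Nat.card Q < 2 ^ r := lt_of_le_of_lt (Nat.le_mul_of_pos_right _ (by positivity)) hcase
    obtain ⟨v, hvE, hvQ⟩ : ∃ v ∈ E, v ∉ Q := by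
      by_contra hcon
      push Not at hcon
      have := Subgroup.card_le_of_le (show E ≤ Q from hcon)
      rw [hEcard, pow_succ] at this
      omega
    obtain ⟨w, hwE, hwQ, hwvQ⟩ : ∃ w ∈ E, w ∉ Q ∧ v * w ∉ Q := by
      by_contra hcon
      push Not at hcon
      have h1 : (E : Set G) ⊆ (Q : Set G) ∪ (fun x => v * x) '' (Q : Set G) := by
        intro w hw
        by_cases h : w ∈ Q
        · exact Or.inl h
        · right
          refine ⟨v * w, hcon w hw h, ?_⟩
          simp only
          rw [← mul_assoc, hE2 v hvE, one_mul]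
      have h2 := Set.ncard_le_ncard h1 (Set.toFinite _)
      have h3 := Set.ncard_union_le (Q : Set G) ((fun x => v * x) '' (Q : Set G))
      have h4 : ((fun x => v * x) '' (Q : Set G)).ncard ≤ (Q : Set G).ncard := Set.ncard_image_le (Set.toFinite _)
      have h5 : (Q : Set G).ncard = Nat.card Q := (Nat.card_coe_set_eq _).symm
      have h6 : (E : Set G).ncard = Nat.card E := (Nat.card_coe_set_eq _).symm
      rw [hEcard, pow_succ] at h6
      omega
    have hvw : v * w = w * v := hEc v hvE w hwE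
    have hHyp : Hyp G n v w := {
      hv := hE2 v hvE
      hw := hE2 w hwE
      hvw := hvw
      hv1 := by rintro rfl; exact hvQ Q.one_mem
      hw1 := by rintro rfl; exact hwQ Q.one_mem
      hne := by
        rintro rfl
        apply hwvQ
        rw [hE2 v hvE]; exact Q.one_mem
      cv := hcent v hvE hvQ
      cw := hcent w hwE hwQ
      cvw := hcent _ (E.mul_mem hvE hwE) hwvQ }
    have h1 := hB _ _ _ (hHyp.quot Q hvQ hwQ hwvQ) (by
      intro h'
      have h2 : 2 ^ (a + 1) ∣ Nat.card G := by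
        rw [Subgroup.card_eq_card_quotient_mul_card_subgroup Q]
        exact Dvd.dvd.mul_right h' _
      have h3 := (Nat.Prime.pow_dvd_iff_le_factorization Nat.prime_two hGpos).1 h2
      omega)
    have hQa : Nat.card Q ≤ 2 ^ a := by
      have : Nat.card Q ∣ 2 ^ (r + 1) := by rw [← hEcard]; exact Subgroup.card_dvd_of_le hQE
      obtain ⟨j, -, hj⟩ := (Nat.dvd_prime_pow Nat.prime_two).1 this
      rw [hj]
      apply Nat.pow_le_pow_right (by norm_num)
      refine le_trans ?_ ha
      apply (Nat.Prime.pow_dvd_iff_le_factorization Nat.prime_two hGpos).1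
      rw [← hj]
      exact Subgroup.card_subgroup_dvd_card Q
    calc Nat.card G = Nat.card (G ⧸ Q) * Nat.card Q := Subgroup.card_eq_card_quotient_mul_card_subgroup Q
      _ ≤ B * 2 ^ a := Nat.mul_le_mul h1 hQa
      _ = 2 ^ a * B := mul_comm _ _
      _ ≤ _ := Nat.le_add_left _ _

theorem st4719 (a : ℕ) : ∃ N : ℕ, ∀ (G : Type u) [Group G] [Finite G] (M : Ideal AlgInt) (r : ℕ) (P : Sylow 2 G),
    IsPModular 2 M → Nat.card P = 2 ^ a → DC 2 M G r →
    (∃ E : Subgroup G, E ≤ (P : Subgroup G) ∧ IsMulCommutative E ∧ (∀ x ∈ E, x * x = 1) ∧ Nat.card E = 2 ^ (r + 1)) →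
    Nat.card G ≤ N := by
  obtain ⟨N, hN⟩ := main.{u} a a
  refine ⟨N, ?_⟩
  rintro G _ _ M r P hM hP hDC ⟨E, hEP, hEc, hE2, hEcard⟩
  have hfac : (Nat.card G).factorization 2 = a := by
    have h1 := P.card_eq_multiplicity
    rw [hP] at h1
    exact (Nat.pow_right_injective (le_refl 2) h1).symm
  have hr : r ≤ a := by
    have h1 : 2 ^ (r + 1) ∣ 2 ^ a := by rw [← hEcard, ← hP]; exact Subgroup.card_dvd_of_le hEP
    have h2 := (Nat.pow_dvd_pow_iff_le_right (by norm_num)).1 h1
    omega
  refine hN G M r hM hfac.le hDC E ?_ hE2 hEcard ⊥ bot_le bot_le ?_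
  · intro x hx y hy
    have h1 := hEc.is_comm.comm ⟨x, hx⟩ ⟨y, hy⟩
    exact congrArg Subtype.val h1
  · rw [card_bot, one_mul]
    exact Nat.pow_le_pow_right (by norm_num) hr

end Cfsg.Agent.H20.BF
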