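import Cfsg.Agent.H27.Ch12D
import Cfsg.Agent.H20.ZCoh1
import Cfsg.Agent.H3.Fix
import Cfsg.Agent.H3.Burnside
import Cfsg.Agent.H3.BurnsidePQ
import Cfsg.Agent.H1.CLT

/-! # Groups with character degrees 1 and p (helper20) -/

set_option autoImplicit false
set_option linter.style.haveILetI false
set_option linter.unusedSectionVars false
open Cfsg
open scoped ComplexConjugate

namespace Cfsg.Agent.H20.CD

open Cfsg.Agent.H3 Cfsg.Agent.H27 Subgroup

universe u

variable {G : Type u} [Group G]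

/-- two nontrivial elements are not covered by the kernels -/
theorem not_covered [Finite G] {u v : G} (hu : u ≠ 1) (hv : v ≠ 1)
    (h : ∀ χ : IrrCharacter G, (χ : G → ℂ) u = (χ : G → ℂ) 1 ∨ (χ : G → ℂ) v = (χ : G → ℂ) 1) :
    False := by
  classical
  haveI := Fintype.ofFinite (IrrCharacter G)
  have h0 : ∑ χ : IrrCharacter G,
      (((χ : G → ℂ) 1 - (χ : G → ℂ) u) * conj ((χ : G → ℂ) 1 - (χ : G → ℂ) v)) = 0 := by
    apply Finset.sum_eq_zero
    intro χ _
    rcases h χ with h | h <;> rw [h] <;> simp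
  have e : ∀ χ : IrrCharacter G,
      ((χ : G → ℂ) 1 - (χ : G → ℂ) u) * conj ((χ : G → ℂ) 1 - (χ : G → ℂ) v) =
      (χ : G → ℂ) 1 * conj ((χ : G → ℂ) 1) - (χ : G → ℂ) 1 * conj ((χ : G → ℂ) v)
        - (χ : G → ℂ) u * conj ((χ : G → ℂ) 1) + (χ : G → ℂ) u * conj ((χ : G → ℂ) v) := by
    intro χ
    rw [map_sub]; ring
  rw [Finset.sum_congr rfl fun χ _ => e χ, Finset.sum_add_distrib, Finset.sum_sub_distrib,
    Finset.sum_sub_distrib, column_orth, column_orth, column_orth, column_orth,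
    if_pos (IsConj.refl 1), if_neg (fun hh => hv (isConj_one_right.mp hh)),
    if_neg (fun hh => hu (isConj_one_left.mp hh))] at h0
  have hc : (0 : ℕ) < Nat.card (Subgroup.centralizer ({1} : Set G)) := Nat.card_pos
  split_ifs at h0 with huv
  · have h1 : ((Nat.card (Subgroup.centralizer ({1} : Set G)) +
        Nat.card (Subgroup.centralizer ({u} : Set G)) : ℕ) : ℂ) = ((0 : ℕ) : ℂ) := by
      push_cast; linear_combination h0
    have h2 := Nat.cast_injective h1
    omega
  · have h1 : ((Nat.card (Subgroup.centralizer ({1} : Set G)) : ℕ) : ℂ) = ((0 : ℕ) : ℂ) := by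
      push_cast; linear_combination h0
    have h2 := Nat.cast_injective h1
    omega

/-- the centre of a nonabelian normal subgroup is central -/
theorem center_le [Finite G] {p : ℕ} (hp : p.Prime)
    (hcd : ∀ χ : IrrCharacter G, charDegree (χ : G → ℂ) = 1 ∨ charDegree (χ : G → ℂ) = p)
    {M : Subgroup G} (hM : M.Normal) (hna : ∃ a ∈ M, ∃ b ∈ M, a * b ≠ b * a) {z : G} (hz : z ∈ M)
    (hzc : ∀ m ∈ M, z * m = m * z) : z ∈ center G := by
  classical
  haveI := Fintype.ofFinite G
  haveI := Fintype.ofFinite M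
  rw [mem_center_iff]
  by_contra hcon
  push Not at hcon
  obtain ⟨g, hg⟩ := hcon
  obtain ⟨a, ha, b, hb, hab⟩ := hna
  refine not_covered (u := (z * g)⁻¹ * (g * z)) (v := a * b * a⁻¹ * b⁻¹) ?_ ?_ ?_
  · intro h
    exact hg (inv_mul_eq_one.mp h).symm
  · intro h
    apply hab
    have h3 : a * b = 1 * b * a := by rw [← h]; group
    simpa using h3
  intro χ
  by_cases hlin : ∀ θ : IrrCharacter M, classInner (fun m : M => (χ : G → ℂ) m) θ ≠ 0 →
      (θ : M → ℂ) 1 = 1
  · right
    have h2 : (⟨a, ha⟩ * ⟨b, hb⟩ * ⟨a, ha⟩⁻¹ * ⟨b, hb⟩⁻¹ : M) ∈ commutator M := by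
      have h2 := Subgroup.commutator_mem_commutator (Subgroup.mem_top (⟨a, ha⟩ : M))
        (Subgroup.mem_top (⟨b, hb⟩ : M))
      rw [commutatorElement_def] at h2
      rw [commutator_def]
      exact h2
    exact char_commutator_of_all_linear (isChar_restrict M (irr_isChar χ.2)) hlin h2
  · left
    push Not at hlin
    obtain ⟨θ, hne, hθ1⟩ := hlin
    obtain ⟨h1, -⟩ := ratio_dvd_index hM χ.2 θ.2 hne (charDegree (χ : G → ℂ))
      (charDegree (θ : M → ℂ)) (charDegree_cast (irr_isChar χ.2)).symm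
      (charDegree_cast (irr_isChar θ.2)).symm
    have hθd : charDegree (θ : M → ℂ) ≠ 1 := by
      intro h
      apply hθ1
      rw [← charDegree_cast (irr_isChar θ.2), h, Nat.cast_one]
    have hχd : charDegree (χ : G → ℂ) = p := by
      rcases hcd χ with h | h
      · rw [h] at h1
        exact absurd (Nat.dvd_one.mp h1) hθd
      · exact h
    have hθp : charDegree (θ : M → ℂ) = p := by
      rw [hχd] at h1
      exact ((Nat.dvd_prime hp).mp h1).resolve_left hθd
    have hsub := isChar_sub_irr (isChar_restrict M (irr_isChar χ.2)) θ.2 hne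
    have hzero : (fun m : M => (χ : G → ℂ) m) - (θ : M → ℂ) = 0 := by
      by_contra h0
      obtain ⟨n, hn0, hn⟩ := char_ne_zero_pos hsub h0
      rw [Pi.sub_apply, ← charDegree_cast (irr_isChar θ.2), hθp] at hn
      have h5 : (χ : G → ℂ) ((1 : M) : G) = (p : ℂ) := by
        rw [OneMemClass.coe_one, ← charDegree_cast (irr_isChar χ.2), hχd]
      rw [h5, sub_self] at hn
      exact hn0.ne' (by exact_mod_cast hn.symm)
    have hθχ : (θ : M → ℂ) = fun m : M => (χ : G → ℂ) m := (sub_eq_zero.mp hzero).symm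
    have h6 := Cfsg.Agent.H20.Zass.norm_of_central θ.2 (m := ⟨z, hz⟩) (by
      intro k
      have e : k * (⟨z, hz⟩ : M) * k⁻¹ * (⟨z, hz⟩ : M)⁻¹ = 1 := by
        rw [mul_inv_eq_one, mul_inv_eq_iff_eq_mul]
        exact Subtype.ext (hzc k k.2).symm
      rw [e])
    rw [hθχ] at h6
    obtain ⟨n, ρ, hρ, hχρ⟩ := χ.2
    have h7 : ‖ρ.character z‖ = (Module.finrank ℂ (Fin n → ℂ) : ℝ) := by
      rw [hχρ]
      have h8 : (χ : G → ℂ) 1 = (Module.finrank ℂ (Fin n → ℂ) : ℂ) := by
        rw [← hχρ, Representation.char_one]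
      replace h6 : (χ : G → ℂ) z * conj ((χ : G → ℂ) z) = (χ : G → ℂ) 1 * (χ : G → ℂ) 1 := h6
      rw [Complex.mul_conj, Complex.normSq_eq_norm_sq, h8] at h6
      have h9 : ‖(χ : G → ℂ) z‖ ^ 2 = (Module.finrank ℂ (Fin n → ℂ) : ℝ) ^ 2 := by
        have : ((‖(χ : G → ℂ) z‖ ^ 2 : ℝ) : ℂ) =
            (((Module.finrank ℂ (Fin n → ℂ) : ℝ) ^ 2 : ℝ) : ℂ) := by
          rw [h6]; push_cast; ring
        exact_mod_cast this
      exact (pow_left_inj₀ (norm_nonneg _) (Nat.cast_nonneg _) two_ne_zero).mp h9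
    have h10 := rep_scalar_of_norm_eq ρ z h7
    have h11 := commutator_scalar ρ g z ⟨_, h10⟩
    rw [← hχρ]
    simp only [Representation.character]
    rw [map_mul ρ (z * g)⁻¹, h11, ← map_mul, inv_mul_cancel]

theorem index_center [Finite G] {p : ℕ} (hp : p.Prime)
    (hcd : ∀ χ : IrrCharacter G, charDegree (χ : G → ℂ) = 1 ∨ charDegree (χ : G → ℂ) = p)
    (hna : ∃ a b : G, a * b ≠ b * a)
    (hno : ¬ ∃ A : Subgroup G, A.Normal ∧ (∀ a ∈ A, ∀ b ∈ A, a * b = b * a) ∧ A.index = p) :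
    ∃ c, (center G).index = p ^ c := by
  classical
  have hm : ∃ χ : IrrCharacter G, charDegree (χ : G → ℂ) = p := by
    by_contra hcon
    push Not at hcon
    obtain ⟨a, b, hab⟩ := hna
    exact hab (comm_of_linear (fun χ => (hcd χ).resolve_right (hcon χ)) a b)
  rcases two_degrees hcd hm hp.ne_one with h | ⟨q, e, hq, hpe, P, A, -, -, -, -, -, -, hA, k, hk⟩
  · exact absurd h hno
  · have hpq : p = q := by
      have h1 : q ∣ p := by
        rw [hpe]
        apply dvd_pow_self
        rintro rfl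
        rw [pow_zero] at hpe
        exact hp.ne_one hpe
      exact ((Nat.prime_dvd_prime_iff_eq hq hp).mp h1).symm
    have h2 := index_dvd_of_le hA
    rw [hk, ← hpq] at h2
    obtain ⟨c, -, hc⟩ := (Nat.dvd_prime_pow hp).mp h2
    exact ⟨c, hc⟩

theorem nilp [Finite G] {p c : ℕ} (hp : p.Prime) (hc : (center G).index = p ^ c) :
    Group.IsNilpotent G := by
  haveI : Fact p.Prime := ⟨hp⟩
  apply Group.of_quotient_center_nilpotent
  apply IsPGroup.isNilpotent (p := p)
  exact IsPGroup.of_card (n := c) (by rw [← hc]; rfl)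

theorem normal_of_index [Finite G] [Group.IsNilpotent G] {H : Subgroup G} (hH : H.index.Prime) :
    H.Normal :=
  NormalizerCondition.normal_of_coatom H Group.normalizerCondition_of_isNilpotent
    (Cfsg.Agent.H1.isCoatom_of_index_prime hH)

/-- the centre has index at least `p ^ 2`, and so has every abelian subgroup containing it -/
theorem ab_index [Finite G] [Group.IsNilpotent G] {p c : ℕ} (hp : p.Prime)
    (hc : (center G).index = p ^ c) (hna : ∃ a b : G, a * b ≠ b * a)
    (hno : ¬ ∃ A : Subgroup G, A.Normal ∧ (∀ a ∈ A, ∀ b ∈ A, a * b = b * a) ∧ A.index = p)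
    {B : Subgroup G} (hB : center G ≤ B) (hab : ∀ a ∈ B, ∀ b ∈ B, a * b = b * a) :
    ∃ j, 2 ≤ j ∧ B.index = p ^ j := by
  have h1 := index_dvd_of_le hB
  rw [hc] at h1
  obtain ⟨j, -, hj⟩ := (Nat.dvd_prime_pow hp).mp h1
  refine ⟨j, ?_, hj⟩
  by_contra hlt
  have hcases : j = 0 ∨ j = 1 := by omega
  rcases hcases with rfl | rfl
  · rw [pow_zero, index_eq_one] at hj
    obtain ⟨a, b, h⟩ := hna
    exact h (hab a (hj ▸ mem_top a) b (hj ▸ mem_top b))
  · rw [pow_one] at hj
    exact hno ⟨B, normal_of_index (hj ▸ hp), hab, hj⟩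

theorem ab_sup [Finite G] {B : Subgroup G} (hab : ∀ a ∈ B, ∀ b ∈ B, a * b = b * a) {x : G}
    (hx : ∀ b ∈ B, x * b = b * x) : ∀ a ∈ B ⊔ zpowers x, ∀ b ∈ B ⊔ zpowers x, a * b = b * a := by
  have hle : B ⊔ zpowers x ≤ centralizer ((B ⊔ zpowers x : Subgroup G) : Set G) := by
    rw [sup_le_iff]
    have h1 : B ⊔ zpowers x ≤ centralizer (B : Set G) := by
      rw [sup_le_iff]
      refine ⟨fun a ha => mem_centralizer_iff.mpr fun b hb => hab b hb a ha, ?_⟩
      rw [zpowers_le, mem_centralizer_iff]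
      exact fun b hb => (hx b hb).symm
    have h2 : B ⊔ zpowers x ≤ centralizer ({x} : Set G) := by
      rw [sup_le_iff]
      refine ⟨fun a ha => mem_centralizer_singleton_iff.mpr (hx a ha).symm, ?_⟩
      rw [zpowers_le, mem_centralizer_singleton_iff]
    refine ⟨fun a ha => mem_centralizer_iff.mpr fun b hb =>
      (mem_centralizer_iff.mp (h1 hb) a ha).symm, ?_⟩
    rw [zpowers_le, mem_centralizer_iff]
    intro b hb
    exact mem_centralizer_singleton_iff.mp (h2 hb)
  intro a ha b hb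
  exact mem_centralizer_iff.mp (hle hb) a ha

/-- in fact the centre has index at least `p ^ 3` -/
theorem three_le [Finite G] [Group.IsNilpotent G] {p c : ℕ} (hp : p.Prime)
    (hc : (center G).index = p ^ c) (hna : ∃ a b : G, a * b ≠ b * a)
    (hno : ¬ ∃ A : Subgroup G, A.Normal ∧ (∀ a ∈ A, ∀ b ∈ A, a * b = b * a) ∧ A.index = p) :
    3 ≤ c := by
  have hZ : ∀ a ∈ center G, ∀ b ∈ center G, a * b = b * a := fun a ha b _ =>
    (mem_center_iff.mp ha b).symm
  obtain ⟨j, hj2, hj⟩ := ab_index hp hc hna hno le_rfl hZ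
  have hcj : c = j := Nat.pow_right_injective hp.two_le (by show p ^ c = p ^ j; rw [← hc, hj])
  subst hcj
  by_contra hlt
  have hc2 : c = 2 := by omega
  subst hc2
  obtain ⟨a, b, hab⟩ := hna
  have ha : a ∉ center G := fun h => hab (mem_center_iff.mp h b).symm
  obtain ⟨i, hi2, hi⟩ := ab_index hp hc ⟨a, b, hab⟩ hno (B := center G ⊔ zpowers a) le_sup_left
    (ab_sup hZ fun b hb => mem_center_iff.mp hb a)
  have h1 := index_dvd_of_le (le_sup_left : center G ≤ center G ⊔ zpowers a)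
  rw [hc, hi, Nat.pow_dvd_pow_iff_le_right hp.one_lt] at h1
  have hi' : i = 2 := by omega
  rw [hi'] at hi
  have h2 : center G = center G ⊔ zpowers a := by
    refine eq_of_le_of_card_ge le_sup_left ?_
    have h3 := (center G).card_mul_index
    have h4 := (center G ⊔ zpowers a).card_mul_index
    rw [hc] at h3
    rw [hi, ← h3] at h4
    exact (Nat.eq_of_mul_eq_mul_right (pow_pos hp.pos 2) h4).le
  apply ha
  rw [h2]
  exact (le_sup_right : zpowers a ≤ _) (mem_zpowers a)

end Cfsg.Agent.H20.CD
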