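import Cfsg.Agent.H20.CD1

/-! # Groups with character degrees 1 and p, II (helper20) -/

set_option autoImplicit false
set_option linter.style.haveILetI false
set_option linter.unusedSectionVars false
open Cfsg
open scoped ComplexConjugate

namespace Cfsg.Agent.H20.CD

open Cfsg.Agent.H3 Cfsg.Agent.H27 Subgroup

universe u

variable {G : Type u} [Group G]

theorem claim1 [Finite G] [Group.IsNilpotent G] {p : ℕ} (hp : p.Prime)
    (hcd : ∀ χ : IrrCharacter G, charDegree (χ : G → ℂ) = 1 ∨ charDegree (χ : G → ℂ) = p)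
    (hno : ¬ ∃ A : Subgroup G, A.Normal ∧ (∀ a ∈ A, ∀ b ∈ A, a * b = b * a) ∧ A.index = p)
    {B : Subgroup G} (hab : ∀ a ∈ B, ∀ b ∈ B, a * b = b * a) (hBi : B.index = p ^ 2)
    {x b : G} (hx : x ∉ B) (hb : b ∈ B) (hxb : x * b = b * x) : b ∈ center G := by
  have hBC : B ≤ centralizer ({b} : Set G) := fun a ha =>
    mem_centralizer_singleton_iff.mpr (hab a ha b hb)
  have hxC : x ∈ centralizer ({b} : Set G) := mem_centralizer_singleton_iff.mpr hxb
  have h1 := index_dvd_of_le hBC
  rw [hBi] at h1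
  obtain ⟨j, hj2, hj⟩ := (Nat.dvd_prime_pow hp).mp h1
  have hcen : ∀ m ∈ centralizer ({b} : Set G), b * m = m * b := fun m hm =>
    (mem_centralizer_singleton_iff.mp hm).symm
  have hcases : j = 0 ∨ j = 1 ∨ j = 2 := by omega
  rcases hcases with rfl | rfl | rfl
  · rw [pow_zero, index_eq_one] at hj
    rw [mem_center_iff]
    intro g
    exact (hcen g (hj ▸ mem_top g)).symm
  · rw [pow_one] at hj
    have hn : (centralizer ({b} : Set G)).Normal := normal_of_index (hj ▸ hp)
    refine center_le hp hcd hn ?_ (hBC hb) hcen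
    by_contra hcon
    push Not at hcon
    exact hno ⟨_, hn, hcon, hj⟩
  · exfalso
    have h2 : B = centralizer ({b} : Set G) := by
      refine eq_of_le_of_card_ge hBC ?_
      have h3 := B.card_mul_index
      have h4 := (centralizer ({b} : Set G)).card_mul_index
      rw [hBi] at h3
      rw [hj, ← h3] at h4
      exact (Nat.eq_of_mul_eq_mul_right (pow_pos hp.pos 2) h4).le
    rw [← h2] at hxC
    exact hx hxC

theorem card_irr_of_comm {B : Type u} [Group B] [Finite B] (hab : ∀ a b : B, a * b = b * a) :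
    Nat.card (IrrCharacter B) = Nat.card B := by
  classical
  haveI := Fintype.ofFinite (IrrCharacter B)
  haveI : IsMulCommutative B := ⟨⟨hab⟩⟩
  have h := sum_degree_sq (G := B)
  rw [Finset.sum_congr rfl (fun χ _ => by
    rw [irr_degree_one_of_comm χ.2, one_pow] :
    ∀ χ ∈ (Finset.univ : Finset (IrrCharacter B)), (χ : B → ℂ) 1 ^ 2 = 1)] at h
  rw [Finset.sum_const, Finset.card_univ, nsmul_eq_mul, mul_one, ← Nat.card_eq_fintype_card] at h
  exact_mod_cast h

theorem final_normal [Finite G] [Group.IsNilpotent G] {p c : ℕ} (hp : p.Prime)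
    (hcd : ∀ χ : IrrCharacter G, charDegree (χ : G → ℂ) = 1 ∨ charDegree (χ : G → ℂ) = p)
    (hc : (center G).index = p ^ c)
    (hno : ¬ ∃ A : Subgroup G, A.Normal ∧ (∀ a ∈ A, ∀ b ∈ A, a * b = b * a) ∧ A.index = p)
    {B : Subgroup G} (hab : ∀ a ∈ B, ∀ b ∈ B, a * b = b * a)
    (hBi : B.index = p ^ 2) (hBn : B.Normal) : c ≤ 3 := by
  classical
  haveI := Fintype.ofFinite G
  haveI := Fintype.ofFinite B
  haveI := Fintype.ofFinite (IrrCharacter B)
  have habB : ∀ a b : B, a * b = b * a := fun a b => Subtype.ext (hab a a.2 b b.2)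
  have hI := card_irr_of_comm habB
  -- fixed characters
  let F : G → ℕ := fun g => Nat.card {χ : IrrCharacter B // cj hBn g (χ : B → ℂ) = χ}
  have hFB : ∀ g ∈ B, F g ≤ Nat.card B := by
    intro g _
    rw [← hI]
    exact Nat.card_le_card_of_injective _ Subtype.val_injective
  have hFn : ∀ g, g ∉ B → F g ≤ Nat.card (center G) := by
    intro g hg
    show Nat.card _ ≤ _
    rw [card_fixed_irr]
    have hex : ∀ C : {C : ConjClasses B // ConjClasses.map (cjEquiv hBn g).toMonoidHom C = C},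
        ∃ z : center G, ∃ k : B, (k : G) = z ∧ ConjClasses.mk k = C.1 := by
      rintro ⟨C, hC⟩
      obtain ⟨k, rfl⟩ := ConjClasses.mk_surjective C
      rw [class_fixed_iff] at hC
      obtain ⟨c, hcB, h⟩ := hC
      rw [hab c hcB k k.2, mul_inv_cancel_right, mul_inv_eq_iff_eq_mul] at h
      exact ⟨⟨k, claim1 hp hcd hno hab hBi hg k.2 h⟩, k, rfl, rfl⟩
    choose z hz using hex
    refine Nat.card_le_card_of_injective z ?_
    intro C D hCD
    obtain ⟨k, hk, hk2⟩ := hz C
    obtain ⟨l, hl, hl2⟩ := hz D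
    rw [hCD] at hk
    have : k = l := Subtype.ext (hk.trans hl.symm)
    apply Subtype.ext
    rw [← hk2, ← hl2, this]
  -- inertia groups
  have hT : ∀ θ : IrrCharacter B, Nat.card G ≤ p * Nat.card (inertia hBn (θ : B → ℂ)) := by
    intro θ
    obtain ⟨χ, hχ, hne, -, -⟩ := exists_over hBn θ.2
    have hne' : classInner (fun n : B => χ n) (θ : B → ℂ) ≠ 0 := hne
    have h1 := clifford_degree hBn hχ θ.2 hne'
    haveI : IsMulCommutative B := ⟨⟨habB⟩⟩
    rw [irr_degree_one_of_comm θ.2, mul_one] at h1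
    obtain ⟨n, hn⟩ := classInner_char_nat (isChar_restrict B (irr_isChar hχ)) (irr_isChar θ.2)
    rw [hn] at hne' h1
    have hn0 : n ≠ 0 := by rintro rfl; exact hne' (by simp)
    rw [← charDegree_cast (irr_isChar hχ)] at h1
    have h2 : charDegree χ = n * (inertia hBn (θ : B → ℂ)).index := by exact_mod_cast h1
    have h3 : charDegree χ ≤ p := by
      rcases hcd ⟨χ, hχ⟩ with h | h
      · have : charDegree χ = 1 := h
        rw [this]; exact hp.one_lt.le
      · exact (show charDegree χ = p from h).le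
    have h4 : (inertia hBn (θ : B → ℂ)).index ≤ p := by
      calc (inertia hBn (θ : B → ℂ)).index ≤ n * (inertia hBn (θ : B → ℂ)).index :=
            Nat.le_mul_of_pos_left _ (Nat.pos_of_ne_zero hn0)
        _ ≤ p := by rw [← h2]; exact h3
    calc Nat.card G = (inertia hBn (θ : B → ℂ)).index * Nat.card (inertia hBn (θ : B → ℂ)) :=
          (index_mul_card _).symm
      _ ≤ _ := Nat.mul_le_mul_right _ h4
  have hT1 : Nat.card (inertia hBn ((oneIrr B : IrrCharacter B) : B → ℂ)) = Nat.card G := by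
    have : inertia hBn ((oneIrr B : IrrCharacter B) : B → ℂ) = ⊤ := by
      rw [eq_top_iff]
      intro x _
      rw [mem_inertia]
      rfl
    rw [this, card_top]
  -- double counting
  have hdc : ∑ g : G, F g = ∑ θ : IrrCharacter B, Nat.card (inertia hBn (θ : B → ℂ)) := by
    have e1 : ∀ g : G, F g = ∑ θ : IrrCharacter B, if cj hBn g (θ : B → ℂ) = θ then 1 else 0 := by
      intro g
      show Nat.card _ = _
      rw [Nat.card_eq_fintype_card, Fintype.card_subtype, Finset.card_filter]
    have e2 : ∀ θ : IrrCharacter B, Nat.card (inertia hBn (θ : B → ℂ)) =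
        ∑ g : G, if cj hBn g (θ : B → ℂ) = θ then 1 else 0 := by
      intro θ
      rw [← Finset.card_filter, ← Fintype.card_subtype, ← Nat.card_eq_fintype_card]
      rfl
    rw [Finset.sum_congr rfl fun g _ => e1 g, Finset.sum_congr rfl fun θ _ => e2 θ,
      Finset.sum_comm]
  have hub : ∑ g : G, F g ≤ Nat.card B * Nat.card B +
      (Nat.card G - Nat.card B) * Nat.card (center G) := by
    rw [← Finset.sum_filter_add_sum_filter_not Finset.univ (fun g => g ∈ B)]
    have hcB : (Finset.univ.filter (fun g : G => g ∈ B)).card = Nat.card B := by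
      rw [Nat.card_eq_fintype_card, ← Fintype.card_subtype]
    have hcn : (Finset.univ.filter (fun g : G => ¬ g ∈ B)).card = Nat.card G - Nat.card B := by
      have h := Finset.card_filter_add_card_filter_not (s := (Finset.univ : Finset G))
        (fun g => g ∈ B)
      rw [hcB, Finset.card_univ, ← Nat.card_eq_fintype_card] at h
      omega
    refine add_le_add ?_ ?_
    · refine (Finset.sum_le_card_nsmul _ _ (Nat.card B) fun g hg =>
        hFB g (Finset.mem_filter.mp hg).2).trans ?_
      rw [hcB, smul_eq_mul]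
    · refine (Finset.sum_le_card_nsmul _ _ (Nat.card (center G)) fun g hg =>
        hFn g (Finset.mem_filter.mp hg).2).trans ?_
      rw [hcn, smul_eq_mul]
  have hlb : (Nat.card B - 1) * Nat.card G + p * Nat.card G ≤ p * ∑ g : G, F g := by
    rw [hdc, Finset.mul_sum, ← Finset.add_sum_erase _ _ (Finset.mem_univ (oneIrr B)), hT1, add_comm]
    refine add_le_add le_rfl ?_
    have h := Finset.card_nsmul_le_sum (Finset.univ.erase (oneIrr B))
      (fun θ : IrrCharacter B => p * Nat.card (inertia hBn (θ : B → ℂ))) (Nat.card G)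
      fun θ _ => hT θ
    rw [Finset.card_erase_of_mem (Finset.mem_univ _), Finset.card_univ,
      ← Nat.card_eq_fintype_card, hI, smul_eq_mul] at h
    exact h
  -- arithmetic
  have hG : Nat.card G = Nat.card B * p ^ 2 := by rw [← hBi, card_mul_index]
  have hG2 : Nat.card G = Nat.card (center G) * p ^ c := by rw [← hc, card_mul_index]
  by_contra hlt
  have hc4 : 4 ≤ c := by omega
  have hb0 : 0 < Nat.card B := Nat.card_pos
  have hz0 : 0 < Nat.card (center G) := Nat.card_pos
  have hbz : Nat.card (center G) * p ^ 2 ≤ Nat.card B := by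
    have h1 : Nat.card (center G) * p ^ 4 ≤ Nat.card B * p ^ 2 := by
      rw [← hG, hG2]
      exact Nat.mul_le_mul_left _ (Nat.pow_le_pow_right hp.pos hc4)
    have h2 : Nat.card (center G) * p ^ 2 * p ^ 2 ≤ Nat.card B * p ^ 2 := by
      calc _ = Nat.card (center G) * p ^ 4 := by ring
        _ ≤ _ := h1
    exact Nat.le_of_mul_le_mul_right h2 (pow_pos hp.pos 2)
  have hfin := hlb.trans (Nat.mul_le_mul_left p hub)
  rw [hG] at hfin
  obtain ⟨b', hb'⟩ : ∃ b', Nat.card B = b' + 1 := ⟨Nat.card B - 1, by omega⟩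
  obtain ⟨q, hq⟩ : ∃ q, p = q + 2 := ⟨p - 2, by have := hp.two_le; omega⟩
  generalize Nat.card B = b at *
  generalize Nat.card (center G) = z at *
  subst hb'
  subst hq
  have e1 : (b' + 1) * (q + 2) ^ 2 - (b' + 1) = (b' + 1) * ((q + 2) ^ 2 - 1) := by
    rw [Nat.mul_sub, mul_one]
  have e2 : (q + 2) ^ 2 - 1 = q ^ 2 + 4 * q + 3 := by
    have : (q + 2) ^ 2 = q ^ 2 + 4 * q + 4 := by ring
    omega
  rw [e1, e2, Nat.add_sub_cancel] at hfin
  have h5 : (b' * (q + 2) + (q + 2) ^ 2) * ((q + 2) * (b' + 1)) ≤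
      ((b' + 1) + (q ^ 2 + 4 * q + 3) * z) * ((q + 2) * (b' + 1)) := by
    calc _ = b' * ((b' + 1) * (q + 2) ^ 2) + (q + 2) * ((b' + 1) * (q + 2) ^ 2) := by ring
      _ ≤ _ := hfin
      _ = _ := by ring
  have h6 := Nat.le_of_mul_le_mul_right h5 (by positivity)
  have h7 : (q ^ 2 + 4 * q + 3) * z = (q + 1) * ((q + 3) * z) := by ring
  have h8 : (q + 3) * z ≤ z * (q + 2) ^ 2 := by
    calc (q + 3) * z ≤ (q + 2) ^ 2 * z := Nat.mul_le_mul_right _ (by nlinarith)
      _ = _ := by ring
  have h9 : (q + 3) * z ≤ b' + 1 := h8.trans hbz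
  have h10 : (q + 1) * ((q + 3) * z) ≤ (q + 1) * (b' + 1) := Nat.mul_le_mul_left _ h9
  nlinarith

theorem final_step [Finite G] [Group.IsNilpotent G] {p c : ℕ} (hp : p.Prime)
    (hcd : ∀ χ : IrrCharacter G, charDegree (χ : G → ℂ) = 1 ∨ charDegree (χ : G → ℂ) = p)
    (hc : (center G).index = p ^ c)
    (hno : ¬ ∃ A : Subgroup G, A.Normal ∧ (∀ a ∈ A, ∀ b ∈ A, a * b = b * a) ∧ A.index = p)
    {B : Subgroup G} (hab : ∀ a ∈ B, ∀ b ∈ B, a * b = b * a)
    (hBi : B.index = p ^ 2) : c ≤ 3 := by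
  classical
  by_cases hBn : B.Normal
  · exact final_normal hp hcd hc hno hab hBi hBn
  have hex : ∃ b ∈ B, ∃ g : G, g * b * g⁻¹ ∉ B := by
    by_contra hcon
    push Not at hcon
    exact hBn ⟨fun b hb g => hcon b hb g⟩
  obtain ⟨b, hb, g, hg⟩ := hex
  set B' : Subgroup G := B.map (MulAut.conj g).toMonoidHom with hB'
  have hgB' : g * b * g⁻¹ ∈ B' := ⟨b, hb, rfl⟩
  have hBtop : B < ⊤ := by
    rw [lt_top_iff_ne_top]
    rintro rfl
    rw [index_top] at hBi
    have := Nat.one_lt_pow two_ne_zero hp.one_lt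
    omega
  have hlt : B < normalizer (B : Set G) := Group.normalizerCondition_of_isNilpotent B hBtop
  have hMi : (normalizer (B : Set G)).index = p := by
    have h1 := index_dvd_of_le hlt.le
    rw [hBi] at h1
    obtain ⟨j, hj2, hj⟩ := (Nat.dvd_prime_pow hp).mp h1
    have hcases : j = 0 ∨ j = 1 ∨ j = 2 := by omega
    rcases hcases with rfl | rfl | rfl
    · exfalso
      rw [pow_zero, index_eq_one, normalizer_eq_top_iff] at hj
      exact hBn hj
    · rw [hj, pow_one]
    · exfalso
      have h3 := B.card_mul_index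
      have h4 := (normalizer (B : Set G)).card_mul_index
      rw [hBi] at h3
      rw [hj, ← h3] at h4
      have h5 := Nat.eq_of_mul_eq_mul_right (pow_pos hp.pos 2) h4
      exact hlt.ne (eq_of_le_of_card_ge hlt.le h5.le)
  have hMn : (normalizer (B : Set G)).Normal := normal_of_index (hMi ▸ hp)
  have hB'M : B' ≤ normalizer (B : Set G) := by
    rintro _ ⟨y, hy, rfl⟩
    exact hMn.conj_mem y (hlt.le hy) g
  have hcard : Nat.card B' = Nat.card B :=
    Nat.card_congr (B.equivMapOfInjective _ (MulAut.conj g).injective).toEquiv.symm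
  have hB'i : B'.index = p ^ 2 := by
    have h3 := B.card_mul_index
    have h4 := B'.card_mul_index
    rw [hcard, ← h3, hBi] at h4
    exact Nat.eq_of_mul_eq_mul_left Nat.card_pos h4
  have hab' : ∀ x ∈ B', ∀ y ∈ B', x * y = y * x := by
    rintro _ ⟨x, hx, rfl⟩ _ ⟨y, hy, rfl⟩
    rw [← map_mul, hab x hx y hy, map_mul]
  have hD : B' ⊓ B ≤ center G := by
    rintro z ⟨hz1, hz2⟩
    exact claim1 hp hcd hno hab hBi hg hz2 (hab' _ hgB' z hz1)
  have h1 : B'.relIndex (normalizer (B : Set G)) = p := by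
    have h := relIndex_mul_index hB'M
    rw [hMi, hB'i, sq] at h
    exact Nat.eq_of_mul_eq_mul_right hp.pos h
  have h2 : B'.relIndex B ≤ p := by
    rw [← h1]
    exact relIndex_le_of_le_right hlt.le (by rw [h1]; exact hp.ne_zero)
  have h3 : (B' ⊓ B).index ≤ p ^ 3 := by
    have h := relIndex_mul_index (inf_le_right : B' ⊓ B ≤ B)
    rw [inf_relIndex_right, hBi] at h
    rw [← h]
    calc B'.relIndex B * p ^ 2 ≤ p * p ^ 2 := Nat.mul_le_mul_right _ h2
      _ = p ^ 3 := by ring
  have h4 : (center G).index ≤ (B' ⊓ B).index :=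
    Nat.le_of_dvd (Nat.pos_of_ne_zero index_ne_zero_of_finite) (index_dvd_of_le hD)
  rw [hc] at h4
  exact (Nat.pow_le_pow_iff_right hp.one_lt).mp (h4.trans h3)

end Cfsg.Agent.H20.CD
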