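import Cfsg.Agent.H20.Zass6
import Cfsg.Agent.H20.Fpf2
import Cfsg.Agent.H4.RegField

/-!
Doubly transitive groups of Zassenhaus type with a regular normal subgroup.
-/

set_option autoImplicit false
set_option linter.style.haveILetI false

open MulAction

namespace Cfsg.Agent.H20.Zass

/-- A finite field of characteristic two with an automorphism of prime order `p` fixing only the
prime field has `2 ^ p` elements. -/
theorem card_of_aut {K : Type*} [Field K] [Finite K] [CharP K 2] (α : K →+* K) {p : ℕ}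
    (hp : p.Prime) (hα : ∀ x, (α^[p]) x = x) (hα1 : ∃ x, α x ≠ x)
    (hfix : ∀ x, α x = x → x = 0 ∨ x = 1) : Nat.card K = 2 ^ p := by
  classical
  haveI : Fact p.Prime := ⟨hp⟩
  letI : Algebra (ZMod 2) K := ZMod.algebra K 2
  have hbij : Function.Bijective α := (Finite.injective_iff_bijective).mp α.injective
  let A : K ≃ₐ[ZMod 2] K := AlgEquiv.ofRingEquiv (f := RingEquiv.ofBijective α hbij) (fun x => by
    have : α.comp (algebraMap (ZMod 2) K) = algebraMap (ZMod 2) K := Subsingleton.elim _ _
    exact DFunLike.congr_fun this x)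
  have hA : ∀ x, A x = α x := fun _ => rfl
  have hApow : ∀ n : ℕ, ∀ x, (A ^ n) x = (α^[n]) x := by
    intro n
    induction n with
    | zero => intro x; rfl
    | succ n ih =>
      intro x
      rw [pow_succ, Function.iterate_succ_apply]
      exact ih (α x)
  have hord : orderOf A = p := by
    apply orderOf_eq_prime
    · ext x
      rw [hApow, hα]; rfl
    · intro hc
      obtain ⟨x, hx⟩ := hα1
      apply hx
      rw [← hA, hc]; rfl
  have h1 := IntermediateField.finrank_fixedField_eq_card (F := ZMod 2) (E := K)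
    (H := Subgroup.zpowers A)
  have h2 : IntermediateField.fixedField (Subgroup.zpowers A) =
      (⊥ : IntermediateField (ZMod 2) K) := by
    rw [eq_bot_iff]
    intro x hx
    rw [IntermediateField.mem_fixedField_iff] at hx
    rcases hfix x (hx A (Subgroup.mem_zpowers _)) with h3 | h3
    · rw [h3]; exact zero_mem _
    · rw [h3]; exact one_mem _
  rw [h2, IntermediateField.finrank_bot', Nat.card_zpowers, hord] at h1
  rw [Module.natCard_eq_pow_finrank (K := ZMod 2), Nat.card_zmod, h1]

theorem regular_normal_card {G Ω : Type*} [Group G] [MulAction G Ω] [Finite Ω]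
    [FaithfulSMul G Ω] (h2 : MulAction.IsMultiplyPretransitive G Ω 2)
    (h3 : ∀ g : G, ∀ a b c : Ω, a ≠ b → b ≠ c → a ≠ c → g • a = a → g • b = b → g • c = c →
      g = 1)
    (hfix : ∃ g : G, g ≠ 1 ∧ ∃ a b : Ω, a ≠ b ∧ g • a = a ∧ g • b = b)
    (N : Subgroup G) [N.Normal] (hNt : MulAction.IsPretransitive N Ω)
    (hNr : ∀ a : Ω, MulAction.stabilizer N a = ⊥) :
    ∃ p : ℕ, p.Prime ∧ Nat.card Ω = 2 ^ p := by
  classical
  haveI : Finite G := Finite.of_injective (fun g : G => (fun a : Ω => g • a))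
    (fun g h hgh => eq_of_smul_eq_smul (α := Ω) (fun a => congrFun hgh a))
  haveI : Fact (Nat.Prime 2) := ⟨Nat.prime_two⟩
  obtain ⟨g₀, hg₀, a, b, hab, hga, hgb⟩ := hfix
  have htwo : ∀ {c d : Ω}, c ≠ a → d ≠ a → ∃ g : G, g • a = a ∧ g • c = d := fun hc hd =>
    (is_two_pretransitive_iff (G := G) (α := Ω)).mp h2 (Ne.symm hc) (Ne.symm hd)
  -- regularity
  have hreg : ∀ n : N, (n : G) • a = a → n = 1 := by
    intro n hn
    have : n ∈ stabilizer N a := hn
    rw [hNr, Subgroup.mem_bot] at this
    exact this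
  have hinj : ∀ n m : N, (n : G) • a = (m : G) • a → n = m := by
    intro n m hnm
    have h4 := hreg (m⁻¹ * n) (by
      rw [Subgroup.coe_mul, mul_smul, hnm, ← mul_smul, Subgroup.coe_inv, inv_mul_cancel, one_smul])
    exact (inv_mul_eq_one.mp h4).symm
  have hsurj : ∀ c : Ω, ∃ n : N, (n : G) • a = c := by
    intro c
    obtain ⟨n, hn⟩ := hNt.exists_smul_eq a c
    exact ⟨n, hn⟩
  have hcardN : Nat.card N = Nat.card Ω := Nat.card_congr (Equiv.ofBijective
    (fun n : N => (n : G) • a) ⟨fun n m h => hinj n m h, fun c => hsurj c⟩)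
  -- conjugation
  have hconj : ∀ g : G, g • a = a → ∀ n : G, (g * n * g⁻¹) • a = g • (n • a) := by
    intro g hg n
    rw [mul_smul, mul_smul, inv_smul_eq_iff.mpr hg.symm]
  obtain ⟨nb, hnb⟩ := hsurj b
  obtain ⟨c, hca, hcb⟩ : ∃ c : Ω, c ≠ a ∧ c ≠ b := by
    by_contra hcon
    push Not at hcon
    apply hg₀
    apply eq_of_smul_eq_smul (α := Ω)
    intro c
    by_cases hc : c = a
    · rw [hc, hga, one_smul]
    · rw [hcon c hc, hgb, one_smul]
  obtain ⟨nc, hnc⟩ := hsurj c
  have hnb1 : nb ≠ 1 := by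
    rintro rfl
    rw [Subgroup.coe_one, one_smul] at hnb
    exact hab hnb
  have hnc1 : nc ≠ 1 := by
    rintro rfl
    rw [Subgroup.coe_one, one_smul] at hnc
    exact hca hnc.symm
  -- the action of the stabiliser on the non-identity elements
  letI act : MulAction (stabilizer G a) {n : N // n ≠ 1} :=
    { smul := fun g n => ⟨⟨g * n.1 * (g : G)⁻¹, Subgroup.Normal.conj_mem inferInstance _ n.1.2 _⟩, by
        intro hc
        apply n.2
        have h4 : (g : G) * n.1 * (g : G)⁻¹ = 1 := congrArg Subtype.val hc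
        apply Subtype.ext
        rw [mul_inv_eq_one] at h4
        exact mul_left_cancel (h4.trans (mul_one _).symm)⟩
      one_smul := fun n => Subtype.ext (Subtype.ext (by
        show ((1 : stabilizer G a) : G) * n.1 * ((1 : stabilizer G a) : G)⁻¹ = n.1
        simp))
      mul_smul := fun g h n => Subtype.ext (Subtype.ext (by
        show ((g * h : stabilizer G a) : G) * n.1 * ((g * h : stabilizer G a) : G)⁻¹ =
          g * (h * n.1 * (h : G)⁻¹) * (g : G)⁻¹
        rw [Subgroup.coe_mul]; group)) }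
  have hact : ∀ (g : stabilizer G a) (n : {n : N // n ≠ 1}),
      (((g • n : {n : N // n ≠ 1}) : N) : G) = g * n.1 * (g : G)⁻¹ := fun _ _ => rfl
  have hact_iff : ∀ (g : stabilizer G a) (n m : {n : N // n ≠ 1}),
      g • n = m ↔ (g : G) • ((n.1 : G) • a) = (m.1 : G) • a := by
    intro g n m
    rw [← hconj g g.2]
    constructor
    · intro h4
      rw [← hact, h4]
    · intro h4
      exact Subtype.ext (hinj _ _ h4)
  have hne : ∀ n : {n : N // n ≠ 1}, (n.1 : G) • a ≠ a := fun n hn => n.2 (hreg n.1 hn)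
  obtain ⟨M, hM, hMn, hMcard⟩ := frobenius_action (X := stabilizer G a) (Y := {n : N // n ≠ 1})
    (by
      intro y z
      obtain ⟨g, hg1, hg2⟩ := htwo (hne y) (hne z)
      exact ⟨⟨g, hg1⟩, (hact_iff _ _ _).mpr hg2⟩)
    ⟨nb, hnb1⟩ ⟨nc, hnc1⟩
    (by
      intro hc
      have h4 : nb = nc := congrArg Subtype.val hc
      rw [h4, hnc] at hnb
      exact hcb hnb)
    ⟨⟨g₀, hga⟩, fun hc => hg₀ (congrArg Subtype.val hc), (hact_iff _ _ _).mpr (by
      show g₀ • ((nb : G) • a) = (nb : G) • a
      rw [hnb, hgb])⟩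
    (by
      intro g y z hyz hgy hgz
      apply Subtype.ext
      refine h3 g a _ _ (hne y).symm ?_ (hne z).symm g.2 ((hact_iff _ _ _).mp hgy)
        ((hact_iff _ _ _).mp hgz)
      intro hc
      exact hyz (Subtype.ext (hinj _ _ hc)))
  -- an element of prime order
  obtain ⟨p, hp, hpd⟩ := Nat.exists_prime_and_dvd
    (show orderOf g₀ ≠ 1 from fun h => hg₀ (orderOf_eq_one_iff.mp h))
  have hk : orderOf (g₀ ^ (orderOf g₀ / p)) = p := orderOf_pow_orderOf_div (orderOf_pos g₀).ne' hpd
  obtain ⟨h, hh⟩ : ∃ h, h = g₀ ^ (orderOf g₀ / p) := ⟨_, rfl⟩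
  rw [← hh] at hk
  have hh1 : h ≠ 1 := by
    intro hc
    rw [hc, orderOf_one] at hk
    exact hp.one_lt.ne hk
  have hha : h • a = a := by
    have h4 : g₀ ∈ stabilizer G a := hga
    have h5 : h ∈ stabilizer G a := by rw [hh]; exact pow_mem h4 _
    exact h5
  have hhb : h • b = b := by
    have h4 : g₀ ∈ stabilizer G b := hgb
    have h5 : h ∈ stabilizer G b := by rw [hh]; exact pow_mem h4 _
    exact h5
  have hhp : h ^ p = 1 := by rw [← hk]; exact pow_orderOf_eq_one h
  have hhfix : ∀ d : Ω, h • d = d → d = a ∨ d = b := by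
    intro d hd
    by_contra hc
    push Not at hc
    exact hh1 (h3 h a b d hab (Ne.symm hc.2) (Ne.symm hc.1) hha hhb hd)
  -- `nb` has order two
  have hhnb : h * nb * h⁻¹ = nb := by
    have h4 := hinj ⟨h * nb * h⁻¹, Subgroup.Normal.conj_mem inferInstance _ nb.2 _⟩ nb (by
      show (h * nb * h⁻¹) • a = (nb : G) • a
      rw [hconj h hha, hnb, hhb])
    exact congrArg Subtype.val h4
  have hnb2 : nb * nb = 1 := by
    have h4 : h • ((nb : G)⁻¹ • a) = (nb : G)⁻¹ • a := by
      rw [← hconj h hha]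
      congr 1
      have h5 : h * (nb : G)⁻¹ * h⁻¹ = (h * nb * h⁻¹)⁻¹ := by group
      rw [h5, hhnb]
    rcases hhfix _ h4 with h5 | h5
    · exfalso
      have h6 := hreg nb⁻¹ h5
      exact hnb1 (inv_eq_one.mp h6)
    · have h6 := hinj nb⁻¹ nb (by rw [Subgroup.coe_inv, h5, hnb])
      nth_rw 1 [← h6]
      exact inv_mul_cancel nb
  have hN2 : ∀ n : N, n * n = 1 := by
    intro n
    by_cases hn : n = 1
    · rw [hn, mul_one]
    obtain ⟨g, hg1, hg2⟩ := htwo (hne ⟨nb, hnb1⟩) (hne ⟨n, hn⟩)
    have h4 := (hact_iff ⟨g, hg1⟩ ⟨nb, hnb1⟩ ⟨n, hn⟩).mpr hg2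
    have h5 : g * nb * g⁻¹ = n := by rw [← hact ⟨g, hg1⟩ ⟨nb, hnb1⟩, h4]
    apply Subtype.ext
    rw [Subgroup.coe_mul, ← h5]
    have h6 : (nb : G) * nb = 1 := congrArg Subtype.val hnb2
    have h7 : g * nb * g⁻¹ * (g * nb * g⁻¹) = g * (nb * nb) * g⁻¹ := by group
    rw [h7, h6]
    simp
  have hNcomm : ∀ n m : N, n * m = m * n := by
    intro n m
    have h4 := hN2 (n * m)
    have h5 : n * m = (n * m)⁻¹ := eq_inv_of_mul_eq_one_left h4
    rw [h5, mul_inv_rev, inv_eq_of_mul_eq_one_left (hN2 n), inv_eq_of_mul_eq_one_left (hN2 m)]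
  have hNp : IsPGroup 2 N := fun n => ⟨1, by rw [pow_one, pow_two]; exact hN2 n⟩
  obtain ⟨k, hkN⟩ := IsPGroup.iff_card.mp hNp
  -- the group `M` in `G`
  set M' : Subgroup G := M.map (stabilizer G a).subtype with hM'
  have hM'a : ∀ m ∈ M', m • a = a := by
    rintro _ ⟨m, -, rfl⟩
    exact m.2
  have hM'card : Nat.card M' = 2 ^ k - 1 := by
    haveI : Fintype N := Fintype.ofFinite N
    rw [hM', Subgroup.card_map_of_injective (Subgroup.subtype_injective _), hMcard,
      Nat.card_eq_fintype_card, Fintype.card_subtype_compl, Fintype.card_subtype_eq,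
      ← Nat.card_eq_fintype_card, hkN]
  have hk0 : k ≠ 0 := by
    rintro rfl
    rw [pow_zero] at hkN
    have : Subsingleton N := (Nat.card_eq_one_iff_unique.mp hkN).1
    exact hnb1 (Subsingleton.elim _ _)
  have hM'odd : Odd (Nat.card M') := by
    rw [hM'card]
    exact Nat.Even.sub_odd Nat.one_le_two_pow (Nat.even_pow.mpr ⟨even_two, hk0⟩) odd_one
  have hM'fpf : ∀ m ∈ M', m ≠ 1 → ∀ n ∈ N, m * n = n * m → n = 1 := by
    rintro _ ⟨m, hm, rfl⟩ hm1 n hn hmn
    by_contra hn1
    have hn1' : (⟨n, hn⟩ : N) ≠ 1 := fun hc => hn1 (congrArg Subtype.val hc)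
    rcases (hM m).mp hm with h4 | h4
    · exact hm1 (by rw [h4]; rfl)
    · apply h4 ⟨⟨n, hn⟩, hn1'⟩
      apply Subtype.ext
      apply Subtype.ext
      rw [hact]
      show (m : G) * n * (m : G)⁻¹ = n
      rw [mul_inv_eq_iff_eq_mul]
      exact hmn
  have hM'conj : ∀ g : G, g • a = a → ∀ m ∈ M', g * m * g⁻¹ ∈ M' := by
    rintro g hg _ ⟨m, hm, rfl⟩
    exact ⟨⟨g, hg⟩ * m * ⟨g, hg⟩⁻¹, hMn.conj_mem m hm _, rfl⟩
  have hZ : IsZGroup M' := isZGroup_of_fpf (K := N)
    (by
      intro hc
      apply hnb1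
      have h9 : ∀ x ∈ N, x = 1 := fun x hx => by
        rw [hc] at hx
        exact Subgroup.mem_bot.mp hx
      exact Subtype.ext (h9 nb nb.2))
    (by rw [Subgroup.normalizer_eq_top N]; exact le_top)
    hM'fpf
    (by
      rw [hkN]
      exact Nat.Coprime.pow_right _ (Nat.coprime_two_right.mpr hM'odd)) hM'odd
  have hnil : Group.IsNilpotent M' := Fpf.isNilpotent_of_conj hp hhp (hM'conj h hha) (by
    intro x hx hxc
    by_contra hx1
    have h4 : h • (x • b) = x • b := by rw [← mul_smul, hxc, mul_smul, hhb]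
    rcases hhfix _ h4 with h5 | h5
    · have h6 := hM'a x hx
      rw [← h6] at h5
      exact hab (smul_left_cancel x h5).symm
    · have h6 : x * nb = nb * x := by
        have h7 := hinj ⟨x * nb * x⁻¹, Subgroup.Normal.conj_mem inferInstance _ nb.2 _⟩ nb (by
          show (x * nb * x⁻¹) • a = (nb : G) • a
          rw [hconj x (hM'a x hx), hnb, h5])
        have h8 : x * nb * x⁻¹ = nb := congrArg Subtype.val h7
        rw [mul_inv_eq_iff_eq_mul] at h8
        exact h8
      exact hnb1 (Subtype.ext (hM'fpf x hx hx1 nb nb.2 h6)))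
  haveI := hZ
  haveI := hnil
  haveI hcyc : IsCyclic M' := inferInstance
  have hM'comm : ∀ x y : M', x * y = y * x := (IsCyclic.commGroup (α := M')).mul_comm
  letI : CommGroup N := { (inferInstance : Group N) with mul_comm := hNcomm }
  let C : G → AddMonoid.End (Additive N) := fun g =>
    { toFun := fun x => Additive.ofMul ⟨g * x.toMul * g⁻¹,
        Subgroup.Normal.conj_mem inferInstance _ x.toMul.2 _⟩
      map_zero' := by
        apply Additive.toMul.injective
        apply Subtype.ext
        show g * 1 * g⁻¹ = 1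
        group
      map_add' := fun x y => by
        apply Additive.toMul.injective
        apply Subtype.ext
        show g * (x.toMul * y.toMul) * g⁻¹ = (g * x.toMul * g⁻¹) * (g * y.toMul * g⁻¹)
        group }
  have hC : ∀ g (x : Additive N), (((C g) x).toMul : G) = g * x.toMul * g⁻¹ := fun _ _ => rfl
  have hCmul : ∀ g g' x, C g (C g' x) = C (g * g') x := by
    intro g g' x
    apply Additive.toMul.injective
    apply Subtype.ext
    rw [hC, hC, hC]; group
  have hCone : ∀ x, C 1 x = x := by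
    intro x
    apply Additive.toMul.injective
    apply Subtype.ext
    rw [hC]; group
  have hCinj : ∀ g, Function.Injective (C g) := by
    intro g x y hxy
    have := congrArg (C g⁻¹) hxy
    rwa [hCmul, hCmul, inv_mul_cancel, hCone, hCone] at this
  -- transitivity of `M`
  have hMtr : ∀ x : Additive N, x ≠ 0 → ∃ m : M', C m (Additive.ofMul nb) = x := by
    have hinjM : Function.Injective (fun m : M => m • (⟨nb, hnb1⟩ : {n : N // n ≠ 1})) := by
      intro m m' hmm
      have h4 : (m'⁻¹ * m) • (⟨nb, hnb1⟩ : {n : N // n ≠ 1}) = ⟨nb, hnb1⟩ := by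
        rw [mul_smul, show m • (⟨nb, hnb1⟩ : {n : N // n ≠ 1}) = m' • ⟨nb, hnb1⟩ from hmm,
          inv_smul_smul]
      rcases (hM (m'⁻¹ * m : M)).mp (m'⁻¹ * m : M).2 with h5 | h5
      · exact (inv_mul_eq_one.mp (Subtype.ext h5)).symm
      · exact absurd h4 (h5 _)
    have hbij := (Nat.bijective_iff_injective_and_card _).mpr ⟨hinjM, hMcard⟩
    intro x hx
    obtain ⟨m, hm⟩ := hbij.2 ⟨x.toMul, fun hc => hx (Additive.toMul.injective hc)⟩
    refine ⟨⟨_, m, m.2, rfl⟩, ?_⟩
    apply Additive.toMul.injective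
    apply Subtype.ext
    exact congrArg (fun y : {n : N // n ≠ 1} => ((y.1 : N) : G)) hm
  obtain ⟨F, instF, instFF, E, hE1, hE⟩ := H4.exists_field_of_regular (A := Additive N)
    (fun m : M' => C m) (Additive.ofMul nb) (fun hc => hnb1 (Additive.ofMul.injective hc))
    (by
      intro x y
      refine AddMonoidHom.ext fun z => ?_
      show C x (C y z) = C y (C x z)
      rw [hCmul, hCmul, ← Subgroup.coe_mul, hM'comm, Subgroup.coe_mul])
    hMtr (fun m => hCinj m)
  haveI hchar : CharP F 2 := by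
    have h4 : (1 : F) + 1 = 0 := by
      apply E.injective
      rw [map_add, hE1, map_zero]
      apply Additive.toMul.injective
      exact hnb2
    exact CharTwo.of_one_ne_zero_of_two_eq_zero one_ne_zero (by rw [← one_add_one_eq_two, h4])
  -- the automorphism
  have hEsc : ∀ k : F, k ≠ 0 → ∃ m : M', ∀ l, C m (E l) = E (k * l) := by
    intro k hk
    obtain ⟨m, hm⟩ := hMtr (E k) (fun hc => hk (E.injective (by rw [hc, map_zero])))
    obtain ⟨s, -, hs⟩ := hE m
    refine ⟨m, ?_⟩
    have h4 := hs 1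
    rw [hE1, mul_one] at h4
    have h5 : s = k := E.injective (by rw [← h4]; exact hm)
    rw [← h5]; exact hs
  have hEm : ∀ m : M', ∀ l, C m (E l) = E (E.symm (C m (E 1)) * l) := by
    intro m l
    obtain ⟨s, -, hs⟩ := hE m
    have h4 : C m (E 1) = E s := by
      have := hs 1
      rw [mul_one] at this
      exact this
    rw [h4, AddEquiv.symm_apply_apply]
    exact hs l
  let α : F → F := fun x => E.symm (C h (E x))
  have hα : ∀ x, E (α x) = C h (E x) := fun x => E.apply_symm_apply _
  have hα1 : α 1 = 1 := by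
    apply E.injective
    rw [hα, hE1]
    apply Additive.toMul.injective
    apply Subtype.ext
    exact hhnb
  have hα0 : α 0 = 0 := by
    apply E.injective
    rw [hα, map_zero, map_zero]
  have hαadd : ∀ x y, α (x + y) = α x + α y := by
    intro x y
    apply E.injective
    rw [hα, map_add, map_add, map_add, hα, hα]
  have hαmul : ∀ x y, α (x * y) = α x * α y := by
    intro x y
    by_cases hx : x = 0
    · rw [hx, zero_mul, hα0, zero_mul]
    obtain ⟨m, hm⟩ := hEsc x hx
    apply E.injective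
    rw [hα, ← hm, hCmul]
    have h4 : h * (m : G) = (h * m * h⁻¹) * h := by group
    rw [h4, ← hCmul, ← hα y]
    have h5 := hEm ⟨h * m * h⁻¹, hM'conj h hha m m.2⟩ (α y)
    have h6 : C (h * m * h⁻¹) (E 1) = E (α x) := by
      rw [hα]
      have h7 := hm 1
      rw [mul_one] at h7
      rw [← h7, hCmul]
      have h8 : C h (E 1) = E 1 := by
        rw [← hα, hα1]
      conv_lhs => rw [← h8, hCmul]
      congr 2
      group
    have h5' : C (h * m * h⁻¹) (E (α y)) = E (E.symm (C (h * m * h⁻¹) (E 1)) * α y) := h5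
    rw [h6, AddEquiv.symm_apply_apply] at h5'
    exact h5'
  let α' : F →+* F :=
    { toFun := α
      map_one' := hα1
      map_mul' := hαmul
      map_zero' := hα0
      map_add' := hαadd }
  have hiter : ∀ n : ℕ, ∀ x, E ((α'^[n]) x) = C (h ^ n) (E x) := by
    intro n
    induction n with
    | zero => intro x; rw [pow_zero, hCone]; rfl
    | succ n ih =>
      intro x
      rw [Function.iterate_succ_apply, ih, pow_succ, ← hCmul]
      congr 1
      exact hα x
  have hfixpt : ∀ x : F, α x = x → h • (((E x).toMul : G) • a) = ((E x).toMul : G) • a := by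
    intro x hx
    rw [← hconj h hha]
    congr 1
    have h4 := hα x
    rw [hx] at h4
    have h5 := congrArg (fun y : Additive N => ((y.toMul : N) : G)) h4
    exact h5.symm
  refine ⟨p, hp, ?_⟩
  rw [← hcardN, ← card_of_aut α' hp ?_ ?_ ?_]
  · exact Nat.card_congr ((E.toEquiv.trans Additive.toMul).symm)
  · intro x
    apply E.injective
    rw [hiter, hhp, hCone]
  · by_contra hcon
    push Not at hcon
    apply hh1
    apply eq_of_smul_eq_smul (α := Ω)
    intro d
    obtain ⟨n, rfl⟩ := hsurj d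
    have h4 := hfixpt (E.symm (Additive.ofMul n)) (hcon _)
    rw [AddEquiv.apply_symm_apply, toMul_ofMul] at h4
    rw [h4, one_smul]
  · intro x hx
    rcases hhfix _ (hfixpt x hx) with h4 | h4
    · left
      have h5 := hreg _ h4
      apply E.injective
      rw [map_zero]
      exact Additive.toMul.injective h5
    · right
      have h5 := hinj (E x).toMul nb (by rw [h4, hnb])
      apply E.injective
      rw [hE1]
      exact Additive.toMul.injective h5

end Cfsg.Agent.H20.Zass
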