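import Mathlib
import Cfsg.Agent.H20.SC7

set_option autoImplicit false

/-!
# Counting the characters of the principal block not vanishing at `x`
-/

namespace Cfsg.Agent.H20.SC

open Cfsg Cfsg.Agent.H3 Cfsg.Agent.H11 Cfsg.Agent.H26 Finset
open scoped ComplexConjugate

universe u

section

variable {G : Type u} [Group G] [Fintype G] {p : ℕ} [hp : Fact p.Prime] {M : Ideal AlgInt}
  {C : Subgroup G} [Fintype C] {Z : Subgroup C} [hZn : Z.Normal] [Fintype (C ⧸ Z)]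
  {X : Finset (IrrCharacter (C ⧸ Z))} {ε : IrrCharacter (C ⧸ Z) → ℤ} {m : ℕ} {x : G} {ω : ℂ}

theorem exists_coeffs (hM : IsPModular p M) (hx : orderOf x = p)
    (hC : C = Subgroup.centralizer ({x} : Set G)) (hω : IsPrimitiveRoot ω p)
    (h : DD1 p M X ε m) (hP : IsPGroup p Z) (hZ : Z ≤ Subgroup.center C) {χ : IrrCharacter G}
    (hχ : χ ∈ principalBlock M G) :
    ∃ a : ℕ → IrrCharacter (C ⧸ Z) → ℤ, ∀ k, k ≠ 0 → k < p → ∀ y : C, ¬ p ∣ orderOf y →
      (χ : G → ℂ) (x ^ k * (y : G)) = ∑ j ∈ range p, (ω ^ j) ^ k *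
        ∑ χ' ∈ X, (a j χ' : ℂ) * (χ' : C ⧸ Z → ℂ) (QuotientGroup.mk y) := by
  classical
  have hfI : Fintype (IrrCharacter C) := Fintype.ofFinite _
  have hp0 : p ≠ 0 := hp.out.ne_zero
  have hnz : NeZero p := ⟨hp0⟩
  have hxC : x ∈ C := by rw [hC, Subgroup.mem_centralizer_singleton_iff]
  have hcen : ∀ c : C, (⟨x, hxC⟩ : C) * c = c * ⟨x, hxC⟩ := by
    intro c
    apply Subtype.ext
    have hc : (c : G) ∈ Subgroup.centralizer ({x} : Set G) := by rw [← hC]; exact c.2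
    rw [Subgroup.mem_centralizer_singleton_iff] at hc
    exact hc.symm
  have hxp : (⟨x, hxC⟩ : C) ^ p = 1 := by
    apply Subtype.ext
    show x ^ p = 1
    rw [← hx, pow_orderOf_eq_one]
  choose n hn using fun θ : IrrCharacter C =>
    classInner_char_nat (isChar_restrict' (C := C) (irr_isChar χ.2)) (irr_isChar θ.2)
  choose J hJp hJ using fun θ : IrrCharacter C =>
    hω.eq_pow_of_pow_eq_one (lv_pow_eq_one θ.2 hcen hxp)
  have hW : ∀ θ : IrrCharacter C, ∃ W : IrrCharacter (C ⧸ Z) → ℤ, θ ∈ principalBlock M C →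
      ∀ y : C, ¬ p ∣ orderOf y →
      (θ : C → ℂ) y = ∑ χ ∈ X, (W χ : ℂ) * (χ : C ⧸ Z → ℂ) (QuotientGroup.mk y) := by
    intro θ
    by_cases hθ : θ ∈ principalBlock M C
    · obtain ⟨W, hW⟩ := h.expand_C hM hP hZ hθ
      exact ⟨W, fun _ => hW⟩
    · exact ⟨0, fun h => absurd h hθ⟩
  choose W hW using hW
  refine ⟨fun j χ' => ∑ θ : IrrCharacter C with θ ∈ principalBlock M C,
    if J θ = j then (n θ : ℤ) * W θ χ' else 0, fun k hk0 hkp y hy => ?_⟩
  have hCk : C = Subgroup.centralizer ({x ^ k} : Set G) := by rw [hC]; exact cz_pow hx hk0 hkp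
  have hxk : ∃ j : ℕ, orderOf (x ^ k) = p ^ j := by
    have h1 : orderOf (x ^ k) ∣ p ^ 1 := by
      rw [pow_one, ← hx]; exact orderOf_pow_dvd k
    obtain ⟨j, -, hj⟩ := (Nat.dvd_prime_pow hp.out).mp h1
    exact ⟨j, hj⟩
  rw [translate_C hM hxk hCk hχ y hy, ct_eq_sum, Finset.sum_apply]
  have h1 : ∀ θ ∈ univ.filter (fun θ : IrrCharacter C => θ ∈ principalBlock M C),
      (ac C (x ^ k) (χ : G → ℂ) (θ : C → ℂ) • (θ : C → ℂ)) y =
      ∑ j ∈ range p, ∑ χ' ∈ X, (ω ^ j) ^ k * ((if J θ = j then ((n θ : ℤ) * W θ χ' : ℤ) else 0 : ℤ) : ℂ) *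
        (χ' : C ⧸ Z → ℂ) (QuotientGroup.mk y) := by
    intro θ hθ
    rw [Pi.smul_apply, smul_eq_mul]
    have h2 : ac C (x ^ k) (χ : G → ℂ) (θ : C → ℂ) = (n θ : ℂ) * (ω ^ J θ) ^ k := by
      have h3 := ac_eq (irr_isChar χ.2) (x := (⟨x, hxC⟩ : C) ^ k)
        (fun c => (Commute.pow_left (hcen c) k).eq) θ
      have h4 : (((⟨x, hxC⟩ : C) ^ k : C) : G) = x ^ k := rfl
      rw [h4] at h3
      rw [h3, hn, lv_pow θ.2 hcen, hJ]
    rw [h2, hW θ (Finset.mem_filter.mp hθ).2 y hy]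
    rw [Finset.sum_eq_single (J θ)]
    · rw [Finset.mul_sum]
      apply Finset.sum_congr rfl
      intro χ' _
      rw [if_pos rfl]
      push_cast
      ring
    · intro j _ hj
      apply Finset.sum_eq_zero
      intro χ' _
      rw [if_neg (fun h => hj h.symm)]
      simp
    · intro hn'
      exact absurd (Finset.mem_range.mpr (hJp θ)) hn'
  rw [Finset.sum_congr rfl h1, Finset.sum_comm]
  apply Finset.sum_congr rfl
  intro j _
  rw [Finset.sum_comm, Finset.mul_sum]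
  apply Finset.sum_congr rfl
  intro χ' _
  push_cast
  rw [Finset.sum_mul, Finset.mul_sum]
  apply Finset.sum_congr rfl
  intro θ _
  ring

/-- the lower bound for the contributions of a character -/
theorem contrib_lower (hM : IsPModular p M) (hx : orderOf x = p)
    (hC : C = Subgroup.centralizer ({x} : Set G)) (hω : IsPrimitiveRoot ω p)
    (h : DD1 p M X ε m) (hP : IsPGroup p Z) (hZ : Z ≤ Subgroup.center C) {χ : IrrCharacter G}
    (hχ : χ ∈ principalBlock M G) (hχx : (χ : G → ℂ) x ≠ 0) :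
    ((p : ℝ) - 1) * ((Nat.card (C ⧸ Z) : ℝ) * X.card) ≤
      (p : ℝ) * ∑ k ∈ (range p).erase 0, ∑ y : C with ¬ p ∣ orderOf y,
        ‖(χ : G → ℂ) (x ^ k * (y : G))‖ ^ 2 := by
  classical
  obtain ⟨a, ha⟩ := exists_coeffs hM hx hC hω h hP hZ hχ
  have hp2 := hp.out.two_le
  set T := (range p).filter (fun j => ∃ χ' ∈ X, a j χ' ≠ a 0 χ') with hT
  have hTp : T ⊆ range p := Finset.filter_subset _ _
  have h0 : 0 ∈ range p := Finset.mem_range.mpr hp.out.pos
  have h0T : 0 ∉ T := by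
    intro h1
    obtain ⟨χ', -, h2⟩ := (Finset.mem_filter.mp h1).2
    exact h2 rfl
  -- `T` is nonempty
  have hTne : T.Nonempty := by
    by_contra hne
    rw [Finset.not_nonempty_iff_eq_empty] at hne
    apply hχx
    have h1 := ha 1 one_ne_zero (by omega) 1 (by
      rw [orderOf_one]; exact fun h => hp.out.one_lt.ne' (Nat.dvd_one.mp h))
    rw [pow_one] at h1
    have h2 : (χ : G → ℂ) (x * ((1 : C) : G)) = (χ : G → ℂ) x := by
      rw [Subgroup.coe_one, mul_one]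
    rw [← h2, h1]
    have h3 : ∀ j ∈ range p, (ω ^ j) ^ 1 * ∑ χ' ∈ X, (a j χ' : ℂ) *
        (χ' : C ⧸ Z → ℂ) (QuotientGroup.mk 1) = ω ^ j * ∑ χ' ∈ X, (a 0 χ' : ℂ) *
        (χ' : C ⧸ Z → ℂ) (QuotientGroup.mk 1) := by
      intro j hj
      rw [pow_one]
      congr 1
      apply Finset.sum_congr rfl
      intro χ' hχ'
      have h4 : a j χ' = a 0 χ' := by
        by_contra h5
        have : j ∈ T := Finset.mem_filter.mpr ⟨hj, χ', hχ', h5⟩
        rw [hne] at this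
        exact absurd this (Finset.notMem_empty _)
      rw [h4]
    rw [Finset.sum_congr rfl h3, ← Finset.sum_mul, hω.geom_sum_eq_zero (by omega), zero_mul]
  have hTc1 : 1 ≤ T.card := Finset.card_pos.mpr hTne
  have hTc2 : T.card + 1 ≤ p := by
    have h1 : (insert 0 T).card ≤ (range p).card :=
      Finset.card_le_card (Finset.insert_subset h0 hTp)
    rwa [Finset.card_insert_of_notMem h0T, Finset.card_range] at h1
  -- the pointwise bound
  have hpt : ∀ y ∈ univ.filter (fun y : C => ¬ p ∣ orderOf y),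
      ((p : ℝ) - T.card) * ∑ j ∈ T, ‖∑ χ' ∈ X, ((a j χ' - a 0 χ' : ℤ) : ℂ) *
        (χ' : C ⧸ Z → ℂ) (QuotientGroup.mk y)‖ ^ 2 ≤
      ∑ k ∈ (range p).erase 0, ‖(χ : G → ℂ) (x ^ k * (y : G))‖ ^ 2 := by
    intro y hy
    have hy' := (Finset.mem_filter.mp hy).2
    have h1 := pointwise hp.out hω (fun j => ∑ χ' ∈ X, (a j χ' : ℂ) *
      (χ' : C ⧸ Z → ℂ) (QuotientGroup.mk y)) T hTp 0 h0 h0T (by
        intro j hj hjT
        apply Finset.sum_congr rfl
        intro χ' hχ'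
        have h4 : a j χ' = a 0 χ' := by
          by_contra h5
          exact hjT (Finset.mem_filter.mpr ⟨hj, χ', hχ', h5⟩)
        rw [h4])
    have h2 : ∀ j, (∑ χ' ∈ X, (a j χ' : ℂ) * (χ' : C ⧸ Z → ℂ) (QuotientGroup.mk y)) -
        (∑ χ' ∈ X, (a 0 χ' : ℂ) * (χ' : C ⧸ Z → ℂ) (QuotientGroup.mk y)) =
        ∑ χ' ∈ X, ((a j χ' - a 0 χ' : ℤ) : ℂ) * (χ' : C ⧸ Z → ℂ) (QuotientGroup.mk y) := by
      intro j
      rw [← Finset.sum_sub_distrib]
      apply Finset.sum_congr rfl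
      intro χ' _
      push_cast; ring
    simp only [h2] at h1
    refine h1.trans (le_of_eq ?_)
    apply Finset.sum_congr rfl
    intro k hk
    obtain ⟨hk0, hkp⟩ := Finset.mem_erase.mp hk
    rw [ha k hk0 (Finset.mem_range.mp hkp) y hy']
  have hsum := Finset.sum_le_sum hpt
  rw [← Finset.mul_sum, Finset.sum_comm, Finset.sum_comm (s := univ.filter _)] at hsum
  have hlow : ∀ j ∈ T, (Nat.card (C ⧸ Z) : ℝ) * X.card ≤ (p : ℝ) *
      ∑ y : C with ¬ p ∣ orderOf y, ‖∑ χ' ∈ X, ((a j χ' - a 0 χ' : ℤ) : ℂ) *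
        (χ' : C ⧸ Z → ℂ) (QuotientGroup.mk y)‖ ^ 2 := by
    intro j hj
    obtain ⟨χ', hχ', h1⟩ := (Finset.mem_filter.mp hj).2
    exact h.lower_sum hP hZ (fun χ' => a j χ' - a 0 χ') ⟨χ', hχ', sub_ne_zero.mpr h1⟩
  have h3 := Finset.sum_le_sum hlow
  rw [Finset.sum_const, nsmul_eq_mul, ← Finset.mul_sum] at h3
  have hTr1 : (1 : ℝ) ≤ T.card := by exact_mod_cast hTc1
  have hTr2 : (T.card : ℝ) + 1 ≤ p := by exact_mod_cast hTc2
  set D : ℝ := (Nat.card (C ⧸ Z) : ℝ) * X.card with hD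
  have hD0 : 0 ≤ D := by positivity
  have h4 : ((p : ℝ) - 1) * D ≤ ((p : ℝ) - T.card) * (T.card * D) := by
    have : ((p : ℝ) - 1) ≤ ((p : ℝ) - T.card) * T.card := by nlinarith
    calc ((p : ℝ) - 1) * D ≤ (((p : ℝ) - T.card) * T.card) * D :=
          mul_le_mul_of_nonneg_right this hD0
      _ = _ := by ring
  have h5 := mul_le_mul_of_nonneg_left h3 (show (0 : ℝ) ≤ (p : ℝ) - T.card by linarith)
  have h6 := mul_le_mul_of_nonneg_left hsum (show (0 : ℝ) ≤ (p : ℝ) by positivity)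
  nlinarith

end

end Cfsg.Agent.H20.SC
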