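import Mathlib
import Cfsg.Agent.H20.SC8
import Cfsg.Agent.H26.Gd2

set_option autoImplicit false

/-!
# Counting the characters of the principal block not vanishing at `x`, conclusion
-/

namespace Cfsg.Agent.H20.SC

open Cfsg Cfsg.Agent.H3 Cfsg.Agent.H11 Cfsg.Agent.H26 Cfsg.Agent.H27 Finset
open scoped ComplexConjugate

universe u

section

variable {G : Type u} [Group G] [Fintype G] {p : ℕ} [hp : Fact p.Prime] {M : Ideal AlgInt}

/-- the number of characters of the principal block not vanishing at `x` -/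
noncomputable def nv (M : Ideal AlgInt) (x : G) : ℕ :=
  Nat.card {χ : IrrCharacter G // χ ∈ principalBlock M G ∧ (χ : G → ℂ) x ≠ 0}

omit [Fintype G] hp in
theorem nv_eq (x : G) [Fintype (IrrCharacter G)]
    [DecidablePred (fun χ : IrrCharacter G => χ ∈ principalBlock M G ∧ (χ : G → ℂ) x ≠ 0)] :
    nv M x = (univ.filter fun χ : IrrCharacter G =>
      χ ∈ principalBlock M G ∧ (χ : G → ℂ) x ≠ 0).card := by
  unfold nv
  rw [Nat.card_eq_fintype_card, Fintype.card_subtype]

omit hp in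
theorem le_nv (hM : IsPModular p M) {x : G} (hx : ∃ k : ℕ, orderOf x = p ^ k) :
    Nat.card {χ : IrrCharacter G // χ ∈ principalBlock M G ∧ ¬ p ∣ charDegree (χ : G → ℂ)} ≤
      nv M x := by
  unfold nv
  refine Nat.card_le_card_of_injective
    (fun χ => (⟨χ.1, χ.2.1, ne_zero_of_not_dvd hM χ.2.2 hx⟩ :
      {χ : IrrCharacter G // χ ∈ principalBlock M G ∧ (χ : G → ℂ) x ≠ 0})) ?_
  intro a b hab
  exact Subtype.ext (congrArg (fun t => t.1) hab)

theorem nv_le_main (hM : IsPModular p M) {x : G} (hx : orderOf x = p)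
    (hf : (Nat.card (Subgroup.centralizer ({x} : Set G))).factorization p = 2) :
    nv M x ≤ p ^ 2 := by
  classical
  have hfI : Fintype (IrrCharacter G) := Fintype.ofFinite _
  obtain ⟨C, hC⟩ : ∃ C : Subgroup G, C = Subgroup.centralizer ({x} : Set G) := ⟨_, rfl⟩
  rw [← hC] at hf
  have hfC : Fintype C := Fintype.ofFinite _
  have hfIC : Fintype (IrrCharacter C) := Fintype.ofFinite _
  have hxC : x ∈ C := by rw [hC, Subgroup.mem_centralizer_singleton_iff]
  have hcen : ∀ c : C, (⟨x, hxC⟩ : C) * c = c * ⟨x, hxC⟩ := by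
    intro c
    apply Subtype.ext
    have hc : (c : G) ∈ Subgroup.centralizer ({x} : Set G) := by rw [← hC]; exact c.2
    rw [Subgroup.mem_centralizer_singleton_iff] at hc
    exact hc.symm
  set Z : Subgroup C := Subgroup.zpowers ⟨x, hxC⟩ with hZdef
  have hZ : Z ≤ Subgroup.center C := by
    rw [hZdef, Subgroup.zpowers_le, Subgroup.mem_center_iff]
    exact fun c => (hcen c).symm
  have hZn : Z.Normal := ⟨fun z hz g => by
    have h1 := Subgroup.mem_center_iff.mp (hZ hz) g
    rw [h1, mul_inv_cancel_right]; exact hz⟩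
  have hZc : Nat.card Z = p := by
    rw [hZdef, Nat.card_zpowers, Subgroup.orderOf_mk, hx]
  have hP : IsPGroup p Z := IsPGroup.of_card (n := 1) (by rw [hZc, pow_one])
  have hfQ : Fintype (C ⧸ Z) := Fintype.ofFinite _
  have hcard : Nat.card C = Nat.card (C ⧸ Z) * p := by
    rw [← hZc]; exact Subgroup.card_eq_card_quotient_mul_card_subgroup Z
  have hfH : (Nat.card (C ⧸ Z)).factorization p = 1 := by
    rw [hcard, Nat.factorization_mul Nat.card_pos.ne' hp.out.ne_zero, Finsupp.add_apply,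
      hp.out.factorization_self] at hf
    omega
  obtain ⟨X, ε, m, h⟩ := exists_dd1 (H := C ⧸ Z) hM hfH
  have hω := Complex.isPrimitiveRoot_exp p hp.out.ne_zero
  rw [nv_eq]
  set N := univ.filter fun χ : IrrCharacter G => χ ∈ principalBlock M G ∧ (χ : G → ℂ) x ≠ 0
    with hN
  have h1 : ∀ χ ∈ N, ((p : ℝ) - 1) * ((Nat.card (C ⧸ Z) : ℝ) * X.card) ≤
      (p : ℝ) * ∑ k ∈ (range p).erase 0, ∑ y : C with ¬ p ∣ orderOf y,
        ‖(χ : G → ℂ) (x ^ k * (y : G))‖ ^ 2 := fun χ hχ =>
    contrib_lower hM hx hC hω h hP hZ (Finset.mem_filter.mp hχ).2.1 (Finset.mem_filter.mp hχ).2.2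
  have h2 := Finset.sum_le_sum h1
  rw [Finset.sum_const, nsmul_eq_mul, ← Finset.mul_sum] at h2
  have h3 : ∑ χ ∈ N, ∑ k ∈ (range p).erase 0, ∑ y : C with ¬ p ∣ orderOf y,
        ‖(χ : G → ℂ) (x ^ k * (y : G))‖ ^ 2 ≤
      ∑ χ : IrrCharacter G with χ ∈ principalBlock M G,
        ∑ k ∈ (range p).erase 0, ∑ y : C with ¬ p ∣ orderOf y,
        ‖(χ : G → ℂ) (x ^ k * (y : G))‖ ^ 2 := by
    apply Finset.sum_le_sum_of_subset_of_nonneg
    · intro χ hχ
      exact Finset.mem_filter.mpr ⟨Finset.mem_univ _, (Finset.mem_filter.mp hχ).2.1⟩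
    · intro χ _ _
      positivity
  have h4 : ∑ χ : IrrCharacter G with χ ∈ principalBlock M G,
        ∑ k ∈ (range p).erase 0, ∑ y : C with ¬ p ∣ orderOf y,
        ‖(χ : G → ℂ) (x ^ k * (y : G))‖ ^ 2 =
      ((p : ℝ) - 1) * ((Nat.card C : ℝ) * blockRank p (principalBlock M C)) := by
    rw [Finset.sum_comm]
    have h5 : ∀ k ∈ (range p).erase 0, ∑ χ : IrrCharacter G with χ ∈ principalBlock M G,
        ∑ y : C with ¬ p ∣ orderOf y, ‖(χ : G → ℂ) (x ^ k * (y : G))‖ ^ 2 =
        (Nat.card C : ℝ) * blockRank p (principalBlock M C) := by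
      intro k hk
      obtain ⟨hk0, hkp⟩ := Finset.mem_erase.mp hk
      have hCk : C = Subgroup.centralizer ({x ^ k} : Set G) := by
        rw [hC]; exact cz_pow hx hk0 (Finset.mem_range.mp hkp)
      have hxk : ∃ j : ℕ, orderOf (x ^ k) = p ^ j := by
        have h1 : orderOf (x ^ k) ∣ p ^ 1 := by
          rw [pow_one]
          conv_rhs => rw [← hx]
          exact orderOf_pow_dvd k
        obtain ⟨j, -, hj⟩ := (Nat.dvd_prime_pow hp.out).mp h1
        exact ⟨j, hj⟩
      rw [← total_C hM, Finset.sum_comm]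
      apply Finset.sum_congr rfl
      intro y hy
      exact inner_C hM hxk hCk y (Finset.mem_filter.mp hy).2
    rw [Finset.sum_congr rfl h5, Finset.sum_const, Finset.card_erase_of_mem
      (Finset.mem_range.mpr hp.out.pos), Finset.card_range, nsmul_eq_mul,
      Nat.cast_sub hp.out.one_le, Nat.cast_one]
  have hMpr := hM.2.1.isPrime
  have h6 : blockRank p (principalBlock M C) ≤ X.card := by
    have h7 := blockRank_infl hM hP (cent_index hZ) 
      (Cfsg.Agent.H11.principalBlock_isPBlock (M := M) (G := C))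
      (B' := principalBlock M (C ⧸ Z)) (fun ψ => mem_principal_infl hM hP (cent_index hZ) ψ)
    rw [h7]
    exact h.rank
  have h7 : (blockRank p (principalBlock M C) : ℝ) ≤ X.card := by exact_mod_cast h6
  have hpr : (1 : ℝ) < p := by exact_mod_cast hp.out.one_lt
  have he : (0 : ℝ) < X.card := by exact_mod_cast h.epos
  have hH : (0 : ℝ) < Nat.card (C ⧸ Z) := by exact_mod_cast Nat.card_pos
  rw [h4] at h3
  have hcard' : (Nat.card C : ℝ) = Nat.card (C ⧸ Z) * p := by exact_mod_cast hcard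
  rw [hcard'] at h3
  have h8 : ((p : ℝ) - 1) * (((Nat.card (C ⧸ Z) : ℝ) * p) * blockRank p (principalBlock M C)) ≤
      ((p : ℝ) - 1) * (((Nat.card (C ⧸ Z) : ℝ) * p) * X.card) := by
    apply mul_le_mul_of_nonneg_left _ (by linarith)
    apply mul_le_mul_of_nonneg_left h7 (by positivity)
  have h9 : (N.card : ℝ) * (((p : ℝ) - 1) * ((Nat.card (C ⧸ Z) : ℝ) * X.card)) ≤
      (p : ℝ) ^ 2 * (((p : ℝ) - 1) * ((Nat.card (C ⧸ Z) : ℝ) * X.card)) := by
    have h10 := mul_le_mul_of_nonneg_left (h3.trans h8) (show (0 : ℝ) ≤ p by linarith)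
    refine h2.trans (h10.trans (le_of_eq ?_))
    ring
  have h11 : (0 : ℝ) < ((p : ℝ) - 1) * ((Nat.card (C ⧸ Z) : ℝ) * X.card) := by
    apply mul_pos (by linarith) (by positivity)
  have h12 := le_of_mul_le_mul_right h9 h11
  exact_mod_cast h12

/-- the case of a normal `p`-complement in the centralizer -/
theorem nv_le_nilp (hM : IsPModular p M) {x : G} (hx : ∃ k : ℕ, orderOf x = p ^ k)
    (K : Subgroup (Subgroup.centralizer ({x} : Set G))) [K.Normal] (hK : ¬ p ∣ Nat.card K)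
    (hi : K.index = p ^ (Nat.card (Subgroup.centralizer ({x} : Set G))).factorization p) :
    nv M x ≤ p ^ (Nat.card (Subgroup.centralizer ({x} : Set G))).factorization p := by
  classical
  have hfI : Fintype (IrrCharacter G) := Fintype.ofFinite _
  obtain ⟨C, hC⟩ : ∃ C : Subgroup G, C = Subgroup.centralizer ({x} : Set G) := ⟨_, rfl⟩
  set a := (Nat.card (Subgroup.centralizer ({x} : Set G))).factorization p with ha
  have hfC : Fintype (Subgroup.centralizer ({x} : Set G)) := Fintype.ofFinite _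
  have hfIC : Fintype (IrrCharacter (Subgroup.centralizer ({x} : Set G))) := Fintype.ofFinite _
  have hpr := hM.2.1.isPrime
  have hone : ¬ p ∣ orderOf (1 : Subgroup.centralizer ({x} : Set G)) := by
    rw [orderOf_one]; exact fun h => hp.out.one_lt.ne' (Nat.dvd_one.mp h)
  have hval : ∑ ζ : IrrCharacter (Subgroup.centralizer ({x} : Set G)) with
      ζ ∈ principalBlock M (Subgroup.centralizer ({x} : Set G)),
      ‖(ζ : Subgroup.centralizer ({x} : Set G) → ℂ) 1‖ ^ 2 = ((p ^ a : ℕ) : ℝ) := by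
    have h1 := principal_sum_sq_complement hM hK hi hone
    rw [finsum_mem_irr] at h1
    exact h1
  have hN0 : orderOf x ≠ 0 := (orderOf_pos x).ne'
  -- centralizers of generators
  have hcz : ∀ k ∈ cop (orderOf x), Subgroup.centralizer ({x} : Set G) =
      Subgroup.centralizer ({x ^ k} : Set G) := by
    intro k hk
    have hc := (mem_cop.mp hk).2
    have h1 : Subgroup.zpowers (x ^ k) = Subgroup.zpowers x := by
      apply le_antisymm
      · rw [Subgroup.zpowers_le]; exact Subgroup.npow_mem_zpowers x k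
      · rw [Subgroup.zpowers_le]
        obtain ⟨m, hm⟩ := exists_pow_eq_self_of_coprime hc
        have h3 := Subgroup.npow_mem_zpowers (x ^ k) m
        rwa [hm] at h3
    have h2 : ∀ y : G, Subgroup.centralizer ({y} : Set G) =
        Subgroup.centralizer (Subgroup.zpowers y : Set G) := by
      intro y
      rw [Subgroup.zpowers_eq_closure, Subgroup.centralizer_closure]
    rw [h2 x, h2 (x ^ k), h1]
  have hsum : ∀ k ∈ cop (orderOf x), ∑ ζ : IrrCharacter G with ζ ∈ principalBlock M G,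
      ‖(ζ : G → ℂ) (x ^ k)‖ ^ 2 = ((p ^ a : ℕ) : ℝ) := by
    intro k hk
    have hxk : ∃ j : ℕ, orderOf (x ^ k) = p ^ j := by
      obtain ⟨i, hi⟩ := hx
      have h1 : orderOf (x ^ k) ∣ p ^ i := by rw [← hi]; exact orderOf_pow_dvd k
      obtain ⟨j, -, hj⟩ := (Nat.dvd_prime_pow hp.out).mp h1
      exact ⟨j, hj⟩
    have h1 := inner_C hM hxk (hcz k hk) 1 hone
    rw [← hval, ← h1]
    apply Finset.sum_congr rfl
    intro ζ _
    rw [Subgroup.coe_one, mul_one]
  rw [nv_eq]
  set N := univ.filter fun χ : IrrCharacter G => χ ∈ principalBlock M G ∧ (χ : G → ℂ) x ≠ 0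
    with hN
  have hge : ∀ χ ∈ N, ((cop (orderOf x)).card : ℝ) ≤
      ∑ m ∈ cop (orderOf x), ‖(χ : G → ℂ) (x ^ m)‖ ^ 2 := by
    intro χ hχ
    obtain ⟨f, hf⟩ := exists_poly_char (irr_isChar χ.2) hN0 (pow_orderOf_eq_one x)
      (Complex.isPrimitiveRoot_exp _ hN0)
    apply gal_avg0 hN0 (a := fun m => (χ : G → ℂ) (x ^ m)) ⟨f, hf⟩
    show (χ : G → ℂ) (x ^ 1) ≠ 0
    rw [pow_one]
    exact (Finset.mem_filter.mp hχ).2.2
  have h2 := Finset.sum_le_sum hge
  rw [Finset.sum_const, nsmul_eq_mul] at h2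
  have h3 : ∑ χ ∈ N, ∑ m ∈ cop (orderOf x), ‖(χ : G → ℂ) (x ^ m)‖ ^ 2 ≤
      ∑ χ : IrrCharacter G with χ ∈ principalBlock M G,
        ∑ m ∈ cop (orderOf x), ‖(χ : G → ℂ) (x ^ m)‖ ^ 2 := by
    apply Finset.sum_le_sum_of_subset_of_nonneg
    · intro χ hχ
      exact Finset.mem_filter.mpr ⟨Finset.mem_univ _, (Finset.mem_filter.mp hχ).2.1⟩
    · intro χ _ _
      positivity
  have h3' : ∑ χ : IrrCharacter G with χ ∈ principalBlock M G,
        ∑ m ∈ cop (orderOf x), ‖(χ : G → ℂ) (x ^ m)‖ ^ 2 =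
      ((cop (orderOf x)).card : ℝ) * ((p ^ a : ℕ) : ℝ) := by
    rw [Finset.sum_comm, Finset.sum_congr rfl hsum, Finset.sum_const, nsmul_eq_mul]
  rw [h3'] at h3
  have hc : (0 : ℝ) < (cop (orderOf x)).card := by
    exact_mod_cast Finset.card_pos.mpr (cop_nonempty hN0)
  have h4 : ((cop (orderOf x)).card : ℝ) * (N.card : ℝ) ≤
      ((cop (orderOf x)).card : ℝ) * ((p ^ a : ℕ) : ℝ) := by
    rw [mul_comm]; exact h2.trans h3
  have h5 := le_of_mul_le_mul_left h4 hc
  exact_mod_cast h5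

end

end Cfsg.Agent.H20.SC
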