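import Mathlib
import Cfsg.Prelude.Def_LieExceptional

/-!
# Suzuki groups I: explicit elements

`Cfsg.Sz F m` is the stabiliser in `SL₄(F)` of the Suzuki–Tits ovoid. We introduce the explicit
elements `T a b` (translations), `D k` (torus), `W` (Weyl element), show that they lie in the
Suzuki group and describe their action.
-/

set_option autoImplicit false

namespace Cfsg.Agent.H20.Suz

open Matrix Projectivization
open scoped Pointwise

/-- The properties of the field which are used. -/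
structure SF (F : Type*) [Field F] (m : ℕ) : Prop where
  two : (2 : F) = 0
  ss : ∀ x : F, (x ^ (2 ^ (m + 1))) ^ (2 ^ (m + 1)) = x ^ 2
  ts : ∀ x : F, (x ^ (2 ^ m)) ^ (2 ^ (m + 1)) = x
  ne : ∃ x : F, x ^ (2 ^ (m + 1)) ≠ x ^ 2

theorem sf_of_card {F : Type*} [Field F] [Fintype F] {m : ℕ} (hm : 1 ≤ m)
    (hF : Fintype.card F = 2 ^ (2 * m + 1)) : SF F m := by
  have hchar : CharP F 2 := by
    have h1 : (Fintype.card F : F) = 0 := FiniteField.cast_card_eq_zero F
    rw [hF, Nat.cast_pow] at h1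
    have h2 : ((2 : ℕ) : F) = 0 := pow_eq_zero_iff (by omega) |>.mp h1
    exact CharTwo.of_one_ne_zero_of_two_eq_zero one_ne_zero (by exact_mod_cast h2)
  have hts : ∀ x : F, (x ^ (2 ^ m)) ^ (2 ^ (m + 1)) = x := by
    intro x
    rw [← pow_mul, ← pow_add]
    have : m + (m + 1) = 2 * m + 1 := by ring
    rw [this, ← hF]; exact FiniteField.pow_card x
  have hss : ∀ x : F, (x ^ (2 ^ (m + 1))) ^ (2 ^ (m + 1)) = x ^ 2 := by
    intro x
    have := hts (x ^ 2)
    rw [← pow_mul x 2 (2 ^ m), ← pow_succ'] at this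
    exact this
  refine ⟨CharTwo.two_eq_zero, hss, hts, ?_⟩
  by_contra hcon
  push Not at hcon
  have h4 : ∀ x : F, x ^ 4 = x ^ 2 := by
    intro x
    have h1 := hss x
    rw [hcon x, hcon (x ^ 2), ← pow_mul] at h1
    exact h1
  have h5 : ∀ x : F, x = 0 ∨ x = 1 := by
    intro x
    have h6 : x ^ 2 * (x ^ 2 - 1) = 0 := by have := h4 x; linear_combination this
    rcases mul_eq_zero.mp h6 with h | h
    · left; exact pow_eq_zero_iff (by norm_num) |>.mp h
    · right
      have h7 : (x - 1) ^ 2 = 0 := by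
        have : (2 : F) = 0 := CharTwo.two_eq_zero
        linear_combination h + (1 - x) * this
      exact sub_eq_zero.mp (pow_eq_zero_iff (by norm_num) |>.mp h7)
  classical
  have h6 : Fintype.card F ≤ 2 := by
    have : (Finset.univ : Finset F) ⊆ {0, 1} := by
      intro x _
      rcases h5 x with h | h <;> simp [h]
    calc Fintype.card F = (Finset.univ : Finset F).card := rfl
      _ ≤ ({0, 1} : Finset F).card := Finset.card_le_card this
      _ ≤ 2 := Finset.card_le_two
  rw [hF] at h6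
  have : 2 ^ 3 ≤ 2 ^ (2 * m + 1) := Nat.pow_le_pow_right (by norm_num) (by omega)
  omega

section
variable {F : Type*} [Field F] {m : ℕ}

/-- `σ` -/
def sg (m : ℕ) (x : F) : F := x ^ (2 ^ (m + 1))

theorem SF.neg (h : SF F m) (x : F) : -x = x := by
  linear_combination (-x) * h.two

theorem SF.add_self (h : SF F m) (x : F) : x + x = 0 := by
  linear_combination x * h.two

theorem SF.charP (h : SF F m) : CharP F 2 :=
  CharTwo.of_one_ne_zero_of_two_eq_zero one_ne_zero h.two

theorem sg_zero : sg m (0 : F) = 0 := by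
  unfold sg; exact zero_pow (by positivity)

theorem sg_one : sg m (1 : F) = 1 := one_pow _

theorem sg_mul (x y : F) : sg m (x * y) = sg m x * sg m y := mul_pow _ _ _

theorem sg_pow (x : F) (n : ℕ) : sg m (x ^ n) = (sg m x) ^ n := by
  unfold sg; rw [← pow_mul, ← pow_mul, mul_comm]

theorem sg_inv (x : F) : sg m (x⁻¹) = (sg m x)⁻¹ := inv_pow _ _

theorem sg_div (x y : F) : sg m (x / y) = sg m x / sg m y := div_pow _ _ _

theorem sg_eq_zero {x : F} : sg m x = 0 ↔ x = 0 := pow_eq_zero_iff (by positivity)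

theorem SF.sg_add (h : SF F m) (x y : F) : sg m (x + y) = sg m x + sg m y := by
  have := h.charP
  unfold sg
  exact add_pow_char_pow x y 2 (m + 1)

theorem SF.sg_sg (h : SF F m) (x : F) : sg m (sg m x) = x ^ 2 := h.ss x

theorem SF.sq_inj (h : SF F m) {x y : F} (hxy : x ^ 2 = y ^ 2) : x = y := by
  have : (x - y) ^ 2 = 0 := by
    linear_combination hxy + (y ^ 2 - x * y) * h.two
  exact sub_eq_zero.mp (pow_eq_zero_iff (by norm_num) |>.mp this)

theorem SF.sg_inj (h : SF F m) {x y : F} (hxy : sg m x = sg m y) : x = y := by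
  apply h.sq_inj
  rw [← h.sg_sg, ← h.sg_sg, hxy]

/-- The function `f(x,y) = xy + x^{σ+2} + y^σ`. -/
def ff (m : ℕ) (x y : F) : F := x * y + sg m x * x ^ 2 + sg m y

theorem ff_eq (x y : F) :
    x * y + x ^ (2 ^ (m + 1) + 2) + y ^ (2 ^ (m + 1)) = ff m x y := by
  unfold ff sg; rw [pow_add]

theorem ff_zero : ff m (0 : F) 0 = 0 := by
  unfold ff; rw [sg_zero]; ring

/-- basic identity: `xy z^σ + y^{σ+2} + x^σ z² = z^{σ+1}` -/
theorem SF.ff_ident (h : SF F m) (x y : F) :
    x * y * sg m (ff m x y) + sg m y * y ^ 2 + sg m x * (ff m x y) ^ 2 =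
      sg m (ff m x y) * ff m x y := by
  have h1 : sg m (ff m x y) = sg m x * sg m y + x ^ 2 * (sg m x) ^ 2 + y ^ 2 := by
    unfold ff
    rw [h.sg_add, h.sg_add, sg_mul, sg_mul, h.sg_sg, h.sg_sg, sg_pow]
  rw [h1]
  unfold ff
  generalize sg m x = X
  generalize sg m y = Y
  have h2 := h.two
  linear_combination (X * (x * y * (X * x ^ 2) + x * y * Y + X * x ^ 2 * Y) - (X ^ 2 * x ^ 2 * Y)) * h2

theorem SF.ff_eq_zero (h : SF F m) {x y : F} (hz : ff m x y = 0) : x = 0 ∧ y = 0 := by
  have h1 := h.ff_ident x y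
  rw [hz, sg_zero] at h1
  have h2 : sg m y * y ^ 2 = 0 := by linear_combination h1
  have hy : y = 0 := by
    rcases mul_eq_zero.mp h2 with h3 | h3
    · exact sg_eq_zero.mp h3
    · exact pow_eq_zero_iff (by norm_num) |>.mp h3
  subst hy
  have h3 : sg m x * x ^ 2 = 0 := by
    have := hz
    unfold ff at this
    rw [sg_zero] at this
    linear_combination this
  refine ⟨?_, rfl⟩
  rcases mul_eq_zero.mp h3 with h3 | h3
  · exact sg_eq_zero.mp h3
  · exact pow_eq_zero_iff (by norm_num) |>.mp h3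

/-! ### The points -/

/-- representatives of the points of the ovoid -/
def vec (m : ℕ) : Option (F × F) → (Fin 4 → F)
  | none => ![1, 0, 0, 0]
  | some (x, y) => ![ff m x y, y, x, 1]

theorem vec_ne (o : Option (F × F)) : vec m o ≠ 0 := by
  rcases o with _ | ⟨x, y⟩
  · intro h
    have := congrFun h 0
    simp [vec] at this
  · intro h
    have := congrFun h 3
    simp [vec] at this

/-- The points of the ovoid. -/
def P (m : ℕ) (o : Option (F × F)) : Projectivization F (Fin 4 → F) :=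
  Projectivization.mk F (vec m o) (vec_ne o)

theorem P_none : P m (none : Option (F × F)) = suzukiPointInfinity F := rfl

theorem P_zero : P m (some ((0 : F), (0 : F))) = suzukiPointZero F := by
  unfold P suzukiPointZero
  congr 1
  simp [vec, ff_zero]

theorem mem_ovoid {p : Projectivization F (Fin 4 → F)} :
    p ∈ suzukiOvoid F m ↔ ∃ o, p = P m o := by
  constructor
  · rintro ⟨v, hv, rfl, h | ⟨x, y, h⟩⟩
    · subst h; exact ⟨none, rfl⟩
    · subst h
      refine ⟨some (x, y), ?_⟩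
      unfold P
      congr 1
      simp [vec, ff_eq]
  · rintro ⟨o, rfl⟩
    rcases o with _ | ⟨x, y⟩
    · exact ⟨_, _, rfl, Or.inl rfl⟩
    · refine ⟨_, _, rfl, Or.inr ⟨x, y, ?_⟩⟩
      simp [vec, ff_eq]

theorem P_mem (o : Option (F × F)) : P m o ∈ suzukiOvoid F m := mem_ovoid.mpr ⟨o, rfl⟩

theorem mk_eq_iff {v w : Fin 4 → F} (hv : v ≠ 0) (hw : w ≠ 0) :
    Projectivization.mk F v hv = Projectivization.mk F w hw ↔ ∃ a : F, a ≠ 0 ∧ a • w = v := by
  rw [Projectivization.mk_eq_mk_iff']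
  constructor
  · rintro ⟨a, ha⟩
    refine ⟨a, ?_, ha⟩
    rintro rfl
    rw [zero_smul] at ha
    exact hv ha.symm
  · rintro ⟨a, _, ha⟩
    exact ⟨a, ha⟩

theorem P_injective : Function.Injective (P m : Option (F × F) → _) := by
  intro o o' h
  unfold P at h
  rw [mk_eq_iff] at h
  obtain ⟨a, ha, h⟩ := h
  rcases o with _ | ⟨x, y⟩ <;> rcases o' with _ | ⟨x', y'⟩
  · rfl
  · exfalso
    have := congrFun h 3
    simp [vec] at this
    exact ha this
  · exfalso
    have := congrFun h 3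
    simp [vec] at this
  · have e3 := congrFun h 3
    have e2 := congrFun h 2
    have e1 := congrFun h 1
    simp [vec] at e3 e2 e1
    subst e3
    simp at e1 e2
    rw [e1, e2]

theorem smul_P (g : Matrix.SpecialLinearGroup (Fin 4) F) (o o' : Option (F × F)) :
    g • P m o = P m o' ↔ ∃ a : F, a ≠ 0 ∧ a • vec m o' = g.1 *ᵥ vec m o := by
  unfold P
  rw [Projectivization.smul_mk, mk_eq_iff]
  rfl


/-! ### Translations -/

/-- The matrix of a translation. -/
def Tm (m : ℕ) (a b : F) : Matrix (Fin 4) (Fin 4) F :=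
  !![1, a, b + a * sg m a, ff m a b; 0, 1, sg m a, b; 0, 0, 1, a; 0, 0, 0, 1]

theorem det_Tm (a b : F) : (Tm m a b).det = 1 := by
  have h : (Tm m a b).BlockTriangular id := by
    intro i j hij
    fin_cases i <;> fin_cases j <;> simp [Tm] at hij ⊢
  rw [Matrix.det_of_isUpperTriangular h, Fin.prod_univ_four]
  simp [Tm]

/-- The translation `T(a,b)`. -/
def T (m : ℕ) (a b : F) : Matrix.SpecialLinearGroup (Fin 4) F := ⟨Tm m a b, det_Tm a b⟩

/-- The Weyl element. -/
def Wm (F : Type*) [Field F] : Matrix (Fin 4) (Fin 4) F :=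
  !![0, 0, 0, 1; 0, 0, 1, 0; 0, 1, 0, 0; 1, 0, 0, 0]

theorem det_Wm : (Wm F).det = 1 := by
  simp [Wm, Matrix.det_succ_row_zero, Fin.sum_univ_succ]
  have : (Fin.succAbove 3 2 : Fin 4) = 2 := by decide
  rw [this]
  simp
  norm_num

def W (F : Type*) [Field F] : Matrix.SpecialLinearGroup (Fin 4) F := ⟨Wm F, det_Wm⟩

/-- The matrix of a torus element. -/
noncomputable def Dm (m : ℕ) (k : F) : Matrix (Fin 4) (Fin 4) F :=
  !![k * k ^ (2 ^ m), 0, 0, 0; 0, k ^ (2 ^ m), 0, 0; 0, 0, (k ^ (2 ^ m))⁻¹, 0;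
    0, 0, 0, (k * k ^ (2 ^ m))⁻¹]

theorem det_Dm {k : F} (hk : k ≠ 0) : (Dm m k).det = 1 := by
  have h : (Dm m k).BlockTriangular id := by
    intro i j hij
    fin_cases i <;> fin_cases j <;> simp [Dm] at hij ⊢
  rw [Matrix.det_of_isUpperTriangular h, Fin.prod_univ_four]
  simp [Dm]
  field_simp

/-- The torus element `D(k)`. -/
noncomputable def D (m : ℕ) (k : Fˣ) : Matrix.SpecialLinearGroup (Fin 4) F :=
  ⟨Dm m k, det_Dm k.ne_zero⟩

theorem tau_sg (x : F) : (x ^ (2 ^ m)) ^ 2 = sg m x := by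
  unfold sg; rw [← pow_mul, ← pow_succ]

theorem T_mulVec_none (a b : F) : (T m a b).1 *ᵥ vec m none = vec m none := by
  ext i
  fin_cases i <;> simp [T, Tm, vec, Matrix.mulVec, dotProduct, Fin.sum_univ_four]

theorem T_mulVec_some (h : SF F m) (a b x y : F) :
    (T m a b).1 *ᵥ vec m (some (x, y)) = vec m (some (x + a, y + b + sg m a * x)) := by
  have h2 := h.two
  ext i
  fin_cases i
  · simp [T, Tm, vec, Matrix.mulVec, dotProduct, Fin.sum_univ_four]
    unfold ff
    rw [h.sg_add, h.sg_add, h.sg_add, sg_mul, h.sg_sg]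
    generalize sg m x = X
    generalize sg m y = Y
    generalize sg m a = A
    generalize sg m b = B
    linear_combination (-(A * x ^ 2 + X * x * a + X * a ^ 2 + a * x * A)) * h2
  · simp [T, Tm, vec, Matrix.mulVec, dotProduct, Fin.sum_univ_four]
    ring
  · simp [T, Tm, vec, Matrix.mulVec, dotProduct, Fin.sum_univ_four]
  · simp [T, Tm, vec, Matrix.mulVec, dotProduct, Fin.sum_univ_four]

theorem T_none (a b : F) : T m a b • P m (none : Option (F × F)) = P m none :=
  (smul_P _ _ _).mpr ⟨1, one_ne_zero, by rw [one_smul, T_mulVec_none]⟩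

theorem T_some (h : SF F m) (a b x y : F) :
    T m a b • P m (some (x, y)) = P m (some (x + a, y + b + sg m a * x)) :=
  (smul_P _ _ _).mpr ⟨1, one_ne_zero, by rw [one_smul, T_mulVec_some h]⟩

theorem W_none : W F • P m (none : Option (F × F)) = P m (some ((0 : F), (0 : F))) :=
  (smul_P _ _ _).mpr ⟨1, one_ne_zero, by
    ext i
    fin_cases i <;> simp [W, Wm, vec, Matrix.mulVec, dotProduct, Fin.sum_univ_four, ff_zero]⟩

theorem W_zero : W F • P m (some ((0 : F), (0 : F))) = P m (none : Option (F × F)) :=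
  (smul_P _ _ _).mpr ⟨1, one_ne_zero, by
    ext i
    fin_cases i <;> simp [W, Wm, vec, Matrix.mulVec, dotProduct, Fin.sum_univ_four, ff_zero]⟩

theorem W_some (h : SF F m) {x y : F} (hz : ff m x y ≠ 0) :
    W F • P m (some (x, y)) = P m (some (y / ff m x y, x / ff m x y)) := by
  refine (smul_P _ _ _).mpr ⟨ff m x y, hz, ?_⟩
  have hZ : sg m (ff m x y) ≠ 0 := fun h' => hz (sg_eq_zero.mp h')
  have hff : ff m x y * ff m (y / ff m x y) (x / ff m x y) = 1 := by
    have h1 : ff m (y / ff m x y) (x / ff m x y) =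
        (x * y * sg m (ff m x y) + sg m y * y ^ 2 + sg m x * (ff m x y) ^ 2) /
          (sg m (ff m x y) * (ff m x y) ^ 2) := by
      conv_lhs => unfold ff
      rw [sg_div, sg_div]
      change y / ff m x y * (x / ff m x y) + sg m y / sg m (ff m x y) * (y / ff m x y) ^ 2 +
        sg m x / sg m (ff m x y) = _
      field_simp
    rw [h1, h.ff_ident]
    field_simp
  ext i
  fin_cases i
  · simp [W, Wm, vec, Matrix.mulVec, dotProduct, Fin.sum_univ_four]
    exact hff
  · simp [W, Wm, vec, Matrix.mulVec, dotProduct, Fin.sum_univ_four]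
    field_simp
  · simp [W, Wm, vec, Matrix.mulVec, dotProduct, Fin.sum_univ_four]
    field_simp
  · simp [W, Wm, vec, Matrix.mulVec, dotProduct, Fin.sum_univ_four]

theorem D_none (k : Fˣ) : D m k • P m (none : Option (F × F)) = P m none :=
  (smul_P _ _ _).mpr ⟨k * (k : F) ^ (2 ^ m), by
      exact mul_ne_zero k.ne_zero (pow_ne_zero _ k.ne_zero), by
    ext i
    fin_cases i <;> simp [D, Dm, vec, Matrix.mulVec, dotProduct, Fin.sum_univ_four]⟩

theorem D_some (h : SF F m) (k : Fˣ) (x y : F) :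
    D m k • P m (some (x, y)) = P m (some (k * x, k * sg m (k : F) * y)) := by
  have hk : (k : F) ≠ 0 := k.ne_zero
  have hk2 : (k : F) ^ (2 ^ m) ≠ 0 := pow_ne_zero _ hk
  refine (smul_P _ _ _).mpr ⟨((k : F) * (k : F) ^ (2 ^ m))⁻¹, inv_ne_zero (mul_ne_zero hk hk2), ?_⟩
  have hs := tau_sg (m := m) (k : F)
  have hff : ff m (k * x) (k * sg m (k : F) * y) = (k : F) ^ 2 * sg m (k : F) * ff m x y := by
    unfold ff
    rw [sg_mul, sg_mul, sg_mul, h.sg_sg]
    ring
  ext i
  fin_cases i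
  · simp [D, Dm, vec, Matrix.mulVec, dotProduct, Fin.sum_univ_four]
    rw [hff, ← hs]
    field_simp
  · simp [D, Dm, vec, Matrix.mulVec, dotProduct, Fin.sum_univ_four]
    rw [← hs]
    field_simp
  · simp [D, Dm, vec, Matrix.mulVec, dotProduct, Fin.sum_univ_four]
    field_simp
  · simp [D, Dm, vec, Matrix.mulVec, dotProduct, Fin.sum_univ_four]


/-! ### Membership in the Suzuki group -/

theorem mem_Sz_of [Finite F] (g : Matrix.SpecialLinearGroup (Fin 4) F)
    (h : ∀ o : Option (F × F), ∃ o', g • P m o = P m o') : g ∈ Sz F m := by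
  have hfin : (suzukiOvoid F m).Finite := by
    have : suzukiOvoid F m = Set.range (P m : Option (F × F) → _) := by
      ext p; rw [mem_ovoid]
      constructor
      · rintro ⟨o, rfl⟩; exact ⟨o, rfl⟩
      · rintro ⟨o, rfl⟩; exact ⟨o, rfl⟩
    rw [this]; exact Set.finite_range _
  rw [Sz, MulAction.mem_stabilizer_set' hfin]
  rintro p hp
  obtain ⟨o, rfl⟩ := mem_ovoid.mp hp
  obtain ⟨o', ho'⟩ := h o
  rw [ho']; exact P_mem o'

theorem T_mem [Finite F] (h : SF F m) (a b : F) : T m a b ∈ Sz F m := by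
  apply mem_Sz_of
  rintro (_ | ⟨x, y⟩)
  · exact ⟨none, T_none a b⟩
  · exact ⟨_, T_some h a b x y⟩

theorem W_mem [Finite F] (h : SF F m) : W F ∈ Sz F m := by
  apply mem_Sz_of
  rintro (_ | ⟨x, y⟩)
  · exact ⟨_, W_none⟩
  · by_cases hz : ff m x y = 0
    · obtain ⟨rfl, rfl⟩ := h.ff_eq_zero hz
      exact ⟨_, W_zero⟩
    · exact ⟨_, W_some h hz⟩

theorem D_mem [Finite F] (h : SF F m) (k : Fˣ) : D m k ∈ Sz F m := by
  apply mem_Sz_of
  rintro (_ | ⟨x, y⟩)
  · exact ⟨none, D_none k⟩
  · exact ⟨_, D_some h k x y⟩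

theorem smul_P_exists {g : Matrix.SpecialLinearGroup (Fin 4) F} (hg : g ∈ Sz F m)
    (o : Option (F × F)) : ∃ o', g • P m o = P m o' := by
  have h1 : g • P m o ∈ g • suzukiOvoid F m := Set.smul_mem_smul_set (P_mem o)
  rw [MulAction.mem_stabilizer_iff.mp hg] at h1
  exact mem_ovoid.mp h1

/-! ### Relations -/

theorem SF.T_mul (h : SF F m) (a b a' b' : F) :
    T m a b * T m a' b' = T m (a + a') (b + b' + sg m a * a') := by
  have h2 := h.two
  apply Subtype.ext
  change Tm m a b * Tm m a' b' = Tm m (a + a') (b + b' + sg m a * a')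
  unfold Tm
  ext i j
  fin_cases i <;> fin_cases j <;> simp [Matrix.mul_apply, Fin.sum_univ_four]
  · ring
  · rw [h.sg_add]; linear_combination (-(a' * sg m a)) * h2
  · unfold ff
    rw [h.sg_add, h.sg_add, h.sg_add, sg_mul, h.sg_sg]
    generalize sg m a = A
    generalize sg m a' = A'
    linear_combination (-(A * a' ^ 2 + A * a * a' + A' * a ^ 2 + A' * a * a')) * h2
  · rw [h.sg_add]; ring
  · ring
  · ring

theorem T_zero : T m (0 : F) 0 = 1 := by
  apply Subtype.ext
  change Tm m (0 : F) 0 = 1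
  unfold Tm
  ext i j
  fin_cases i <;> fin_cases j <;> simp [ff_zero, sg_zero]

theorem D_mul (k l : Fˣ) : D m k * D m l = D m (k * l) := by
  apply Subtype.ext
  change Dm m (k : F) * Dm m (l : F) = Dm m ((k * l : Fˣ) : F)
  unfold Dm
  ext i j
  fin_cases i <;> fin_cases j <;> simp [Matrix.mul_apply, Fin.sum_univ_four, mul_pow] <;> ring

theorem D_one : D m (1 : Fˣ) = 1 := by
  apply Subtype.ext
  change Dm m ((1 : Fˣ) : F) = 1
  unfold Dm
  ext i j
  fin_cases i <;> fin_cases j <;> simp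

theorem SF.D_mul_T (h : SF F m) (k : Fˣ) (a b : F) :
    D m k * T m a b = T m (k * a) (k * sg m (k : F) * b) * D m k := by
  have hk : (k : F) ≠ 0 := k.ne_zero
  have hk2 : (k : F) ^ (2 ^ m) ≠ 0 := pow_ne_zero _ hk
  have hs := tau_sg (m := m) (k : F)
  have hff : ff m (k * a) (k * sg m (k : F) * b) = (k : F) ^ 2 * sg m (k : F) * ff m a b := by
    unfold ff
    rw [sg_mul, sg_mul, sg_mul, h.sg_sg]
    ring
  apply Subtype.ext
  change Dm m (k : F) * Tm m a b = Tm m (k * a) (k * sg m (k : F) * b) * Dm m (k : F)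
  unfold Dm Tm
  rw [hff, sg_mul]
  generalize ff m a b = z
  generalize sg m a = A
  rw [← hs]
  generalize (k : F) ^ (2 ^ m) = t at *
  ext i j
  fin_cases i <;> fin_cases j <;> simp [Matrix.mul_apply, Fin.sum_univ_four] <;> field_simp

theorem W_mul_W : W F * W F = 1 := by
  apply Subtype.ext
  change Wm F * Wm F = 1
  unfold Wm
  ext i j
  fin_cases i <;> fin_cases j <;> simp [Matrix.mul_apply, Fin.sum_univ_four]

theorem W_mul_D (k : Fˣ) : W F * D m k = D m k⁻¹ * W F := by
  apply Subtype.ext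
  change Wm F * Dm m (k : F) = Dm m ((k⁻¹ : Fˣ) : F) * Wm F
  unfold Dm Wm
  ext i j
  fin_cases i <;> fin_cases j <;> simp [Matrix.mul_apply, Fin.sum_univ_four] <;> ring

end

end Cfsg.Agent.H20.Suz
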