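import Cfsg.Agent.H20.Suzuki1

/-!
# Suzuki groups II: the stabiliser of two points
-/

set_option autoImplicit false

namespace Cfsg.Agent.H20.Suz

open Matrix Projectivization
open scoped Pointwise

variable {F : Type*} [Field F] {m : ℕ}

/-- The functions `x²`, `x^σ`, `x^{σ+2}` are linearly independent. -/
theorem SF.lin_indep (h : SF F m) {u v K : F}
    (hx : ∀ x : F, u * x ^ 2 + v * sg m x + K * (sg m x * x ^ 2) = 0) : u = 0 ∧ v = 0 ∧ K = 0 := by
  obtain ⟨x, hne⟩ := h.ne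
  have hne' : sg m x + x ^ 2 ≠ 0 := by
    intro h0
    apply hne
    change sg m x = x ^ 2
    linear_combination h0 - x ^ 2 * h.two
  have h1 := hx x
  have h2 := hx 1
  have h3 := hx (x + 1)
  rw [sg_one] at h2
  rw [h.sg_add, sg_one] at h3
  have hK : K * (sg m x + x ^ 2) = 0 := by
    linear_combination h3 - h1 - h2 - (u * x + K * sg m x * x + K * x) * h.two
  have hK0 : K = 0 := (mul_eq_zero.mp hK).resolve_right hne'
  subst hK0
  have huv : u = v := by linear_combination h2 - v * h.two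
  subst huv
  have : u * (sg m x + x ^ 2) = 0 := by linear_combination h1
  have hu := (mul_eq_zero.mp this).resolve_right hne'
  exact ⟨hu, hu, rfl⟩

theorem smul_P_some_iff {g : Matrix.SpecialLinearGroup (Fin 4) F} {x y : F} {o' : Option (F × F)}
    (h : g • P m (some (x, y)) = P m o') (h3 : (g.1 *ᵥ vec m (some (x, y))) 3 = 0) :
    o' = none := by
  obtain ⟨a, ha, h⟩ := (smul_P _ _ _).mp h
  rcases o' with _ | ⟨x', y'⟩
  · rfl
  · exfalso
    have := congrFun h 3
    rw [h3] at this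
    simp [vec] at this
    exact ha this

/-- an element fixing `P∞` and `P0` has its last row proportional to `(0,0,0,1)` -/
theorem row3 {g : Matrix.SpecialLinearGroup (Fin 4) F} (hg : g ∈ Sz F m)
    (h1 : g • P m (none : Option (F × F)) = P m none) :
    g.1 3 1 = 0 ∧ g.1 3 2 = 0 := by
  by_contra hcon
  -- find a point mapped to infinity
  have hex : ∃ x y : F, g.1 3 1 * y + g.1 3 2 * x + g.1 3 3 + g.1 3 0 * ff m x y = 0 := by
    obtain ⟨a, ha, h2⟩ := (smul_P _ _ _).mp h1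
    have h30 : g.1 3 0 = 0 := by
      have := congrFun h2 3
      simp [vec, Matrix.mulVec, dotProduct, Fin.sum_univ_four] at this
      exact this.symm
    by_cases h31 : g.1 3 1 = 0
    · have h32 : g.1 3 2 ≠ 0 := fun h32 => hcon ⟨h31, h32⟩
      refine ⟨-(g.1 3 3) / g.1 3 2, 0, ?_⟩
      rw [h30]; field_simp; ring
    · refine ⟨0, -(g.1 3 3) / g.1 3 1, ?_⟩
      rw [h30]; field_simp; ring
  obtain ⟨x, y, hxy⟩ := hex
  obtain ⟨o', ho'⟩ := smul_P_exists hg (some (x, y))
  have h3 : (g.1 *ᵥ vec m (some (x, y))) 3 = 0 := by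
    simp [vec, Matrix.mulVec, dotProduct, Fin.sum_univ_four]
    linear_combination hxy
  have h4 := smul_P_some_iff ho' h3
  rw [h4, ← h1] at ho'
  have h5 := P_injective (smul_left_cancel g ho')
  exact absurd h5 (by simp)

theorem col0 {g : Matrix.SpecialLinearGroup (Fin 4) F}
    (h1 : g • P m (none : Option (F × F)) = P m none) :
    g.1 0 0 ≠ 0 ∧ g.1 1 0 = 0 ∧ g.1 2 0 = 0 ∧ g.1 3 0 = 0 := by
  obtain ⟨a, ha, h2⟩ := (smul_P _ _ _).mp h1
  have e0 := congrFun h2 0
  have e1 := congrFun h2 1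
  have e2 := congrFun h2 2
  have e3 := congrFun h2 3
  simp [vec, Matrix.mulVec, dotProduct, Fin.sum_univ_four] at e0 e1 e2 e3
  exact ⟨e0 ▸ ha, e1.symm, e2.symm, e3.symm⟩

theorem col3 {g : Matrix.SpecialLinearGroup (Fin 4) F}
    (h1 : g • P m (some ((0 : F), (0 : F))) = P m (some (0, 0))) :
    g.1 3 3 ≠ 0 ∧ g.1 0 3 = 0 ∧ g.1 1 3 = 0 ∧ g.1 2 3 = 0 := by
  obtain ⟨a, ha, h2⟩ := (smul_P _ _ _).mp h1
  have e0 := congrFun h2 0
  have e1 := congrFun h2 1
  have e2 := congrFun h2 2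
  have e3 := congrFun h2 3
  simp [vec, ff_zero, Matrix.mulVec, dotProduct, Fin.sum_univ_four] at e0 e1 e2 e3
  exact ⟨e3 ▸ ha, e0.symm, e1.symm, e2.symm⟩

theorem WgW_entry (g : Matrix.SpecialLinearGroup (Fin 4) F) :
    (W F * g * W F).1 3 1 = g.1 0 2 ∧ (W F * g * W F).1 3 2 = g.1 0 1 := by
  change (Wm F * g.1 * Wm F) 3 1 = g.1 0 2 ∧ (Wm F * g.1 * Wm F) 3 2 = g.1 0 1
  constructor <;> simp [Wm, Matrix.mul_apply, Fin.sum_univ_four, Matrix.vecMul, dotProduct]

/-- The stabiliser of the two base points is the torus. -/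
theorem stab_two [Finite F] (h : SF F m) {g : Matrix.SpecialLinearGroup (Fin 4) F}
    (hg : g ∈ Sz F m) (h1 : g • P m (none : Option (F × F)) = P m none)
    (h0 : g • P m (some ((0 : F), (0 : F))) = P m (some (0, 0))) : ∃ k : Fˣ, g = D m k := by
  obtain ⟨hα, e10, e20, e30⟩ := col0 h1
  obtain ⟨hδ, e03, e13, e23⟩ := col3 h0
  obtain ⟨e31, e32⟩ := row3 hg h1
  have hg' : W F * g * W F ∈ Sz F m := mul_mem (mul_mem (W_mem h) hg) (W_mem h)
  have h1' : (W F * g * W F) • P m (none : Option (F × F)) = P m none := by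
    rw [mul_smul, mul_smul, W_none, h0, W_zero]
  obtain ⟨e02, e01⟩ := row3 hg' h1'
  rw [(WgW_entry g).1] at e02
  rw [(WgW_entry g).2] at e01
  -- action on the remaining points
  have hact : ∀ x y : F, ff m ((g.1 2 1 * y + g.1 2 2 * x) / g.1 3 3)
      ((g.1 1 1 * y + g.1 1 2 * x) / g.1 3 3) = g.1 0 0 / g.1 3 3 * ff m x y := by
    intro x y
    obtain ⟨o', ho'⟩ := smul_P_exists hg (some (x, y))
    obtain ⟨a, ha, hv⟩ := (smul_P _ _ _).mp ho'
    rcases o' with _ | ⟨x', y'⟩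
    · exfalso
      have := congrFun hv 3
      simp [vec, Matrix.mulVec, dotProduct, Fin.sum_univ_four, e30, e31, e32] at this
      exact hδ this.symm
    · have f0 := congrFun hv 0
      have f1 := congrFun hv 1
      have f2 := congrFun hv 2
      have f3 := congrFun hv 3
      simp [vec, Matrix.mulVec, dotProduct, Fin.sum_univ_four, e30, e31, e32, e01, e02, e03, e10,
        e13, e20, e23] at f0 f1 f2 f3
      subst f3
      have g1 : (g.1 2 1 * y + g.1 2 2 * x) / g.1 3 3 = x' := by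
        rw [← f2]; field_simp
      have g2 : (g.1 1 1 * y + g.1 1 2 * x) / g.1 3 3 = y' := by
        rw [← f1]; field_simp
      rw [g1, g2]
      field_simp
      linear_combination f0
  obtain ⟨δ, hδe⟩ : ∃ δ, δ = g.1 3 3 := ⟨_, rfl⟩
  obtain ⟨a, hae⟩ : ∃ a, a = g.1 1 1 / δ := ⟨_, rfl⟩
  obtain ⟨b, hbe⟩ : ∃ b, b = g.1 1 2 / δ := ⟨_, rfl⟩
  obtain ⟨c, hce⟩ : ∃ c, c = g.1 2 1 / δ := ⟨_, rfl⟩
  obtain ⟨d, hde⟩ : ∃ d, d = g.1 2 2 / δ := ⟨_, rfl⟩
  obtain ⟨β, hβe⟩ : ∃ β, β = g.1 0 0 / δ := ⟨_, rfl⟩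
  rw [← hδe] at hδ
  have hact' : ∀ x y : F, ff m (c * y + d * x) (a * y + b * x) = β * ff m x y := by
    intro x y
    have := hact x y
    rw [← hδe, ← hβe] at this
    rw [← this]
    congr 1
    · rw [hce, hde]; field_simp
    · rw [hae, hbe]; field_simp
  have hy0 := fun x => hact' x 0
  have hx0 := fun y => hact' 0 y
  simp only [mul_zero, zero_add, add_zero] at hy0 hx0
  have r1 := h.lin_indep (u := d * b) (v := sg m b) (K := sg m d * d ^ 2 + β) (by
    intro x
    have := hy0 x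
    unfold ff at this
    rw [sg_mul, sg_mul, sg_zero] at this
    linear_combination this + β * sg m x * x ^ 2 * h.two)
  have r2 := h.lin_indep (u := c * a) (v := sg m a + β) (K := sg m c * c ^ 2) (by
    intro y
    have := hx0 y
    unfold ff at this
    rw [sg_mul, sg_mul, sg_zero] at this
    linear_combination this + β * sg m y * h.two)
  have hb : b = 0 := sg_eq_zero.mp r1.2.1
  have hc : c = 0 := by
    rcases mul_eq_zero.mp r2.2.2 with h3 | h3
    · exact sg_eq_zero.mp h3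
    · exact pow_eq_zero_iff (by norm_num) |>.mp h3
  have hβd : β = sg m d * d ^ 2 := by linear_combination r1.2.2 - sg m d * d ^ 2 * h.two
  have hβa : sg m a = β := by linear_combination r2.2.1 - β * h.two
  have had : a = d * sg m d := by
    apply h.sg_inj
    rw [hβa, hβd, sg_mul, h.sg_sg]
  have hα' : g.1 0 0 = β * δ := by rw [hβe]; field_simp
  have h11 : g.1 1 1 = a * δ := by rw [hae]; field_simp
  have h12 : g.1 1 2 = 0 := by
    have : g.1 1 2 = b * δ := by rw [hbe]; field_simp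
    rw [this, hb, zero_mul]
  have h21 : g.1 2 1 = 0 := by
    have : g.1 2 1 = c * δ := by rw [hce]; field_simp
    rw [this, hc, zero_mul]
  have h22 : g.1 2 2 = d * δ := by rw [hde]; field_simp
  have hd0 : d ≠ 0 := by
    rintro rfl
    apply hα
    rw [hα', hβd]; ring
  have hdet := g.2
  have hM : g.1 = !![β * δ, 0, 0, 0; 0, a * δ, 0, 0; 0, 0, d * δ, 0; 0, 0, 0, δ] := by
    ext i j
    fin_cases i <;> fin_cases j <;>
      simp [hα', h11, h12, h21, h22, e01, e02, e03, e10, e13, e20, e23, e30, e31, e32, hδe]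
  rw [hM] at hdet
  have htri : (!![β * δ, 0, 0, 0; 0, a * δ, 0, 0; 0, 0, d * δ, 0; 0, 0, 0, δ] :
      Matrix (Fin 4) (Fin 4) F).BlockTriangular id := by
    intro i j hij
    fin_cases i <;> fin_cases j <;> simp at hij ⊢
  rw [Matrix.det_of_isUpperTriangular htri, Fin.prod_univ_four] at hdet
  simp at hdet
  have hs := tau_sg (m := m) d
  have hτ : d ^ (2 ^ m) ≠ 0 := pow_ne_zero _ hd0
  have hdet2 : d * d ^ (2 ^ m) * δ = 1 := by
    apply h.sq_inj
    apply h.sq_inj
    have : (d * d ^ (2 ^ m) * δ) ^ 2 = d ^ 2 * sg m d * δ ^ 2 := by rw [← hs]; ring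
    rw [this, one_pow, one_pow, ← hdet, had, hβd]
    ring
  have hδ' : δ = (d * d ^ (2 ^ m))⁻¹ := eq_inv_of_mul_eq_one_right hdet2
  refine ⟨Units.mk0 d hd0, ?_⟩
  apply Subtype.ext
  change g.1 = Dm m d
  rw [hM, had, hβd, hδ', ← hs]
  unfold Dm
  ext i j
  fin_cases i <;> fin_cases j <;> simp <;> field_simp

end Cfsg.Agent.H20.Suz
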