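import Cfsg.Agent.H20.Suzuki2

/-!
# Suzuki groups III: structure, order, double transitivity
-/

set_option autoImplicit false

namespace Cfsg.Agent.H20.Suz

open Matrix Projectivization
open scoped Pointwise

variable {F : Type*} [Field F] {m : ℕ}

theorem T_origin (h : SF F m) (x y : F) :
    T m x y • P m (some ((0 : F), (0 : F))) = P m (some (x, y)) := by
  rw [T_some h]; simp

theorem T_inv_some (h : SF F m) (x y : F) :
    (T m x y)⁻¹ • P m (some (x, y)) = P m (some ((0 : F), (0 : F))) := by
  rw [inv_smul_eq_iff, T_origin h]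

theorem T_inv_none (x y : F) : (T m x y)⁻¹ • P m (none : Option (F × F)) = P m none := by
  rw [inv_smul_eq_iff, T_none]

/-- the stabiliser of `P∞` -/
theorem stab_none [Finite F] (h : SF F m) {g : Matrix.SpecialLinearGroup (Fin 4) F}
    (hg : g ∈ Sz F m) (h1 : g • P m (none : Option (F × F)) = P m none) :
    ∃ (a b : F) (k : Fˣ), g = T m a b * D m k := by
  obtain ⟨o', ho'⟩ := smul_P_exists hg (some ((0 : F), (0 : F)))
  rcases o' with _ | ⟨a, b⟩
  · exfalso
    rw [← h1] at ho'
    exact absurd (P_injective (smul_left_cancel g ho')) (by simp)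
  · have h2 : ((T m a b)⁻¹ * g) • P m (none : Option (F × F)) = P m none := by
      rw [mul_smul, h1, T_inv_none]
    have h3 : ((T m a b)⁻¹ * g) • P m (some ((0 : F), (0 : F))) = P m (some (0, 0)) := by
      rw [mul_smul, ho', T_inv_some h]
    obtain ⟨k, hk⟩ := stab_two h (mul_mem (inv_mem (T_mem h a b)) hg) h2 h3
    exact ⟨a, b, k, by rw [← hk]; group⟩

/-- Bruhat decomposition. -/
theorem bruhat [Finite F] (h : SF F m) {g : Matrix.SpecialLinearGroup (Fin 4) F}
    (hg : g ∈ Sz F m) :
    (∃ (a b : F) (k : Fˣ), g = T m a b * D m k) ∨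
      ∃ (x y a b : F) (k : Fˣ), g = T m x y * W F * T m a b * D m k := by
  obtain ⟨o', ho'⟩ := smul_P_exists hg (none : Option (F × F))
  rcases o' with _ | ⟨x, y⟩
  · exact Or.inl (stab_none h hg ho')
  · right
    have h1 : ((W F)⁻¹ * (T m x y)⁻¹ * g) • P m (none : Option (F × F)) = P m none := by
      rw [mul_smul, mul_smul, ho', T_inv_some h, inv_smul_eq_iff, W_none]
    obtain ⟨a, b, k, hk⟩ := stab_none h (mul_mem (mul_mem (inv_mem (W_mem h)) (inv_mem (T_mem h x y))) hg) h1
    refine ⟨x, y, a, b, k, ?_⟩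
    rw [mul_assoc (T m x y * W F), ← hk]; group

/-- double transitivity -/
theorem two_trans [Finite F] (h : SF F m) {o o' : Option (F × F)} (hne : o ≠ o') :
    ∃ g ∈ Sz F m, g • P m o = P m none ∧ g • P m o' = P m (some ((0 : F), (0 : F))) := by
  have h1 : ∃ g ∈ Sz F m, g • P m o = P m none := by
    rcases o with _ | ⟨x, y⟩
    · exact ⟨1, one_mem _, one_smul _ _⟩
    · refine ⟨W F * (T m x y)⁻¹, mul_mem (W_mem h) (inv_mem (T_mem h x y)), ?_⟩
      rw [mul_smul, T_inv_some h, W_zero]
  obtain ⟨g, hg, hgo⟩ := h1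
  obtain ⟨p, hp⟩ := smul_P_exists hg o'
  rcases p with _ | ⟨x, y⟩
  · exfalso
    rw [← hgo] at hp
    exact hne (P_injective (smul_left_cancel g hp)).symm
  · refine ⟨(T m x y)⁻¹ * g, mul_mem (inv_mem (T_mem h x y)) hg, ?_, ?_⟩
    · rw [mul_smul, hgo, T_inv_none]
    · rw [mul_smul, hp, T_inv_some h]

theorem D_injective (h : SF F m) : Function.Injective (D m : Fˣ → _) := by
  intro k l hkl
  have h1 := D_some h k 1 0
  have h2 := D_some h l 1 0
  rw [hkl, h2] at h1
  have h3 := P_injective h1
  simp at h3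
  exact Units.ext h3.symm

theorem TD_injective (h : SF F m) :
    Function.Injective (fun t : F × F × Fˣ => T m t.1 t.2.1 * D m t.2.2) := by
  rintro ⟨a, b, k⟩ ⟨a', b', k'⟩ hh
  simp only at hh
  have h1 : (T m a b * D m k) • P m (some ((0 : F), (0 : F))) = P m (some (a, b)) := by
    rw [mul_smul, D_some h]; simp only [mul_zero]; rw [T_origin h]
  have h2 : (T m a' b' * D m k') • P m (some ((0 : F), (0 : F))) = P m (some (a', b')) := by
    rw [mul_smul, D_some h]; simp only [mul_zero]; rw [T_origin h]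
  rw [hh, h2] at h1
  have h3 := P_injective h1
  simp only [Option.some.injEq, Prod.mk.injEq] at h3
  obtain ⟨rfl, rfl⟩ := h3
  have h4 := D_injective h (mul_left_cancel hh)
  rw [h4]

/-! ### the Suzuki group as a type -/

theorem mem_stab_inf_iff {g : Sz F m} :
    g ∈ MulAction.stabilizer (Sz F m) (suzukiPointInfinity F) ↔
      (g : Matrix.SpecialLinearGroup (Fin 4) F) • P m (none : Option (F × F)) = P m none := Iff.rfl

theorem mem_stab_zero_iff {g : Sz F m} :
    g ∈ MulAction.stabilizer (Sz F m) (suzukiPointZero F) ↔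
      (g : Matrix.SpecialLinearGroup (Fin 4) F) • P m (some ((0 : F), (0 : F))) = P m (some (0, 0)) := by
  rw [MulAction.mem_stabilizer_iff, P_zero]
  exact Iff.rfl

theorem card_stab_inf [Fintype F] (h : SF F m) :
    Nat.card (MulAction.stabilizer (Sz F m) (suzukiPointInfinity F)) =
      Fintype.card F ^ 2 * (Fintype.card F - 1) := by
  let f : F × F × Fˣ → MulAction.stabilizer (Sz F m) (suzukiPointInfinity F) := fun t =>
    ⟨⟨T m t.1 t.2.1 * D m t.2.2, mul_mem (T_mem h _ _) (D_mem h _)⟩, by
      rw [mem_stab_inf_iff]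
      change (T m t.1 t.2.1 * D m t.2.2) • _ = _
      rw [mul_smul, D_none, T_none]⟩
  have hf : Function.Bijective f := by
    constructor
    · intro s t hst
      exact TD_injective h (congrArg (fun z => ((z : Sz F m) : Matrix.SpecialLinearGroup (Fin 4) F)) (congrArg Subtype.val hst))
    · rintro ⟨⟨g, hg⟩, hs⟩
      rw [mem_stab_inf_iff] at hs
      obtain ⟨a, b, k, hk⟩ := stab_none h hg hs
      exact ⟨(a, b, k), Subtype.ext (Subtype.ext hk.symm)⟩
  rw [← Nat.card_congr (Equiv.ofBijective f hf), Nat.card_prod, Nat.card_prod,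
    Nat.card_eq_fintype_card, Nat.card_units, Nat.card_eq_fintype_card]
  ring

theorem orbit_inf [Finite F] (h : SF F m) :
    MulAction.orbit (Sz F m) (suzukiPointInfinity F) = suzukiOvoid F m := by
  ext p
  constructor
  · rintro ⟨g, rfl⟩
    obtain ⟨o', ho'⟩ := smul_P_exists g.2 (none : Option (F × F))
    exact mem_ovoid.mpr ⟨o', ho'⟩
  · intro hp
    obtain ⟨o, rfl⟩ := mem_ovoid.mp hp
    rcases o with _ | ⟨x, y⟩
    · exact MulAction.mem_orbit_self _
    · refine ⟨⟨T m x y * W F, mul_mem (T_mem h x y) (W_mem h)⟩, ?_⟩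
      change (T m x y * W F) • P m (none : Option (F × F)) = _
      rw [mul_smul, W_none, T_origin h]

theorem ncard_ovoid [Fintype F] : (suzukiOvoid F m).ncard = Fintype.card F ^ 2 + 1 := by
  have : suzukiOvoid F m = Set.range (P m : Option (F × F) → _) := by
    ext p; rw [mem_ovoid]
    constructor
    · rintro ⟨o, rfl⟩; exact ⟨o, rfl⟩
    · rintro ⟨o, rfl⟩; exact ⟨o, rfl⟩
  rw [this, ← Set.image_univ, Set.ncard_image_of_injective _ P_injective, Set.ncard_univ,
    Nat.card_eq_fintype_card, Fintype.card_option, Fintype.card_prod, sq]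

theorem card_Sz [Fintype F] (h : SF F m) :
    Nat.card (Sz F m) = Fintype.card F ^ 2 * (Fintype.card F ^ 2 + 1) * (Fintype.card F - 1) := by
  have h1 := (MulAction.stabilizer (Sz F m) (suzukiPointInfinity F)).index_mul_card
  rw [MulAction.index_stabilizer, orbit_inf h, ncard_ovoid, card_stab_inf h] at h1
  rw [← h1]; ring

/-! ### the form -/

/-- `g` preserves the alternating form -/
def Pres (g : Matrix (Fin 4) (Fin 4) F) : Prop := gᵀ * suzukiForm F * g = suzukiForm F

theorem Pres.mul {g k : Matrix (Fin 4) (Fin 4) F} (hg : Pres g) (hk : Pres k) : Pres (g * k) := by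
  unfold Pres at *
  rw [Matrix.transpose_mul]
  calc kᵀ * gᵀ * suzukiForm F * (g * k) = kᵀ * (gᵀ * suzukiForm F * g) * k := by
        simp only [Matrix.mul_assoc]
    _ = suzukiForm F := by rw [hg, hk]

theorem pres_T (h : SF F m) (a b : F) : Pres (Tm m a b) := by
  unfold Pres suzukiForm Tm
  have h2 := h.two
  ext i j
  fin_cases i <;> fin_cases j <;>
    simp [Matrix.mul_apply, Fin.sum_univ_four, Matrix.transpose_apply] <;>
    first
    | (linear_combination a * h2)
    | (linear_combination (b + a * sg m a) * h2)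
    | (linear_combination (ff m a b + a * b + a * a * sg m a) * h2)
    | (linear_combination (ff m a b + a * b) * h2)
    | (linear_combination (sg m a) * h2)
    | skip

theorem pres_W : Pres (Wm F) := by
  unfold Pres suzukiForm Wm
  ext i j
  fin_cases i <;> fin_cases j <;> simp [Matrix.mul_apply, Fin.sum_univ_four, Matrix.transpose_apply]

theorem pres_D {k : F} (hk : k ≠ 0) : Pres (Dm m k) := by
  unfold Pres suzukiForm Dm
  have hk2 : k ^ (2 ^ m) ≠ 0 := pow_ne_zero _ hk
  ext i j
  fin_cases i <;> fin_cases j <;>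
    simp [Matrix.mul_apply, Fin.sum_univ_four, Matrix.transpose_apply] <;> field_simp

theorem pres_of_mem [Finite F] (h : SF F m) {g : Matrix.SpecialLinearGroup (Fin 4) F}
    (hg : g ∈ Sz F m) : Pres g.1 := by
  rcases bruhat h hg with ⟨a, b, k, rfl⟩ | ⟨x, y, a, b, k, rfl⟩
  · exact (pres_T h a b).mul (pres_D k.ne_zero)
  · exact (((pres_T h x y).mul pres_W).mul (pres_T h a b)).mul (pres_D k.ne_zero)

end Cfsg.Agent.H20.Suz
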