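import Cfsg.Agent.H20.Suzuki3

/-!
# Suzuki groups IV: Zassenhaus property and simplicity
-/

set_option autoImplicit false

namespace Cfsg.Agent.H20.Suz

open Matrix Projectivization
open scoped Pointwise

variable {F : Type*} [Field F] {m : ℕ}

theorem D_fix (h : SF F m) {l : Fˣ} {x y : F} (hxy : ¬ (x = 0 ∧ y = 0))
    (hl : D m l • P m (some (x, y)) = P m (some (x, y))) : l = 1 := by
  rw [D_some h] at hl
  have h3 := P_injective hl
  simp only [Option.some.injEq, Prod.mk.injEq] at h3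
  obtain ⟨h4, h5⟩ := h3
  by_cases hx : x = 0
  · have hy : y ≠ 0 := fun hy => hxy ⟨hx, hy⟩
    have h6 : (l : F) * sg m (l : F) = 1 := by
      have : ((l : F) * sg m (l : F)) * y = 1 * y := by rw [one_mul]; exact h5
      exact mul_right_cancel₀ hy this
    have h7 : sg m (l : F) * (l : F) ^ 2 = 1 := by
      have := congrArg (sg m) h6
      rwa [sg_mul, h.sg_sg, sg_one] at this
    apply Units.ext
    rw [Units.val_one]
    linear_combination h7 - (l : F) * h6
  · apply Units.ext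
    rw [Units.val_one]
    exact mul_right_cancel₀ hx (by rw [one_mul]; exact h4)

theorem fix_three [Finite F] (h : SF F m) {g : Matrix.SpecialLinearGroup (Fin 4) F}
    (hg : g ∈ Sz F m) {o1 o2 o3 : Option (F × F)} (h12 : o1 ≠ o2) (h13 : o1 ≠ o3) (h23 : o2 ≠ o3)
    (h1 : g • P m o1 = P m o1) (h2 : g • P m o2 = P m o2) (h3 : g • P m o3 = P m o3) : g = 1 := by
  obtain ⟨k, hk, hk1, hk2⟩ := two_trans h h12
  obtain ⟨p, hp⟩ := smul_P_exists hk o3
  have e1 : (k * g * k⁻¹) • P m (none : Option (F × F)) = P m none := by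
    rw [mul_smul, mul_smul, ← hk1, inv_smul_smul, h1]
  have e2 : (k * g * k⁻¹) • P m (some ((0 : F), (0 : F))) = P m (some (0, 0)) := by
    rw [mul_smul, mul_smul, ← hk2, inv_smul_smul, h2]
  have e3 : (k * g * k⁻¹) • P m p = P m p := by
    rw [mul_smul, mul_smul, ← hp, inv_smul_smul, h3]
  obtain ⟨l, hl⟩ := stab_two h (mul_mem (mul_mem hk hg) (inv_mem hk)) e1 e2
  rcases p with _ | ⟨x, y⟩
  · exfalso
    rw [← hk1] at hp
    exact h13 (P_injective (smul_left_cancel k hp)).symm
  · have hxy : ¬ (x = 0 ∧ y = 0) := by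
      rintro ⟨rfl, rfl⟩
      rw [← hk2] at hp
      exact h23 (P_injective (smul_left_cancel k hp)).symm
    rw [hl] at e3
    have hl1 := D_fix h hxy e3
    rw [hl1, D_one] at hl
    have : g = k⁻¹ * (k * g * k⁻¹) * k := by group
    rw [this, hl]; group

theorem SF.exists_ne (h : SF F m) : ∃ x : F, x ≠ 0 ∧ x ≠ 1 := by
  obtain ⟨x, hx⟩ := h.ne
  refine ⟨x, ?_, ?_⟩
  · rintro rfl
    apply hx
    rw [zero_pow (by positivity), zero_pow (by norm_num)]
  · rintro rfl
    apply hx
    rw [one_pow, one_pow]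

theorem T_self (h : SF F m) (b : F) : T m 0 b * T m 0 b = 1 := by
  rw [h.T_mul, sg_zero]
  rw [h.add_self, zero_mul, add_zero, h.add_self, T_zero]

theorem T_fix (h : SF F m) {b : F} (hb : b ≠ 0) {o : Option (F × F)}
    (ho : T m 0 b • P m o = P m o) : o = none := by
  rcases o with _ | ⟨x, y⟩
  · rfl
  · exfalso
    rw [T_some h] at ho
    have h3 := P_injective ho
    simp only [Option.some.injEq, Prod.mk.injEq] at h3
    apply hb
    have := h3.2
    rw [sg_zero] at this
    linear_combination this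

/-- elements of the Suzuki group -/
noncomputable def tt [Finite F] (h : SF F m) (a b : F) : Sz F m := ⟨T m a b, T_mem h a b⟩
noncomputable def dd [Finite F] (h : SF F m) (k : Fˣ) : Sz F m := ⟨D m k, D_mem h k⟩
noncomputable def ww [Finite F] (h : SF F m) : Sz F m := ⟨W F, W_mem h⟩

/-- The points of the ovoid as a type. -/
def pt (m : ℕ) (o : Option (F × F)) : suzukiOvoid F m := ⟨P m o, P_mem o⟩

theorem exists_pt (p : suzukiOvoid F m) : ∃ o, p = pt m o := by
  obtain ⟨o, ho⟩ := mem_ovoid.mp p.2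
  exact ⟨o, Subtype.ext ho⟩

theorem pt_injective : Function.Injective (pt m : Option (F × F) → _) := fun _ _ h =>
  P_injective (congrArg Subtype.val h)

theorem smul_pt_iff {g : Sz F m} {o o' : Option (F × F)} :
    g • pt m o = pt m o' ↔ (g : Matrix.SpecialLinearGroup (Fin 4) F) • P m o = P m o' := by
  rw [Subtype.ext_iff]; rfl

section
variable [Finite F]

theorem tt_mul (h : SF F m) (a b a' b' : F) :
    tt h a b * tt h a' b' = tt h (a + a') (b + b' + sg m a * a') := Subtype.ext (h.T_mul a b a' b')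

theorem tt_zero (h : SF F m) : tt h 0 0 = 1 := Subtype.ext T_zero

theorem dd_mul (h : SF F m) (k l : Fˣ) : dd h k * dd h l = dd h (k * l) := Subtype.ext (D_mul k l)

theorem dd_one (h : SF F m) : dd h 1 = 1 := Subtype.ext D_one

theorem dd_inv (h : SF F m) (k : Fˣ) : (dd h k)⁻¹ = dd h k⁻¹ := by
  rw [inv_eq_iff_mul_eq_one, dd_mul, mul_inv_cancel, dd_one]

theorem dd_mul_tt (h : SF F m) (k : Fˣ) (a b : F) :
    dd h k * tt h a b = tt h (k * a) (k * sg m (k : F) * b) * dd h k :=
  Subtype.ext (h.D_mul_T k a b)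

theorem dd_conj_tt (h : SF F m) (k : Fˣ) (a b : F) :
    dd h k * tt h a b * (dd h k)⁻¹ = tt h (k * a) (k * sg m (k : F) * b) := by
  rw [dd_mul_tt]; group

theorem ww_mul_ww (h : SF F m) : ww h * ww h = 1 := Subtype.ext W_mul_W

theorem ww_mul_dd (h : SF F m) (k : Fˣ) : ww h * dd h k = dd h k⁻¹ * ww h :=
  Subtype.ext (W_mul_D k)

theorem tt_inv (h : SF F m) (a b : F) : (tt h a b)⁻¹ = tt h a (b + sg m a * a) := by
  rw [inv_eq_iff_mul_eq_one, tt_mul, h.add_self]
  have : b + (b + sg m a * a) + sg m a * a = 0 := by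
    linear_combination (b + sg m a * a) * h.two
  rw [this, tt_zero]

theorem stab_none' (h : SF F m) {g : Sz F m} (h1 : g • pt m (none : Option (F × F)) = pt m none) :
    ∃ (a b : F) (k : Fˣ), g = tt h a b * dd h k := by
  obtain ⟨a, b, k, hk⟩ := stab_none h g.2 (smul_pt_iff.mp h1)
  exact ⟨a, b, k, Subtype.ext hk⟩

theorem stab_two' (h : SF F m) {g : Sz F m} (h1 : g • pt m (none : Option (F × F)) = pt m none)
    (h0 : g • pt m (some ((0 : F), (0 : F))) = pt m (some (0, 0))) : ∃ k : Fˣ, g = dd h k := by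
  obtain ⟨k, hk⟩ := stab_two h g.2 (smul_pt_iff.mp h1) (smul_pt_iff.mp h0)
  exact ⟨k, Subtype.ext hk⟩

theorem bruhat' (h : SF F m) (g : Sz F m) :
    (∃ (a b : F) (k : Fˣ), g = tt h a b * dd h k) ∨
      ∃ (x y a b : F) (k : Fˣ), g = tt h x y * ww h * tt h a b * dd h k := by
  rcases bruhat h g.2 with ⟨a, b, k, hk⟩ | ⟨x, y, a, b, k, hk⟩
  · exact Or.inl ⟨a, b, k, Subtype.ext hk⟩
  · exact Or.inr ⟨x, y, a, b, k, Subtype.ext hk⟩

theorem two_trans' (h : SF F m) {p p' : suzukiOvoid F m} (hne : p ≠ p') :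
    ∃ g : Sz F m, g • p = pt m none ∧ g • p' = pt m (some ((0 : F), (0 : F))) := by
  obtain ⟨o, rfl⟩ := exists_pt p
  obtain ⟨o', rfl⟩ := exists_pt p'
  obtain ⟨g, hg, h1, h2⟩ := two_trans h (o := o) (o' := o') (fun h' => hne (by rw [h']))
  exact ⟨⟨g, hg⟩, smul_pt_iff.mpr h1, smul_pt_iff.mpr h2⟩

theorem isTwoPretransitive (h : SF F m) :
    MulAction.IsMultiplyPretransitive (Sz F m) (suzukiOvoid F m) 2 := by
  rw [MulAction.is_two_pretransitive_iff]
  intro a b c d hab hcd
  obtain ⟨g, hg1, hg2⟩ := two_trans' h hab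
  obtain ⟨k, hk1, hk2⟩ := two_trans' h hcd
  refine ⟨k⁻¹ * g, ?_, ?_⟩
  · rw [mul_smul, hg1, ← hk1, inv_smul_smul]
  · rw [mul_smul, hg2, ← hk2, inv_smul_smul]

theorem fix_three' (h : SF F m) {g : Sz F m} {a b c : suzukiOvoid F m} (hab : a ≠ b) (hac : a ≠ c)
    (hbc : b ≠ c) (h1 : g • a = a) (h2 : g • b = b) (h3 : g • c = c) : g = 1 := by
  obtain ⟨o, rfl⟩ := exists_pt a
  obtain ⟨o', rfl⟩ := exists_pt b
  obtain ⟨o'', rfl⟩ := exists_pt c
  exact Subtype.ext (fix_three h g.2 (fun h' => hab (by rw [h'])) (fun h' => hac (by rw [h']))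
    (fun h' => hbc (by rw [h'])) (smul_pt_iff.mp h1) (smul_pt_iff.mp h2) (smul_pt_iff.mp h3))

theorem faithful (h : SF F m) : FaithfulSMul (Sz F m) (suzukiOvoid F m) := by
  constructor
  intro g k hgk
  have h1 : ∀ p : suzukiOvoid F m, (k⁻¹ * g) • p = p := by
    intro p
    rw [mul_smul, hgk p, inv_smul_smul]
  have h2 : k⁻¹ * g = 1 := by
    refine fix_three' h (a := pt m none) (b := pt m (some (0, 0))) (c := pt m (some (1, 0)))
      ?_ ?_ ?_ (h1 _) (h1 _) (h1 _)
    · intro h'; exact absurd (pt_injective h') (by simp)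
    · intro h'; exact absurd (pt_injective h') (by simp)
    · intro h'; exact absurd (pt_injective h') (by simp)
  exact (inv_mul_eq_one.mp h2).symm

theorem tt_fix (h : SF F m) {b : F} (hb : b ≠ 0) {p : suzukiOvoid F m}
    (hp : tt h 0 b • p = p) : p = pt m none := by
  obtain ⟨o, rfl⟩ := exists_pt p
  rw [T_fix h hb (smul_pt_iff.mp hp)]

theorem tt_none (h : SF F m) (a b : F) : tt h a b • pt m (none : Option (F × F)) = pt m none :=
  smul_pt_iff.mpr (T_none a b)

theorem dd_none (h : SF F m) (k : Fˣ) : dd h k • pt m (none : Option (F × F)) = pt m none :=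
  smul_pt_iff.mpr (D_none k)

/-- no regular normal subgroup -/
theorem no_regular (h : SF F m) (N : Subgroup (Sz F m)) (hN : N.Normal)
    (htr : MulAction.IsPretransitive N (suzukiOvoid F m)) :
    ∃ n ∈ N, n ≠ 1 ∧ ∃ p : suzukiOvoid F m, n • p = p := by
  by_contra hcon
  push Not at hcon
  have hfree : ∀ n ∈ N, ∀ p : suzukiOvoid F m, n • p = p → n = 1 := by
    intro n hn p hp
    by_contra h1
    exact hcon n hn h1 p hp
  -- elements of N commuting with an involution `tt 0 b` are trivial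
  have hcomm : ∀ b : F, b ≠ 0 → ∀ n ∈ N, n * tt h 0 b = tt h 0 b * n → n = 1 := by
    intro b hb n hn hc
    apply hfree n hn (pt m none)
    apply tt_fix h hb
    rw [← mul_smul, ← hc, mul_smul, tt_none]
  have hinv : ∀ b : F, b ≠ 0 → ∀ n ∈ N, tt h 0 b * n * (tt h 0 b)⁻¹ = n⁻¹ := by
    intro b hb
    set t := tt h 0 b with ht
    have htt : t * t = 1 := Subtype.ext (T_self h b)
    let φ : N → N := fun n => ⟨(n : Sz F m)⁻¹ * (t * n * t⁻¹), mul_mem (inv_mem n.2) (hN.conj_mem _ n.2 _)⟩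
    have hφ : Function.Injective φ := by
      intro x y hxy
      have h1 : (x : Sz F m)⁻¹ * (t * x * t⁻¹) = (y : Sz F m)⁻¹ * (t * y * t⁻¹) := congrArg Subtype.val hxy
      have h2 : (y : Sz F m) * (x : Sz F m)⁻¹ = 1 := by
        apply hcomm b hb _ (mul_mem y.2 (inv_mem x.2))
        have h3 : (y : Sz F m) * ((x : Sz F m)⁻¹ * (t * x * t⁻¹)) * (t * (x : Sz F m)⁻¹) =
            (y : Sz F m) * ((y : Sz F m)⁻¹ * (t * y * t⁻¹)) * (t * (x : Sz F m)⁻¹) := by rw [h1]
        calc (y : Sz F m) * (x : Sz F m)⁻¹ * t = (y : Sz F m) * ((x : Sz F m)⁻¹ * (t * x * t⁻¹)) * (t * (x : Sz F m)⁻¹) := by group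
          _ = (y : Sz F m) * ((y : Sz F m)⁻¹ * (t * y * t⁻¹)) * (t * (x : Sz F m)⁻¹) := h3
          _ = t * ((y : Sz F m) * (x : Sz F m)⁻¹) := by group
      exact Subtype.ext (mul_inv_eq_one.mp h2).symm
    have hφs : Function.Surjective φ := Finite.surjective_of_injective hφ
    intro n hn
    obtain ⟨x, hx⟩ := hφs ⟨n, hn⟩
    have hx' : (x : Sz F m)⁻¹ * (t * x * t⁻¹) = n := congrArg Subtype.val hx
    have hti : t⁻¹ = t := inv_eq_of_mul_eq_one_left htt
    rw [← hx']
    calc t * ((x : Sz F m)⁻¹ * (t * x * t⁻¹)) * t⁻¹ = t * (x : Sz F m)⁻¹ * t * x * (t⁻¹ * t⁻¹) := by group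
      _ = t * (x : Sz F m)⁻¹ * t * x := by rw [hti, htt, mul_one]
      _ = t * (x : Sz F m)⁻¹ * t⁻¹ * x := by rw [hti]
      _ = ((x : Sz F m)⁻¹ * (t * x * t⁻¹))⁻¹ := by group
  obtain ⟨c, hc0, hc1⟩ := h.exists_ne
  have hc2 : (1 : F) + c ≠ 0 := by
    intro h'
    apply hc1
    linear_combination h' - h.two
  have hall : ∀ n ∈ N, n = 1 := by
    intro n hn
    apply hcomm (1 + c) hc2 n hn
    have e1 : tt h 0 (1 + c) = tt h 0 1 * tt h 0 c := by
      rw [tt_mul, sg_zero]; simp
    have h1 := hinv 1 one_ne_zero n hn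
    have h2 := hinv c hc0 n hn
    have h3 : tt h 0 c * n * (tt h 0 c)⁻¹ = tt h 0 1 * n * (tt h 0 1)⁻¹ := by rw [h1, h2]
    have h5 := hinv 1 one_ne_zero n⁻¹ (inv_mem hn)
    rw [inv_inv] at h5
    have h4 : (tt h 0 1 * tt h 0 c) * n * (tt h 0 1 * tt h 0 c)⁻¹ = n := by
      calc (tt h 0 1 * tt h 0 c) * n * (tt h 0 1 * tt h 0 c)⁻¹
          = tt h 0 1 * (tt h 0 c * n * (tt h 0 c)⁻¹) * (tt h 0 1)⁻¹ := by group
        _ = n := by rw [h2, h5]
    rw [e1]
    exact (mul_inv_eq_iff_eq_mul.mp h4).symm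
  obtain ⟨n, hn⟩ := htr.exists_smul_eq (pt m none) (pt m (some ((0 : F), (0 : F))))
  have h1 : (n : Sz F m) = 1 := hall n n.2
  have h2 : (n : Sz F m) • pt m (none : Option (F × F)) = pt m (some (0, 0)) := hn
  rw [h1, one_smul] at h2
  exact absurd (pt_injective h2) (by simp)

theorem isZassenhaus (h : SF F m) : IsZassenhausGroup (Sz F m) (suzukiOvoid F m) := by
  refine ⟨faithful h, isTwoPretransitive h, ?_, ?_, ?_⟩
  · intro g a b c hab hbc hac h1 h2 h3
    exact fix_three' h hab hac hbc h1 h2 h3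
  · obtain ⟨c, hc0, hc1⟩ := h.exists_ne
    refine ⟨dd h (Units.mk0 c hc0), ?_, pt m none, pt m (some (0, 0)), ?_, dd_none h _, ?_⟩
    · intro h'
      have h2 : D m (Units.mk0 c hc0) = D m 1 := by rw [D_one]; exact congrArg Subtype.val h'
      have h3 := congrArg Units.val (D_injective h h2)
      exact hc1 h3
    · intro h'; exact absurd (pt_injective h') (by simp)
    · apply smul_pt_iff.mpr
      change D m _ • _ = _
      rw [D_some h]; simp
  · intro N hN htr
    obtain ⟨n, hn, hn1, p, hp⟩ := no_regular h N hN htr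
    refine ⟨p, ?_⟩
    intro hbot
    apply hn1
    have : (⟨n, hn⟩ : N) ∈ MulAction.stabilizer N p := hp
    rw [hbot, Subgroup.mem_bot] at this
    exact congrArg Subtype.val this

theorem mul_sg_surj (h : SF F m) (e : Fˣ) : ∃ k : Fˣ, (k : F) * sg m (k : F) = e := by
  have he : (e : F) ≠ 0 := e.ne_zero
  have hse : sg m (e : F) ≠ 0 := fun h' => he (sg_eq_zero.mp h')
  refine ⟨Units.mk0 (sg m (e : F) / e) (div_ne_zero hse he), ?_⟩
  rw [Units.val_mk0, sg_div, h.sg_sg]
  field_simp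

theorem units_sq_surj (h : SF F m) (k : Fˣ) : ∃ l : Fˣ, l * l = k := by
  have hinj : Function.Injective (fun l : Fˣ => l * l) := by
    intro x y hxy
    apply Units.ext
    apply h.sq_inj
    have := congrArg Units.val hxy
    simp only [Units.val_mul] at this
    rw [pow_two, pow_two]; exact this
  exact Finite.surjective_of_injective hinj k

theorem isSimple (h : SF F m) : IsSimpleGroup (Sz F m) := by
  have hntr : Nontrivial (Sz F m) := by
    refine ⟨ww h, 1, ?_⟩
    intro h'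
    have h1 : ww h • pt m (none : Option (F × F)) = pt m (some (0, 0)) := smul_pt_iff.mpr W_none
    rw [h', one_smul] at h1
    exact absurd (pt_injective h1) (by simp)
  refine { exists_pair_ne := hntr.exists_pair_ne, eq_bot_or_eq_top_of_normal := ?_ }
  intro N hN
  by_cases hbot : N = ⊥
  · exact Or.inl hbot
  right
  have := faithful h
  have h2t := isTwoPretransitive h
  have hprim : MulAction.IsPreprimitive (Sz F m) (suzukiOvoid F m) :=
    MulAction.isPreprimitive_of_is_two_pretransitive h2t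
  have hfix : MulAction.fixedPoints N (suzukiOvoid F m) ≠ Set.univ := by
    intro h'
    apply hbot
    rw [eq_bot_iff]
    intro n hn
    rw [Subgroup.mem_bot]
    apply (faithful h).eq_of_smul_eq_smul
    intro p
    rw [one_smul]
    have : p ∈ MulAction.fixedPoints N (suzukiOvoid F m) := by rw [h']; trivial
    exact this ⟨n, hn⟩
  have htr : MulAction.IsPretransitive N (suzukiOvoid F m) :=
    MulAction.IsQuasiPreprimitive.isPretransitive_of_normal hfix
  obtain ⟨n0, hn0, hn01, p0, hp0⟩ := no_regular h N hN htr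
  -- move p0 to infinity
  have hex : ∃ g : Sz F m, g • p0 = pt m none := by
    by_cases hp : p0 = pt m none
    · exact ⟨1, by rw [one_smul, hp]⟩
    · obtain ⟨g, -, hg⟩ := two_trans' h (Ne.symm hp)
      refine ⟨ww h * g, ?_⟩
      rw [mul_smul, hg]
      exact smul_pt_iff.mpr W_zero
  obtain ⟨g, hg⟩ := hex
  have hn1 : g * n0 * g⁻¹ ∈ N := hN.conj_mem _ hn0 g
  have hn1ne : g * n0 * g⁻¹ ≠ 1 := by
    intro h'
    apply hn01
    have := congrArg (fun t => g⁻¹ * t * g) h'
    simpa [mul_assoc] using this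
  have hn1fix : (g * n0 * g⁻¹) • pt m (none : Option (F × F)) = pt m none := by
    rw [mul_smul, mul_smul, ← hg, inv_smul_smul, hp0]
  obtain ⟨a, b, k, hk⟩ := stab_none' h hn1fix
  rw [hk] at hn1 hn1ne
  -- some central involution lies in N
  have hinvol : ∃ c : F, c ≠ 0 ∧ tt h 0 c ∈ N := by
    by_cases hk1 : k = 1
    · rw [hk1, dd_one, mul_one] at hn1 hn1ne
      by_cases ha : a = 0
      · refine ⟨b, ?_, ha ▸ hn1⟩
        rintro rfl
        rw [ha, tt_zero] at hn1ne
        exact hn1ne rfl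
      · refine ⟨sg m a * a, mul_ne_zero (fun h' => ha (sg_eq_zero.mp h')) ha, ?_⟩
        have h1 := mul_mem hn1 hn1
        rw [tt_mul, h.add_self, h.add_self, zero_add] at h1
        exact h1
    · have h1 : (tt h a b * dd h k) * tt h 0 1 * (tt h a b * dd h k)⁻¹ * (tt h 0 1)⁻¹ ∈ N := by
        have h2 : (tt h a b * dd h k) * tt h 0 1 * (tt h a b * dd h k)⁻¹ * (tt h 0 1)⁻¹ =
            (tt h a b * dd h k) * (tt h 0 1 * (tt h a b * dd h k)⁻¹ * (tt h 0 1)⁻¹) := by group
        rw [h2]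
        exact mul_mem hn1 (hN.conj_mem _ (inv_mem hn1) _)
      have h2 : (tt h a b * dd h k) * tt h 0 1 * (tt h a b * dd h k)⁻¹ * (tt h 0 1)⁻¹ =
          tt h 0 (k * sg m (k : F) + 1) := by
        have e1 : (tt h a b * dd h k) * tt h 0 1 * (tt h a b * dd h k)⁻¹ =
            tt h a b * (dd h k * tt h 0 1 * (dd h k)⁻¹) * (tt h a b)⁻¹ := by group
        rw [e1, dd_conj_tt, tt_inv, tt_inv, tt_mul, tt_mul, tt_mul]
        rw [sg_zero]
        have e2 : a + (k : F) * 0 + a + 0 = 0 := by linear_combination a * h.two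
        have e3 : b + (k : F) * sg m (k : F) * 1 + sg m a * ((k : F) * 0) + (b + sg m a * a) +
            sg m (a + (k : F) * 0) * a + (1 + 0 * 0) + sg m (a + (k : F) * 0 + a) * 0 =
            (k : F) * sg m (k : F) + 1 := by
          rw [mul_zero, add_zero]
          linear_combination (b + sg m a * a) * h.two
        rw [e2, e3]
      rw [h2] at h1
      refine ⟨_, ?_, h1⟩
      intro h'
      apply hk1
      have h6 : (k : F) * sg m (k : F) = 1 := by linear_combination h' - h.two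
      have h7 : sg m (k : F) * (k : F) ^ 2 = 1 := by
        have := congrArg (sg m) h6
        rwa [sg_mul, h.sg_sg, sg_one] at this
      apply Units.ext
      rw [Units.val_one]
      linear_combination h7 - (k : F) * h6
  obtain ⟨c, hc, hcN⟩ := hinvol
  have hcen : ∀ d : F, tt h 0 d ∈ N := by
    intro d
    by_cases hd : d = 0
    · rw [hd, tt_zero]; exact one_mem _
    · obtain ⟨l, hl⟩ := mul_sg_surj h (Units.mk0 (d / c) (div_ne_zero hd hc))
      rw [Units.val_mk0] at hl
      have h1 := hN.conj_mem _ hcN (dd h l)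
      rw [dd_conj_tt, hl, mul_zero] at h1
      have : d / c * c = d := by field_simp
      rwa [this] at h1
  have hW : ww h ∈ N := by
    have hW1 : ww h • pt m (some ((1 : F), (1 : F))) = pt m (some (1, 1)) := by
      apply smul_pt_iff.mpr
      have hz : ff m (1 : F) 1 = 1 := by
        unfold ff; rw [sg_one]; linear_combination h.two
      change W F • _ = _
      rw [W_some h (by rw [hz]; exact one_ne_zero), hz]
      simp
    obtain ⟨g, hg⟩ : ∃ g : Sz F m, g • pt m (some ((1 : F), (1 : F))) = pt m none := by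
      refine ⟨ww h * (tt h 1 1)⁻¹, ?_⟩
      apply smul_pt_iff.mpr
      change (W F * (T m 1 1)⁻¹) • _ = _
      rw [mul_smul, T_inv_some h, W_zero]
    have h1 : (g * ww h * g⁻¹) • pt m (none : Option (F × F)) = pt m none := by
      rw [mul_smul, mul_smul, ← hg, inv_smul_smul, hW1]
    obtain ⟨a, b, k, hk⟩ := stab_none' h h1
    have h2 : (g * ww h * g⁻¹) * (g * ww h * g⁻¹) = 1 := by
      calc (g * ww h * g⁻¹) * (g * ww h * g⁻¹) = g * (ww h * ww h) * g⁻¹ := by group
        _ = 1 := by rw [ww_mul_ww]; group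
    rw [hk] at h2
    have h3 : tt h a b * dd h k * (tt h a b * dd h k) =
        tt h (a + k * a) (b + k * sg m (k : F) * b + sg m a * (k * a)) * dd h (k * k) := by
      calc tt h a b * dd h k * (tt h a b * dd h k) = tt h a b * (dd h k * tt h a b) * dd h k := by group
        _ = tt h a b * tt h (k * a) (k * sg m (k : F) * b) * (dd h k * dd h k) := by
          rw [dd_mul_tt]; group
        _ = _ := by rw [tt_mul, dd_mul]
    rw [h3] at h2
    have h4 : T m (a + k * a) (b + k * sg m (k : F) * b + sg m a * (k * a)) * D m (k * k) = T m 0 0 * D m 1 := by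
      rw [T_zero, D_one, one_mul]; exact congrArg Subtype.val h2
    have h5 := TD_injective h (a₁ := (a + k * a, b + k * sg m (k : F) * b + sg m a * (k * a), k * k)) (a₂ := (0, 0, 1)) h4
    simp only [Prod.mk.injEq] at h5
    obtain ⟨h6, h7, h8⟩ := h5
    have hk1 : k = 1 := by
      apply Units.ext
      apply h.sq_inj
      have := congrArg Units.val h8
      simp only [Units.val_mul, Units.val_one] at this
      rw [Units.val_one, one_pow, pow_two]; exact this
    rw [hk1] at h7 hk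
    have ha : a = 0 := by
      have : sg m a * a = 0 := by
        rw [Units.val_one, sg_one] at h7
        linear_combination h7 - b * h.two
      rcases mul_eq_zero.mp this with h9 | h9
      · exact sg_eq_zero.mp h9
      · exact h9
    rw [ha, dd_one, mul_one] at hk
    have h9 : ww h = g⁻¹ * tt h 0 b * g⁻¹⁻¹ := by rw [← hk]; group
    rw [h9]
    exact hN.conj_mem _ (hcen b) _
  have hD : ∀ k : Fˣ, dd h k ∈ N := by
    intro k
    obtain ⟨l, hl⟩ := units_sq_surj h k
    have h1 : (dd h l⁻¹)⁻¹ * (ww h) * (dd h l⁻¹)⁻¹⁻¹ * (ww h)⁻¹ ∈ N :=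
      mul_mem (hN.conj_mem _ hW _) (inv_mem hW)
    have hwi : (ww h)⁻¹ = ww h := inv_eq_of_mul_eq_one_left (ww_mul_ww h)
    have h2 : (dd h l⁻¹)⁻¹ * (ww h) * (dd h l⁻¹)⁻¹⁻¹ * (ww h)⁻¹ = dd h k := by
      rw [inv_inv, dd_inv, inv_inv, hwi, mul_assoc, mul_assoc, ← mul_assoc (ww h) (dd h l⁻¹), ww_mul_dd,
        inv_inv, mul_assoc (dd h l), ww_mul_ww, mul_one, dd_mul, hl]
    rwa [h2] at h1
  have hT : ∀ a b : F, tt h a b ∈ N := by
    intro a b
    obtain ⟨k, hk0, hk1⟩ := h.exists_ne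
    have hk2 : k + 1 ≠ 0 := by
      intro h'; apply hk1; linear_combination h' - h.two
    obtain ⟨a', ha'⟩ : ∃ a', a' = a / (k + 1) := ⟨_, rfl⟩
    have h1 : dd h (Units.mk0 k hk0) * tt h a' 0 * (dd h (Units.mk0 k hk0))⁻¹ * (tt h a' 0)⁻¹ ∈ N := by
      have h2 : dd h (Units.mk0 k hk0) * tt h a' 0 * (dd h (Units.mk0 k hk0))⁻¹ * (tt h a' 0)⁻¹ =
          dd h (Units.mk0 k hk0) * (tt h a' 0 * (dd h (Units.mk0 k hk0))⁻¹ * (tt h a' 0)⁻¹) := by group
      rw [h2]
      exact mul_mem (hD _) (hN.conj_mem _ (inv_mem (hD _)) _)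
    rw [dd_conj_tt, tt_inv, tt_mul, Units.val_mk0] at h1
    have h3 : k * a' + a' = a := by rw [ha']; field_simp
    rw [h3] at h1
    have h4 := mul_mem (hcen (b + (k * sg m k * 0 + (0 + sg m a' * a') + sg m (k * a') * a'))) h1
    rw [tt_mul, sg_zero] at h4
    have h5 : b + (k * sg m k * 0 + (0 + sg m a' * a') + sg m (k * a') * a') +
        (k * sg m k * 0 + (0 + sg m a' * a') + sg m (k * a') * a') + 0 * a = b := by
      linear_combination (k * sg m k * 0 + (0 + sg m a' * a') + sg m (k * a') * a') * h.two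
    rw [h5, zero_add] at h4
    exact h4
  rw [eq_top_iff]
  intro g _
  rcases bruhat' h g with ⟨a, b, k, rfl⟩ | ⟨x, y, a, b, k, rfl⟩
  · exact mul_mem (hT _ _) (hD _)
  · exact mul_mem (mul_mem (mul_mem (hT _ _) hW) (hT _ _)) (hD _)

end

end Cfsg.Agent.H20.Suz
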