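import Mathlib
import Cfsg.Agent.S0675
import Cfsg.Agent.H21.Ord120

set_option autoImplicit false

namespace Cfsg.Agent.H20.TI

theorem hom_trivial {L S : Type*} [Group L] [Group S] (hL : commutator L = ⊤)
    (hS : Group.IsSolvable S) (f : L →* S) (l : L) : f l = 1 := by
  obtain ⟨n, hn⟩ := (Group.isSolvable_def S).1 hS
  have hd : ∀ k, derivedSeries L k = ⊤ := by
    intro k
    induction k with
    | zero => exact derivedSeries_zero L
    | succ k ih => rw [derivedSeries_succ, ih]; exact hL
  have h1 : (derivedSeries L n).map f ≤ derivedSeries S n := map_derivedSeries_le_derivedSeries f n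
  rw [hd, hn] at h1
  exact Subgroup.mem_bot.1 (h1 ⟨l, Subgroup.mem_top l, rfl⟩)

theorem anti_trivial {L S : Type*} [Group L] [Group S] (hL : commutator L = ⊤)
    (hS : Group.IsSolvable S) (f : L → S) (hf : ∀ l m, f (l * m) = f m * f l) (l : L) :
    f l = 1 := by
  have h1 : f 1 = 1 := by
    have := hf 1 1
    rw [mul_one] at this
    exact (left_eq_mul.1 this)
  have := hom_trivial hL hS
    { toFun := fun x => (f x)⁻¹
      map_one' := by simp [h1]
      map_mul' := fun a b => by simp [hf] } l
  simpa using this

theorem smul_trivial {L T : Type*} [Group L] (hL : commutator L = ⊤) [Finite T] [MulAction L T]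
    (hT : Nat.card T ≤ 4) (l : L) (t : T) : l • t = t := by
  have hS : Group.IsSolvable (Equiv.Perm T) := by
    refine Cfsg.Agent.H21.solvable_of_card_lt_60 _ rfl ?_
    rw [Nat.card_perm]
    calc (Nat.card T).factorial ≤ Nat.factorial 4 := Nat.factorial_le hT
      _ < 60 := by decide
  have := hom_trivial hL hS (MulAction.toPermHom L T) l
  have h2 := congrArg (fun e : Equiv.Perm T => e t) this
  simpa using h2

end Cfsg.Agent.H20.TI
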