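import Mathlib

set_option autoImplicit false

namespace Cfsg.Agent.H20.TI

open Finset

section gauss

variable {W D : Type*} [CommGroup W] [Fintype W] [DecidableEq W] [CommGroup D]

theorem gauss_sq (χ : D → ℤ) (hχ : ∀ a b, χ (a * b) = χ a * χ b) (hχ1 : ∀ a, χ a = 1 ∨ χ a = -1)
    (q : W → D) (B : W → W → D) (hqB : ∀ w v, q (w * v) = q w * q v * B w v)
    (hB : ∀ u w v, B (u * w) v = B u v * B w v) (h1 : q 1 = 1) (hW2 : ∀ w : W, w * w = 1) :
    ∃ T : ℤ, (∑ w, χ (q w)) ^ 2 = (Fintype.card W : ℤ) * T ∧ (T = 1 ∨ Even T) := by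
  classical
  have hχone : χ 1 = 1 := by
    have := hχ 1 1
    rw [mul_one] at this
    rcases hχ1 1 with h | h
    · exact h
    · rw [h] at this; norm_num at this
  have hsq : ∀ a, χ a * χ a = 1 := by
    intro a
    rcases hχ1 a with h | h <;> rw [h] <;> norm_num
  have hsymm : ∀ w v, B w v = B v w := by
    intro w v
    have h := hqB w v
    rw [mul_comm w v, hqB v w, mul_comm (q v) (q w)] at h
    exact (mul_left_cancel h).symm
  let R : Subgroup W :=
    { carrier := {v | ∀ w, χ (B w v) = 1}
      one_mem' := by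
        intro w
        have : B w 1 = 1 := by
          have h := hB 1 1 w
          rw [mul_one] at h
          rw [hsymm]
          exact (left_eq_mul.1 h)
        rw [this, hχone]
      mul_mem' := by
        intro a b ha hb w
        rw [hsymm, hB, hχ, hsymm a, hsymm b, ha w, hb w]
        norm_num
      inv_mem' := by
        intro a ha w
        have : a⁻¹ = a := by rw [inv_eq_iff_mul_eq_one]; exact hW2 a
        rw [this]
        exact ha w }
  have hinner : ∀ v, (∑ w, χ (B w v)) = if v ∈ R then (Fintype.card W : ℤ) else 0 := by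
    intro v
    split_ifs with hv
    · rw [Finset.sum_congr rfl (fun w _ => hv w)]
      simp
    · have : ∃ u, χ (B u v) ≠ 1 := by
        by_contra hcon
        push Not at hcon
        exact hv hcon
      obtain ⟨u, hu⟩ := this
      have hu' : χ (B u v) = -1 := (hχ1 _).resolve_left hu
      have h := Equiv.sum_comp (Equiv.mulLeft u) (fun w => χ (B w v))
      have h2 : (∑ w, χ (B w v)) = -∑ w, χ (B w v) := by
        conv_lhs => rw [← h]
        rw [← Finset.sum_neg_distrib]
        refine Finset.sum_congr rfl fun w _ => ?_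
        simp only [Equiv.coe_mulLeft]
        rw [hB, hχ, hu']
        ring
      linarith
  refine ⟨∑ v, if v ∈ R then χ (q v) else 0, ?_, ?_⟩
  · rw [sq, Finset.sum_mul_sum]
    have e1 : ∀ w : W, (∑ v, χ (q w) * χ (q v)) = ∑ v, χ (q v) * χ (B w v) := by
      intro w
      rw [← Equiv.sum_comp (Equiv.mulLeft w) (fun v => χ (q w) * χ (q v))]
      refine Finset.sum_congr rfl fun v _ => ?_
      simp only [Equiv.coe_mulLeft]
      rw [hqB, hχ, hχ]
      have := hsq (q w)
      linear_combination (χ (q v) * χ (B w v)) * this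
    rw [Finset.sum_congr rfl (fun w _ => e1 w), Finset.sum_comm, Finset.mul_sum]
    refine Finset.sum_congr rfl fun v _ => ?_
    rw [← Finset.mul_sum, hinner]
    split_ifs <;> ring
  · by_cases hR : R = ⊥
    · left
      rw [hR]
      simp only [Subgroup.mem_bot]
      rw [Finset.sum_ite_eq' Finset.univ (1 : W) (fun v => χ (q v))]
      simp [h1, hχone]
    · right
      obtain ⟨⟨r, hr⟩, hr1'⟩ := Subgroup.ne_bot_iff_exists_ne_one.1 hR
      have hr1 : r ≠ 1 := fun h' => hr1' (Subtype.ext h')
      have h2 : 2 ∣ Nat.card R := by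
        have ho : orderOf r = 2 := orderOf_eq_prime (by rw [sq]; exact hW2 r) hr1
        rw [← ho]
        exact Subgroup.orderOf_dvd_natCard R hr
      have h3 : (∑ v, if v ∈ R then χ (q v) else 0) + (Nat.card R : ℤ) = ∑ v, if v ∈ R then (χ (q v) + 1) else 0 := by
        have : (Nat.card R : ℤ) = ∑ v : W, if v ∈ R then (1 : ℤ) else 0 := by
          rw [Finset.sum_boole, Nat.card_eq_fintype_card, Fintype.card_subtype]
        rw [this, ← Finset.sum_add_distrib]
        refine Finset.sum_congr rfl fun v _ => ?_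
        split_ifs <;> ring
      have h4 : (2 : ℤ) ∣ ∑ v, if v ∈ R then (χ (q v) + 1) else 0 := by
        refine Finset.dvd_sum fun v _ => ?_
        split_ifs
        · rcases hχ1 (q v) with h | h <;> rw [h] <;> norm_num
        · exact dvd_zero _
      rw [← h3] at h4
      have h5 : (2 : ℤ) ∣ (Nat.card R : ℤ) := by exact_mod_cast h2
      rw [even_iff_two_dvd]
      exact (Int.dvd_add_left h5).1 h4

end gauss

theorem chi_exists {D : Type*} [CommGroup D] [Finite D] (hD : Nat.card D = 4) (hD2 : ∀ d : D, d * d = 1)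
    (c : D) (hc : c ≠ 1) : ∃ χ : D → ℤ, (∀ a b, χ (a * b) = χ a * χ b) ∧ (∀ a, χ a = 1 ∨ χ a = -1) ∧
      ∀ a, χ a = 1 ↔ (a = 1 ∨ a = c) := by
  classical
  have ho : orderOf c = 2 := orderOf_eq_prime (by rw [sq]; exact hD2 c) hc
  have hz : Nat.card (Subgroup.zpowers c) = 2 := by rw [Nat.card_zpowers, ho]
  have hidx : (Subgroup.zpowers c).index = 2 := by
    have := Subgroup.card_mul_index (Subgroup.zpowers c)
    rw [hz, hD] at this
    omega
  have hmem : ∀ a, a ∈ Subgroup.zpowers c ↔ (a = 1 ∨ a = c) := by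
    intro a
    constructor
    · intro h
      obtain ⟨k, rfl⟩ := Subgroup.mem_zpowers_iff.1 h
      rcases Int.even_or_odd' k with ⟨m, rfl | rfl⟩
      · left
        rw [zpow_mul]
        have : c ^ (2 : ℤ) = 1 := by rw [zpow_two]; exact hD2 c
        rw [this, one_zpow]
      · right
        rw [zpow_add, zpow_mul, zpow_one]
        have : c ^ (2 : ℤ) = 1 := by rw [zpow_two]; exact hD2 c
        rw [this, one_zpow, one_mul]
    · rintro (rfl | rfl)
      · exact one_mem _
      · exact Subgroup.mem_zpowers _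
  refine ⟨fun a => if a ∈ Subgroup.zpowers c then 1 else -1, ?_, ?_, ?_⟩
  · intro a b
    have := Subgroup.mul_mem_iff_of_index_two hidx (a := a) (b := b)
    by_cases ha : a ∈ Subgroup.zpowers c <;> by_cases hb : b ∈ Subgroup.zpowers c <;>
      simp [this, ha, hb]
  · intro a
    by_cases ha : a ∈ Subgroup.zpowers c <;> simp [ha]
  · intro a
    rw [← hmem]
    by_cases ha : a ∈ Subgroup.zpowers c <;> simp [ha]

end Cfsg.Agent.H20.TI
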