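import Mathlib
import Cfsg.Agent.H20.TI1
import Cfsg.Agent.H20.TI2

set_option autoImplicit false

namespace Cfsg.Agent.H20.TI

open Finset

section num

variable {W D : Type*} [CommGroup W] [Fintype W] [DecidableEq W] [CommGroup D] [Fintype D]
  [DecidableEq D]

theorem fibre_eq (q : W → D) (B : W → W → D) (hqB : ∀ w v, q (w * v) = q w * q v * B w v)
    (hB : ∀ u w v, B (u * w) v = B u v * B w v) (h1 : ∀ w, q w = 1 ↔ w = 1)
    (hW2 : ∀ w : W, w * w = 1) (hD : Nat.card D = 4) (hD2 : ∀ d : D, d * d = 1) (c : D) (hc : c ≠ 1) :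
    ∃ T : ℤ, (2 * (1 + ((univ.filter fun w => q w = c).card : ℤ)) - (Fintype.card W : ℤ)) ^ 2 =
      (Fintype.card W : ℤ) * T ∧ (T = 1 ∨ Even T) := by
  obtain ⟨χ, hχ, hχ1, hχc⟩ := chi_exists hD hD2 c hc
  obtain ⟨T, hT, hT2⟩ := gauss_sq χ hχ hχ1 q B hqB hB ((h1 1).2 rfl) hW2
  refine ⟨T, ?_, hT2⟩
  rw [← hT]
  congr 1
  have e1 : ∀ w : W, χ (q w) = 2 * ((if w = 1 then 1 else 0) + (if q w = c then 1 else 0)) - 1 := by
    intro w
    by_cases hw : w = 1
    · subst hw
      have : q 1 = 1 := (h1 1).2 rfl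
      rw [this, if_pos rfl, if_neg hc.symm, (hχc 1).2 (Or.inl rfl)]
      norm_num
    · by_cases hw2 : q w = c
      · rw [hw2, if_neg hw, if_pos rfl, (hχc c).2 (Or.inr rfl)]
        norm_num
      · rw [if_neg hw, if_neg hw2]
        have : χ (q w) ≠ 1 := by
          intro h
          rcases (hχc _).1 h with h | h
          · exact hw ((h1 w).1 h)
          · exact hw2 h
        rw [(hχ1 _).resolve_left this]
        norm_num
  rw [Finset.sum_congr rfl (fun w _ => e1 w), Finset.sum_sub_distrib, ← Finset.mul_sum,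
    Finset.sum_add_distrib, Finset.sum_ite_eq' Finset.univ (1 : W) (fun _ => (1 : ℤ)),
    if_pos (Finset.mem_univ _), Finset.sum_boole]
  simp

theorem fibre_sum (q : W → D) (h1 : ∀ w, q w = 1 ↔ w = 1) :
    ∑ c ∈ univ.erase (1 : D), (1 + (univ.filter fun w => q w = c).card) + 1 =
      (univ.erase (1 : D)).card + Fintype.card W := by
  rw [Finset.sum_add_distrib]
  have h := Finset.card_eq_sum_card_fiberwise (f := q) (s := (univ : Finset W)) (t := (univ : Finset D))
    (fun x _ => Finset.mem_univ _)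
  rw [← Finset.add_sum_erase univ _ (Finset.mem_univ (1 : D))] at h
  have h2 : (univ.filter fun w => q w = 1).card = 1 := by
    rw [Finset.card_eq_one]
    refine ⟨1, ?_⟩
    ext w
    simp [h1]
  rw [h2, Finset.card_univ] at h
  simp only [Finset.sum_const, smul_eq_mul, mul_one]
  omega

theorem dvd_aux8 {G : ℤ} (h : (32 : ℤ) ∣ G ^ 2) : (8 : ℤ) ∣ G := by
  have h4 : (4 : ℤ) ∣ G := by
    have : (4 : ℤ) ^ 2 ∣ G ^ 2 := dvd_trans (by norm_num) h
    exact (Int.pow_dvd_pow_iff (by norm_num)).1 this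
  obtain ⟨a, rfl⟩ := h4
  have h2 : (2 : ℤ) ∣ a ^ 2 := by
    have : (16 : ℤ) * 2 ∣ 16 * a ^ 2 := by
      convert h using 1 <;> ring
    exact (mul_dvd_mul_iff_left (by norm_num)).1 this
  obtain ⟨b, rfl⟩ := Int.prime_two.dvd_of_dvd_pow h2
  exact ⟨b, by ring⟩

theorem dvd_aux4 {G : ℤ} (h : (8 : ℤ) ∣ G ^ 2) : (4 : ℤ) ∣ G := by
  have h4 : (2 : ℤ) ∣ G := by
    exact Int.prime_two.dvd_of_dvd_pow (dvd_trans (by norm_num) h)
  obtain ⟨a, rfl⟩ := h4
  have h2 : (2 : ℤ) ∣ a ^ 2 := by
    have : (4 : ℤ) * 2 ∣ 4 * a ^ 2 := by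
      convert h using 1 <;> ring
    exact (mul_dvd_mul_iff_left (by norm_num)).1 this
  obtain ⟨b, rfl⟩ := Int.prime_two.dvd_of_dvd_pow h2
  exact ⟨b, by ring⟩

theorem cases_card (q : W → D) (B : W → W → D) (hqB : ∀ w v, q (w * v) = q w * q v * B w v)
    (hB : ∀ u w v, B (u * w) v = B u v * B w v) (h1 : ∀ w, q w = 1 ↔ w = 1)
    (hW2 : ∀ w : W, w * w = 1) (hD : Nat.card D = 4) (hD2 : ∀ d : D, d * d = 1)
    (k : ℕ) (hk : Fintype.card W = 2 ^ k) :
    k ≤ 2 ∨ (k = 3 ∧ ∃ c : D, c ≠ 1 ∧ 1 ≤ (univ.filter fun w => q w = c).card ∧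
      (univ.filter fun w => q w = c).card ≤ 4) ∨
    (k = 4 ∧ ((∃ c : D, c ≠ 1 ∧ (univ.filter fun w => q w = c).card = 3) ∨
      ∀ c : D, c ≠ 1 → (univ.filter fun w => q w = c).card = 5)) := by
  have hcd : (univ.erase (1 : D)).card = 3 := by
    rw [Finset.card_erase_of_mem (Finset.mem_univ _), Finset.card_univ, ← Nat.card_eq_fintype_card, hD]
  have hsum := fibre_sum q h1
  rw [hcd] at hsum
  have hfib := fibre_eq q B hqB hB h1 hW2 hD hD2
  set n : D → ℕ := fun c => (univ.filter fun w => q w = c).card with hn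
  have hsum' : ∑ c ∈ univ.erase (1 : D), (1 + n c) + 1 = 3 + Fintype.card W := hsum
  have hfib' : ∀ c : D, c ≠ 1 → ∃ T : ℤ, (2 * (1 + (n c : ℤ)) - (Fintype.card W : ℤ)) ^ 2 =
      (Fintype.card W : ℤ) * T ∧ (T = 1 ∨ Even T) := hfib
  change k ≤ 2 ∨ (k = 3 ∧ ∃ c : D, c ≠ 1 ∧ 1 ≤ n c ∧ n c ≤ 4) ∨
    (k = 4 ∧ ((∃ c : D, c ≠ 1 ∧ n c = 3) ∨ ∀ c : D, c ≠ 1 → n c = 5))
  rw [hk] at hsum' hfib'
  by_cases h5 : 5 ≤ k
  · exfalso
    have h32 : (32 : ℤ) ∣ 2 ^ k := by
      have : (2 : ℤ) ^ 5 ∣ 2 ^ k := pow_dvd_pow 2 h5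
      simpa using this
    have h4 : ∀ c ∈ univ.erase (1 : D), 4 ∣ 1 + n c := by
      intro c hc
      obtain ⟨T, hT, -⟩ := hfib' c (Finset.ne_of_mem_erase hc)
      push_cast at hT
      have h8 : (8 : ℤ) ∣ (2 * (1 + (n c : ℤ)) - 2 ^ k) := by
        apply dvd_aux8
        rw [hT]
        exact dvd_mul_of_dvd_left h32 _
      obtain ⟨a, ha⟩ := h8
      obtain ⟨b, hb⟩ := h32
      rw [hb] at ha
      omega
    have h4' := Finset.dvd_sum h4
    have h32' : 32 ∣ 2 ^ k := by exact_mod_cast h32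
    omega
  · by_cases h2 : k ≤ 2
    · exact Or.inl h2
    · right
      have hk34 : k = 3 ∨ k = 4 := by omega
      have hodd : ∀ c : D, c ≠ 1 → 2 ∣ 1 + n c := by
        intro c hc
        obtain ⟨T, hT, -⟩ := hfib' c hc
        push_cast at hT
        have h8 : (8 : ℤ) ∣ 2 ^ k := by
          have : (2 : ℤ) ^ 3 ∣ 2 ^ k := pow_dvd_pow 2 (by omega)
          simpa using this
        have h4 : (4 : ℤ) ∣ (2 * (1 + (n c : ℤ)) - 2 ^ k) := by
          apply dvd_aux4
          rw [hT]
          exact dvd_mul_of_dvd_left h8 _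
        obtain ⟨a, ha⟩ := h4
        obtain ⟨b, hb⟩ := h8
        rw [hb] at ha
        omega
      rcases hk34 with rfl | rfl
      · left
        refine ⟨rfl, ?_⟩
        by_contra hcon
        push Not at hcon
        have h6 : ∀ c ∈ univ.erase (1 : D), 6 ≤ 1 + n c := by
          intro c hc
          have hc1 := Finset.ne_of_mem_erase hc
          have ho := hodd c hc1
          have := hcon c hc1
          by_cases hz : 1 ≤ n c
          · have := this hz; omega
          · have : n c = 0 := by omega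
            rw [this] at ho
            norm_num at ho
        have := Finset.card_nsmul_le_sum _ _ _ h6
        rw [hcd] at this
        simp only [smul_eq_mul] at this
        omega
      · right
        refine ⟨rfl, ?_⟩
        by_cases h3 : ∃ c : D, c ≠ 1 ∧ n c = 3
        · exact Or.inl h3
        · right
          push Not at h3
          have h6 : ∀ c ∈ univ.erase (1 : D), 6 ≤ 1 + n c := by
            intro c hc
            have hc1 := Finset.ne_of_mem_erase hc
            have ho := hodd c hc1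
            have h3' := h3 c hc1
            by_contra hlt
            have hn1 : n c = 1 := by omega
            obtain ⟨T, hT, hT2⟩ := hfib' c hc1
            rw [hn1] at hT
            norm_num at hT
            have hT9 : T = 9 := by omega
            rcases hT2 with h | h
            · omega
            · rw [hT9] at h
              revert h; decide
          intro c hc
          by_contra hne
          have hc' : c ∈ univ.erase (1 : D) := Finset.mem_erase.2 ⟨hc, Finset.mem_univ _⟩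
          have h7 : 6 < 1 + n c := by have := h6 c hc'; omega
          have hlt : ∑ c ∈ univ.erase (1 : D), 6 < ∑ c ∈ univ.erase (1 : D), (1 + n c) :=
            Finset.sum_lt_sum h6 ⟨c, hc', h7⟩
          rw [Finset.sum_const, hcd] at hlt
          simp only [smul_eq_mul] at hlt
          omega

end num

end Cfsg.Agent.H20.TI
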