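import Mathlib
import Cfsg.Agent.H20.TI3

set_option autoImplicit false
set_option linter.all false

namespace Cfsg.Agent.H20.TI

open Finset

theorem fix_index {L W : Type*} [Group L] (hL : commutator L = ⊤) [CommGroup W] [Finite W]
    [MulAction L W] (hmul : ∀ (l : L) (u v : W), l • (u * v) = (l • u) * (l • v)) (U : Subgroup W)
    (hU : ∀ u ∈ U, ∀ l : L, l • u = u) (hidx : U.index ≤ 4) (l : L) (w : W) : l • w = w := by
  have hone : ∀ l : L, l • (1 : W) = 1 := fun l => hU 1 (one_mem _) l
  have hinv : ∀ (l : L) (u : W), l • u⁻¹ = (l • u)⁻¹ := by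
    intro l u
    rw [eq_inv_iff_mul_eq_one, ← hmul, inv_mul_cancel, hone]
  have key : ∀ (l : L) (a b : W), a⁻¹ * b ∈ U → (l • a)⁻¹ * (l • b) ∈ U := by
    intro l a b h
    rw [← hinv, ← hmul, hU _ h]
    exact h
  letI act : MulAction L (W ⧸ U) :=
    { smul := fun l => Quotient.map' (fun w => l • w) (by
        intro a b h
        rw [QuotientGroup.leftRel_apply] at h ⊢
        exact key l a b h)
      one_smul := by
        rintro ⟨w⟩
        exact congrArg (QuotientGroup.mk (s := U)) (one_smul L w)
      mul_smul := by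
        rintro a b ⟨w⟩
        exact congrArg (QuotientGroup.mk (s := U)) (mul_smul a b w) }
  have hcard : Nat.card (W ⧸ U) ≤ 4 := hidx
  have hmem : ∀ l : L, w⁻¹ * (l • w) ∈ U := by
    intro l
    have h : (QuotientGroup.mk (l • w) : W ⧸ U) = QuotientGroup.mk w :=
      smul_trivial hL hcard l (QuotientGroup.mk w)
    exact QuotientGroup.eq.1 h.symm
  have hsolv : Group.IsSolvable W := Group.isSolvable_of_comm (fun a b => mul_comm a b)
  have := anti_trivial hL hsolv (fun l => w⁻¹ * (l • w)) (by
    intro l m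
    have e1 : m • w = w * (w⁻¹ * (m • w)) := by group
    have e2 : l • (m • w) = (l • w) * (w⁻¹ * (m • w)) := by
      conv_lhs => rw [e1]
      rw [hmul, hU _ (hmem m)]
    show w⁻¹ * ((l * m) • w) = (w⁻¹ * (m • w)) * (w⁻¹ * (l • w))
    rw [mul_smul, e2]
    rw [← mul_assoc, mul_comm]) l
  have h2 : w⁻¹ * (l • w) = 1 := this
  rw [inv_mul_eq_one] at h2
  exact h2.symm

/-- the fibre of `q` over `c` -/
def Fib {W D : Type*} (q : W → D) (c : D) : Type _ := {w : W // q w = c}

/-- the action on a fibre -/
@[reducible] def fibAct {L W D : Type*} [Group L] [MulAction L W] (q : W → D)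
    (hql : ∀ (l : L) (w : W), q (l • w) = q w) (c : D) : MulAction L (Fib q c) where
  smul := fun l x => ⟨l • x.1, (hql l x.1).trans x.2⟩
  one_smul := fun x => Subtype.ext (one_smul L x.1)
  mul_smul := fun a b x => Subtype.ext (mul_smul a b x.1)

theorem fibre_fixed {L W D : Type*} [Group L] (hL : commutator L = ⊤) [Finite W]
    [MulAction L W] (q : W → D) (hql : ∀ (l : L) (w : W), q (l • w) = q w) (c : D)
    (hc : Nat.card {w : W // q w = c} ≤ 4) (w : W) (hw : q w = c) (l : L) : l • w = w := by
  letI act : MulAction L (Fib q c) := fibAct q hql c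
  haveI : Finite (Fib q c) := inferInstanceAs (Finite {w : W // q w = c})
  let w0 : Fib q c := ⟨w, hw⟩
  have := smul_trivial (T := Fib q c) hL hc l w0
  exact congrArg Subtype.val this

theorem five_case {L W D : Type*} [Group L] (hL : commutator L = ⊤) [CommGroup W] [Finite W]
    [CommGroup D] [MulAction L W] (hmul : ∀ (l : L) (u v : W), l • (u * v) = (l • u) * (l • v))
    (q : W → D) (hql : ∀ (l : L) (w : W), q (l • w) = q w)
    (B : W → W → D) (hqB : ∀ w v, q (w * v) = q w * q v * B w v)
    (hB : ∀ u w v, B (u * w) v = B u v * B w v) (h1 : ∀ w, q w = 1 ↔ w = 1)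
    (hD2 : ∀ d : D, d * d = 1) (c : D)
    (hc : Nat.card {w : W // q w = c} = 5) (w : W) (hw : q w = c) (l : L) : l • w = w := by
  classical
  by_contra hne
  letI act : MulAction L (Fib q c) := fibAct q hql c
  haveI : Finite (Fib q c) := inferInstanceAs (Finite {w : W // q w = c})
  have hsm : ∀ (l : L) (x : Fib q c), (l • x).1 = l • x.1 := fun l x => rfl
  letI : Fintype (Fib q c) := Fintype.ofFinite (Fib q c)
  have hcF : Fintype.card (Fib q c) = 5 := by rw [← Nat.card_eq_fintype_card]; exact hc
  let w0 : Fib q c := ⟨w, hw⟩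
  -- transitivity
  have horb : MulAction.orbit L w0 = Set.univ := by
    by_contra hne2
    have hlt : Nat.card (MulAction.orbit L w0) < 5 := by
      rw [← hc, Nat.card_coe_set_eq]
      have := Set.ncard_lt_card hne2
      exact this
    have h4 : Nat.card (MulAction.orbit L w0) ≤ 4 := by omega
    have h := smul_trivial hL h4 l (⟨w0, MulAction.mem_orbit_self w0⟩ : MulAction.orbit L w0)
    have h2 := congrArg (fun x : MulAction.orbit L w0 => (x : Fib q c).1) h
    exact hne h2
  set P : Subgroup (Equiv.Perm (Fib q c)) := (MulAction.toPermHom L (Fib q c)).range with hP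
  have hPmem : ∀ l : L, MulAction.toPermHom L (Fib q c) l ∈ P := fun l => ⟨l, rfl⟩
  haveI htrans : MulAction.IsPretransitive P (Fib q c) := by
    refine ⟨fun x y => ?_⟩
    have hx : x ∈ MulAction.orbit L w0 := by rw [horb]; trivial
    have hy : y ∈ MulAction.orbit L w0 := by rw [horb]; trivial
    obtain ⟨a, ha⟩ := hx
    obtain ⟨b, hb⟩ := hy
    refine ⟨⟨MulAction.toPermHom L (Fib q c) (b * a⁻¹), hPmem _⟩, ?_⟩
    have ha' : a • w0 = x := ha
    have hb' : b • w0 = y := hb
    show (b * a⁻¹) • x = y
    rw [← ha', mul_smul, inv_smul_smul, hb']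
  rcases Cfsg.Agent.S0675.result (α := Fib q c) (by rw [hcF]; norm_num) P with hs | h2t
  · have := hom_trivial hL hs (MulAction.toPermHom L (Fib q c)).rangeRestrict l
    have h2 := congrArg (fun g : P => (g : Equiv.Perm (Fib q c)) w0) this
    exact hne (congrArg Subtype.val h2)
  · rw [MulAction.is_two_pretransitive_iff] at h2t
    -- constant colour
    have hconst : ∀ x y x' y' : Fib q c, x ≠ y → x' ≠ y' → B x.1 y.1 = B x'.1 y'.1 := by
      intro x y x' y' hxy hxy'
      obtain ⟨⟨g, ⟨m, hm⟩⟩, hg1, hg2⟩ := h2t hxy hxy'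
      have e1 : m • x = x' := by
        rw [← hg1]; show m • x = g x; rw [← hm]; rfl
      have e2 : m • y = y' := by
        rw [← hg2]; show m • y = g y; rw [← hm]; rfl
      have e3 : q (x.1 * y.1) = q (x'.1 * y'.1) := by
        rw [← e1, ← e2, hsm, hsm, ← hmul, hql]
      rw [hqB, hqB, x.2, y.2, x'.2, y'.2] at e3
      exact mul_left_cancel e3
    let e : Fin 5 ≃ Fib q c := (Fintype.equivFinOfCardEq hcF).symm
    set a : D := B (e 0).1 (e 1).1 with ha
    have hB' : ∀ i j : Fin 5, i ≠ j → B (e i).1 (e j).1 = a := fun i j hij =>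
      hconst _ _ _ _ (fun h => hij (e.injective h)) (fun h => absurd (e.injective h) (by decide))
    have hprod : ∀ i : Fin 5, i ≠ 0 → i ≠ 1 → i ≠ 2 →
        (e 0).1 * (e 1).1 * (e 2).1 * (e i).1 = 1 := by
      intro i h0 h1' h2
      rw [← h1, hqB, hqB, hqB, hB, hB, hB, hB' 0 1 (by decide), hB' 0 2 (by decide),
        hB' 1 2 (by decide), hB' 0 i h0.symm, hB' 1 i h1'.symm, hB' 2 i h2.symm,
        (e 0).2, (e 1).2, (e 2).2, (e i).2]
      have : c * c * a * c * (a * a) * c * (a * a * a) = (c * c) * (c * c) * ((a * a) * (a * a) * (a * a)) := by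
        ac_rfl
      rw [this, hD2 c, hD2 a]
      simp
    have h34 : (e 3).1 = (e 4).1 := by
      have e3 := hprod 3 (by decide) (by decide) (by decide)
      have e4 := hprod 4 (by decide) (by decide) (by decide)
      exact mul_left_cancel (e3.trans e4.symm)
    have := e.injective (Subtype.ext h34)
    revert this
    decide

theorem lemmaW {L W D : Type*} [Group L] (hL : commutator L = ⊤) [CommGroup W] [Finite W]
    [CommGroup D] [Finite D] [MulAction L W]
    (hmul : ∀ (l : L) (u v : W), l • (u * v) = (l • u) * (l • v))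
    (q : W → D) (hql : ∀ (l : L) (w : W), q (l • w) = q w)
    (B : W → W → D) (hqB : ∀ w v, q (w * v) = q w * q v * B w v)
    (hB : ∀ u w v, B (u * w) v = B u v * B w v) (h1 : ∀ w, q w = 1 ↔ w = 1)
    (hW2 : ∀ w : W, w * w = 1) (hD : Nat.card D = 4) (hD2 : ∀ d : D, d * d = 1)
    (l : L) (w : W) : l • w = w := by
  classical
  letI : Fintype W := Fintype.ofFinite W
  letI : Fintype D := Fintype.ofFinite D
  have hp : IsPGroup 2 W := fun w => ⟨1, by rw [pow_one, sq]; exact hW2 w⟩
  obtain ⟨k, hk⟩ := IsPGroup.iff_card.1 hp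
  have hone : ∀ l : L, l • (1 : W) = 1 := by
    intro l
    have := hmul l 1 1
    rw [mul_one] at this
    exact left_eq_mul.1 this
  let U : Subgroup W :=
    { carrier := {u | ∀ l : L, l • u = u}
      one_mem' := hone
      mul_mem' := by
        intro a b ha hb l
        rw [hmul, ha l, hb l]
      inv_mem' := by
        intro a ha l
        have : a⁻¹ = a := by rw [inv_eq_iff_mul_eq_one]; exact hW2 a
        rw [this]
        exact ha l }
  have hU : ∀ u ∈ U, ∀ l : L, l • u = u := fun u hu l => hu l
  have hcardF : ∀ c : D, (univ.filter fun w => q w = c).card = Nat.card {w : W // q w = c} := by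
    intro c
    rw [Nat.card_eq_fintype_card, Fintype.card_subtype]
  have hUcard : ∀ c : D, c ≠ 1 → (univ.filter fun w => q w = c).card ≤ 4 →
      (univ.filter fun w => q w = c).card + 1 ≤ Nat.card U := by
    intro c hc h4
    have hsub : (insert (1 : W) (univ.filter fun w => q w = c)) ⊆ univ.filter fun w => w ∈ U := by
      intro x hx
      rw [Finset.mem_insert] at hx
      rw [Finset.mem_filter]
      refine ⟨Finset.mem_univ _, ?_⟩
      rcases hx with rfl | hx
      · exact one_mem _
      · exact fun l => fibre_fixed hL q hql c (by rw [← hcardF]; exact h4) x (Finset.mem_filter.1 hx).2 l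
    have := Finset.card_le_card hsub
    rw [Finset.card_insert_of_notMem, ] at this
    · refine this.trans (le_of_eq ?_)
      rw [Nat.card_eq_fintype_card, Fintype.card_subtype]
    · rw [Finset.mem_filter]
      rintro ⟨-, h⟩
      exact hc (by rw [← h]; exact (h1 1).2 rfl)
  have hidx := Subgroup.card_mul_index U
  rw [hk] at hidx
  rcases cases_card q B hqB hB h1 hW2 hD hD2 k (by rw [← Nat.card_eq_fintype_card]; exact hk) with
    h | ⟨rfl, c, hc, hc1, hc4⟩ | ⟨rfl, ⟨c, hc, hc3⟩ | hall⟩
  · refine smul_trivial hL ?_ l w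
    rw [hk]
    calc 2 ^ k ≤ 2 ^ 2 := Nat.pow_le_pow_right (by norm_num) h
      _ = 4 := by norm_num
  · refine fix_index hL hmul U hU ?_ l w
    have := hUcard c hc hc4
    have h2 : 2 ≤ Nat.card U := by omega
    by_contra hlt
    push Not at hlt
    have : 2 * 5 ≤ Nat.card U * U.index := Nat.mul_le_mul h2 hlt
    omega
  · refine fix_index hL hmul U hU ?_ l w
    have := hUcard c hc (by omega)
    rw [hc3] at this
    have h2 : 4 ≤ Nat.card U := by omega
    by_contra hlt
    push Not at hlt
    have : 4 * 5 ≤ Nat.card U * U.index := Nat.mul_le_mul h2 hlt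
    omega
  · by_cases hw : w = 1
    · rw [hw, hone]
    · have hc : q w ≠ 1 := fun h => hw ((h1 w).1 h)
      exact five_case hL hmul q hql B hqB hB h1 hD2 (q w) (by rw [← hcardF]; exact hall _ hc) w rfl l

end Cfsg.Agent.H20.TI
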