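import Mathlib
import Cfsg.Agent.H20.TI4

set_option autoImplicit false
set_option linter.all false

namespace Cfsg.Agent.H20.TI

theorem lemmaY {L Y D : Type*} [Group L] (hL : commutator L = ⊤) [Group Y] [Finite Y]
    [CommGroup D] [Finite D] [MulDistribMulAction L Y] (s : Y → D)
    (hs : ∀ (l : L) (y : Y), s (l • y) = s y) (Z : Subgroup Y)
    (hZ : ∀ z ∈ Z, ∀ y : Y, z * y = y * z) (hs1 : ∀ y, s y = 1 ↔ y ∈ Z)
    (hsm : ∀ y, ∀ z ∈ Z, s (y * z) = s y) (c : Y → Y → D)
    (hsc : ∀ x y, s (x * y) = s x * s y * c x y) (hc : ∀ x y z, c (x * y) z = c x z * c y z)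
    (hsq : ∀ y : Y, y * y ∈ Z) (hD : Nat.card D = 4) (hD2 : ∀ d : D, d * d = 1)
    (l : L) (y : Y) : (l • y) * y⁻¹ ∈ Z := by
  haveI hZn : Z.Normal := ⟨fun z hz y => by rw [← hZ z hz y]; simpa using hz⟩
  have hZL : ∀ (l : L) (z : Y), z ∈ Z → l • z ∈ Z := fun l z hz => by
    rw [← hs1] at hz ⊢; rw [hs, hz]
  have hexp : ∀ w : Y ⧸ Z, w * w = 1 := by
    intro w
    induction w using QuotientGroup.induction_on with
    | H y =>
      rw [← QuotientGroup.mk_mul, QuotientGroup.eq_one_iff]
      exact hsq y
  have hinv : ∀ w : Y ⧸ Z, w⁻¹ = w := fun w => by rw [inv_eq_iff_mul_eq_one]; exact hexp w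
  letI cg : CommGroup (Y ⧸ Z) :=
    { (inferInstance : Group (Y ⧸ Z)) with
      mul_comm := fun a b => by
        have h := hinv (a * b)
        rw [mul_inv_rev, hinv, hinv] at h
        exact h.symm }
  have key : ∀ (l : L) (a b : Y), a⁻¹ * b ∈ Z → (l • a)⁻¹ * (l • b) ∈ Z := by
    intro l a b h
    rw [← smul_inv', ← smul_mul']
    exact hZL _ _ h
  letI act : MulAction L (Y ⧸ Z) :=
    { smul := fun l => Quotient.map' (fun w => l • w) (by
        intro a b h
        rw [QuotientGroup.leftRel_apply] at h ⊢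
        exact key l a b h)
      one_smul := by
        rintro ⟨w⟩
        exact congrArg (QuotientGroup.mk (s := Z)) (one_smul L w)
      mul_smul := by
        rintro a b ⟨w⟩
        exact congrArg (QuotientGroup.mk (s := Z)) (mul_smul a b w) }
  have hact : ∀ (l : L) (y : Y), l • (QuotientGroup.mk y : Y ⧸ Z) = QuotientGroup.mk (l • y) :=
    fun l y => rfl
  let q : Y ⧸ Z → D := Quotient.lift s (by
    intro a b h
    have h' : a⁻¹ * b ∈ Z := QuotientGroup.leftRel_apply.1 h
    have e : b = a * (a⁻¹ * b) := by group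
    rw [e, hsm _ _ h'])
  have hq : ∀ y : Y, q (QuotientGroup.mk y) = s y := fun y => rfl
  let B : Y ⧸ Z → Y ⧸ Z → D := fun w v => q (w * v) * (q w * q v)⁻¹
  have hBc : ∀ x y : Y, B (QuotientGroup.mk x) (QuotientGroup.mk y) = c x y := by
    intro x y
    show q ((QuotientGroup.mk x : Y ⧸ Z) * QuotientGroup.mk y) * (q (QuotientGroup.mk x) * q (QuotientGroup.mk y))⁻¹ = c x y
    rw [← QuotientGroup.mk_mul, hq, hq, hq, hsc, mul_comm (s x * s y), mul_assoc, mul_inv_cancel, mul_one]
  have hfin := lemmaW (W := Y ⧸ Z) (D := D) hL (by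
      intro l u v
      induction u using QuotientGroup.induction_on with
      | H u =>
        induction v using QuotientGroup.induction_on with
        | H v =>
          rw [hact, hact, ← QuotientGroup.mk_mul, hact, smul_mul']
          rfl) q (by
      intro l w
      induction w using QuotientGroup.induction_on with
      | H w => rw [hact, hq, hq, hs]) B (by
      intro w v
      show q (w * v) = q w * q v * (q (w * v) * (q w * q v)⁻¹)
      rw [mul_comm (q (w * v)), mul_inv_cancel_left]) (by
      intro u w v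
      induction u using QuotientGroup.induction_on with
      | H u =>
        induction v using QuotientGroup.induction_on with
        | H v =>
          induction w using QuotientGroup.induction_on with
          | H w =>
            rw [← QuotientGroup.mk_mul, hBc, hBc, hBc, hc]) (by
      intro w
      induction w using QuotientGroup.induction_on with
      | H w => rw [hq, hs1, QuotientGroup.eq_one_iff]) hexp hD hD2 l (QuotientGroup.mk y)
  rw [hact, QuotientGroup.eq] at hfin
  have h2 : (l • y)⁻¹ * y ∈ Z := hfin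
  have h3 := hZn.conj_mem _ h2 (l • y)
  have h4 : (l • y) * ((l • y)⁻¹ * y) * (l • y)⁻¹ = ((l • y) * y⁻¹)⁻¹ := by group
  rw [h4] at h3
  exact (Subgroup.inv_mem_iff Z).1 h3

end Cfsg.Agent.H20.TI
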