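import Mathlib
import Cfsg.Agent.H20.TI5

set_option autoImplicit false
set_option linter.all false

namespace Cfsg.Agent.H20.TI

theorem omega_comm {X : Type*} [Group X] [Finite X] (h2 : IsPGroup 2 X)
    (h3 : Nat.card {x : X // orderOf x = 2} = 3) (x y : X) (hx : x * x = 1) (hy : y * y = 1) :
    x * y = y * x := by
  by_cases hx1 : x = 1
  · rw [hx1]; simp
  by_cases hy1 : y = 1
  · rw [hy1]; simp
  haveI : Nontrivial X := ⟨x, 1, hx1⟩
  haveI := h2.center_nontrivial
  obtain ⟨z, hzo⟩ : ∃ z : Subgroup.center X, orderOf z = 2 := by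
    have hc := h2.to_subgroup (Subgroup.center X)
    have hdvd : 2 ∣ Nat.card (Subgroup.center X) := by
      rcases hc.card_eq_or_dvd with h | h
      · have := Finite.one_lt_card (α := Subgroup.center X)
        omega
      · exact h
    haveI : Fact (Nat.Prime 2) := ⟨Nat.prime_two⟩
    exact exists_prime_orderOf_dvd_card' 2 hdvd
  have hzc : ∀ g : X, g * z.1 = z.1 * g := fun g => (Subgroup.mem_center_iff.1 z.2 g)
  have hzz : z.1 * z.1 = 1 := by
    have := pow_orderOf_eq_one z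
    rw [hzo, sq] at this
    exact congrArg Subtype.val this
  have hz1 : z.1 ≠ 1 := by
    intro h
    have : z = 1 := Subtype.ext h
    rw [this, orderOf_one] at hzo
    omega
  by_cases hxz : x = z.1
  · rw [hxz]; exact (hzc y).symm
  have hord : ∀ g : X, orderOf g = 2 ↔ (g * g = 1 ∧ g ≠ 1) := by
    intro g
    rw [orderOf_eq_prime_iff, sq]
  have hsub : ({z.1, x, x * z.1} : Set X) ⊆ {g : X | orderOf g = 2} := by
    rintro g (rfl | rfl | rfl)
    · exact (hord _).2 ⟨hzz, hz1⟩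
    · exact (hord _).2 ⟨hx, hx1⟩
    · refine (hord _).2 ⟨?_, ?_⟩
      · calc x * z.1 * (x * z.1) = x * (z.1 * x) * z.1 := by group
          _ = x * (x * z.1) * z.1 := by rw [← hzc x]
          _ = (x * x) * (z.1 * z.1) := by group
          _ = 1 := by rw [hx, hzz, one_mul]
      · intro h
        apply hxz
        have := mul_eq_one_iff_eq_inv.1 h
        rw [this, inv_eq_iff_mul_eq_one]
        exact hzz
  have hcard : ({z.1, x, x * z.1} : Set X).ncard = 3 := by
    rw [Set.ncard_eq_three]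
    refine ⟨z.1, x, x * z.1, fun h => hxz h.symm, ?_, ?_, rfl⟩
    · intro h
      exact hx1 (right_eq_mul.1 h)
    · intro h
      exact hz1 (left_eq_mul.1 h)
  have heq := Set.eq_of_subset_of_ncard_le hsub (by
    rw [hcard, ← Nat.card_coe_set_eq]
    exact le_of_eq h3)
  have hyS : y ∈ ({z.1, x, x * z.1} : Set X) := by
    rw [heq]
    exact (hord y).2 ⟨hy, hy1⟩
  rcases hyS with h | h | h
  · rw [h]; exact hzc x
  · rw [h]
  · rw [h]
    rw [mul_assoc, ← hzc x]

theorem triv {X L : Type*} [Group X] [Finite X] [Group L] [MulDistribMulAction L X]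
    (hL : commutator L = ⊤) (h2 : IsPGroup 2 X) (Ω : Subgroup X) (hΩ : ∀ x, x ∈ Ω ↔ x * x = 1)
    (hΩ4 : Nat.card Ω = 4) : ∀ (n : ℕ) (Y : Subgroup X), Nat.card Y = n →
      (∀ l : L, ∀ y ∈ Y, l • y ∈ Y) → ∀ l : L, ∀ y ∈ Y, l • y = y := by
  have hXs : Group.IsSolvable X := by
    haveI := h2.isNilpotent
    infer_instance
  have hΩL : ∀ x ∈ Ω, ∀ l : L, l • x = x := by
    intro x hx l
    refine fibre_fixed hL (fun x : X => x * x = 1) (fun l w => ?_) True ?_ x ?_ l
    · have : (l • w) * (l • w) = l • (w * w) := (smul_mul' l w w).symm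
      show ((l • w) * (l • w) = 1) = (w * w = 1)
      rw [this]
      refine propext ⟨fun h => ?_, fun h => by rw [h, smul_one]⟩
      have := congrArg (fun t => l⁻¹ • t) h
      simpa using this
    · have : Nat.card {w : X // (w * w = 1) = True} = Nat.card Ω := by
        refine Nat.card_congr (Equiv.subtypeEquivRight fun w => ?_)
        rw [hΩ]
        simp
      rw [this, hΩ4]
    · exact eq_true ((hΩ x).1 hx)
  intro n
  induction n using Nat.strong_induction_on with
  | _ n ih =>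
  intro Y hn hY l y hy
  have ih' : ∀ M : Subgroup X, M ≤ Y → M ≠ Y → (∀ l : L, ∀ m ∈ M, l • m ∈ M) →
      ∀ l : L, ∀ m ∈ M, l • m = m := by
    intro M hM hne hinv
    refine ih (Nat.card M) ?_ M rfl hinv
    rw [← hn]
    by_contra hlt
    push Not at hlt
    exact hne (Subgroup.eq_of_le_of_card_ge hM hlt)
  set K : Subgroup X := Subgroup.closure {x | ∃ l : L, ∃ y ∈ Y, x = (l • y) * y⁻¹} with hK
  have hgen : ∀ (l : L) (y : X), y ∈ Y → (l • y) * y⁻¹ ∈ K :=
    fun l y hy => Subgroup.subset_closure ⟨l, y, hy, rfl⟩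
  have hKY : K ≤ Y := (Subgroup.closure_le _).2 (by
    rintro _ ⟨l, y, hy, rfl⟩
    exact mul_mem (hY l y hy) (inv_mem hy))
  have hKL : ∀ m : L, ∀ x ∈ K, m • x ∈ K := by
    intro m x hx
    induction hx using Subgroup.closure_induction with
    | mem x hx =>
      obtain ⟨l, y, hy, rfl⟩ := hx
      refine Subgroup.subset_closure ⟨m * l * m⁻¹, m • y, hY m y hy, ?_⟩
      rw [smul_mul', smul_inv', mul_smul, mul_smul, inv_smul_smul]
    | one => rw [smul_one]; exact one_mem _
    | mul a b _ _ ha hb => rw [smul_mul']; exact mul_mem ha hb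
    | inv a _ ha => rw [smul_inv']; exact inv_mem ha
  have hred : (∀ l : L, ∀ x ∈ K, l • x = x) → l • y = y := by
    intro hfix
    have := anti_trivial hL hXs (fun l => (l • y) * y⁻¹) (by
      intro l m
      have e1 : m • y = ((m • y) * y⁻¹) * y := by group
      have e2 : l • (m • y) = ((m • y) * y⁻¹) * (l • y) := by
        conv_lhs => rw [e1]
        rw [smul_mul', hfix l _ (hgen m y hy)]
      show ((l * m) • y) * y⁻¹ = ((m • y) * y⁻¹) * ((l • y) * y⁻¹)
      rw [mul_smul, e2, mul_assoc]) l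
    exact mul_inv_eq_one.1 this
  by_cases hKn : K = Y
  swap
  · exact hred (ih' K hKY hKn hKL)
  have hcen : ∀ M : Subgroup X, M ≤ Y → M ≠ Y → (∀ l : L, ∀ m ∈ M, l • m ∈ M) →
      (∀ y ∈ Y, ∀ m ∈ M, y * m * y⁻¹ ∈ M) → ∀ m ∈ M, ∀ y ∈ Y, m * y = y * m := by
    intro M hM hne hinv hnorm m hm y hy
    have hfix := ih' M hM hne hinv
    have hle : K ≤ Subgroup.centralizer {m} := by
      refine (Subgroup.closure_le _).2 ?_
      rintro _ ⟨l, a, ha, rfl⟩
      rw [SetLike.mem_coe, Subgroup.mem_centralizer_iff]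
      intro m' hm'
      rw [Set.mem_singleton_iff] at hm'
      rw [hm']
      have h1 := hnorm a⁻¹ (inv_mem ha) m hm
      rw [inv_inv] at h1
      have h2 := hfix l _ h1
      rw [smul_mul', smul_mul', smul_inv', hfix l m hm] at h2
      -- (l•a)⁻¹ * m * (l•a) = a⁻¹ * m * a
      have h3 : m * (l • a) = (l • a) * (a⁻¹ * m * a) := by
        rw [← h2]; group
      calc m * ((l • a) * a⁻¹) = (m * (l • a)) * a⁻¹ := by group
        _ = (l • a) * (a⁻¹ * m * a) * a⁻¹ := by rw [h3]
        _ = (l • a) * a⁻¹ * m := by group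
    rw [hKn] at hle
    have := hle hy
    rw [Subgroup.mem_centralizer_iff] at this
    exact this m rfl
  -- the case Y = ⊥
  by_cases hY1 : Y = ⊥
  · rw [hY1, Subgroup.mem_bot] at hy
    rw [hy, smul_one]
  -- squares
  set S : Subgroup X := Subgroup.closure {x | ∃ y ∈ Y, x = y * y} with hS
  have hSY : S ≤ Y := (Subgroup.closure_le _).2 (by
    rintro _ ⟨y, hy, rfl⟩
    exact mul_mem hy hy)
  have hsqS : ∀ y ∈ Y, y * y ∈ S := fun y hy => Subgroup.subset_closure ⟨y, hy, rfl⟩
  have hSL : ∀ l : L, ∀ m ∈ S, l • m ∈ S := by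
    intro l m hm
    induction hm using Subgroup.closure_induction with
    | mem x hx =>
      obtain ⟨y, hy, rfl⟩ := hx
      rw [smul_mul']
      exact hsqS _ (hY l y hy)
    | one => rw [smul_one]; exact one_mem _
    | mul a b _ _ ha hb => rw [smul_mul']; exact mul_mem ha hb
    | inv a _ ha => rw [smul_inv']; exact inv_mem ha
  have hSn : ∀ y ∈ Y, ∀ m ∈ S, y * m * y⁻¹ ∈ S := by
    intro y hy m hm
    induction hm using Subgroup.closure_induction with
    | mem x hx =>
      obtain ⟨a, ha, rfl⟩ := hx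
      have : y * (a * a) * y⁻¹ = (y * a * y⁻¹) * (y * a * y⁻¹) := by group
      rw [this]
      exact hsqS _ (mul_mem (mul_mem hy ha) (inv_mem hy))
    | one => simp
    | mul a b _ _ ha hb =>
      have : y * (a * b) * y⁻¹ = (y * a * y⁻¹) * (y * b * y⁻¹) := by group
      rw [this]; exact mul_mem ha hb
    | inv a _ ha =>
      have : y * a⁻¹ * y⁻¹ = (y * a * y⁻¹)⁻¹ := by group
      rw [this]; exact inv_mem ha
  have hSne : S ≠ Y := by
    intro hSeq
    obtain ⟨k, hk⟩ := IsPGroup.iff_card.1 (h2.to_subgroup Y)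
    have hk0 : k ≠ 0 := by
      rintro rfl
      rw [pow_zero] at hk
      exact hY1 (Subgroup.card_eq_one.1 hk)
    haveI : Fact (Nat.Prime 2) := ⟨Nat.prime_two⟩
    obtain ⟨H, hH⟩ := Sylow.exists_subgroup_card_pow_prime (G := Y) 2 (n := k - 1) (by
      rw [hk]; exact pow_dvd_pow 2 (Nat.sub_le k 1))
    have hidx : H.index = 2 := by
      have h := Subgroup.card_mul_index H
      rw [hH, hk] at h
      have hk' : 2 ^ k = 2 ^ (k - 1) * 2 := by
        rw [← pow_succ]; congr 1; omega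
      rw [hk'] at h
      exact Nat.eq_of_mul_eq_mul_left (pow_pos (by norm_num) _) h
    have hle : S ≤ H.map Y.subtype := by
      refine (Subgroup.closure_le _).2 ?_
      rintro _ ⟨a, ha, rfl⟩
      refine ⟨⟨a, ha⟩ * ⟨a, ha⟩, ?_, rfl⟩
      exact Subgroup.mul_self_mem_of_index_two hidx _
    rw [hSeq] at hle
    have h3 := Subgroup.card_le_of_le hle
    rw [Subgroup.card_map_of_injective Y.subtype_injective, hH, hk] at h3
    have : 2 ^ (k - 1) < 2 ^ k := Nat.pow_lt_pow_right (by norm_num) (by omega)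
    omega
  have hSfix := ih' S hSY hSne hSL
  have hScen := hcen S hSY hSne hSL hSn
  -- commutators
  let c : X → X → X := fun a b => a⁻¹ * b * a * b⁻¹
  have hcS : ∀ a ∈ Y, ∀ b ∈ Y, c a b ∈ S := by
    intro a ha b hb
    have : c a b = (a⁻¹ * a⁻¹) * ((a * b) * (a * b)) * (b⁻¹ * b⁻¹) := by
      show a⁻¹ * b * a * b⁻¹ = _
      group
    rw [this]
    exact mul_mem (mul_mem (hsqS _ (inv_mem ha)) (hsqS _ (mul_mem ha hb))) (hsqS _ (inv_mem hb))
  have hmulsq : ∀ a ∈ Y, ∀ b ∈ Y, (a * b) * (a * b) = (a * a) * (b * b) * c a b := by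
    intro a ha b hb
    have h1 : (a * b) * (a * b) = (a * a) * (c a b * (b * b)) := by
      show _ = (a * a) * (a⁻¹ * b * a * b⁻¹ * (b * b))
      group
    rw [h1, hScen _ (hcS a ha b hb) _ (mul_mem hb hb), ← mul_assoc]
  have hcmul : ∀ a ∈ Y, ∀ b ∈ Y, ∀ d ∈ Y, c (a * b) d = c a d * c b d := by
    intro a ha b hb d hd
    have h1 : c (a * b) d = b⁻¹ * c a d * (d * b * d⁻¹) := by
      show (a * b)⁻¹ * d * (a * b) * d⁻¹ = b⁻¹ * (a⁻¹ * d * a * d⁻¹) * (d * b * d⁻¹)
      group
    rw [h1, ← hScen _ (hcS a ha d hd) _ (inv_mem hb)]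
    show c a d * b⁻¹ * (d * b * d⁻¹) = c a d * (b⁻¹ * d * b * d⁻¹)
    group
  have hc2 : ∀ a ∈ Y, ∀ b ∈ Y, c a b * c a b = 1 := by
    intro a ha b hb
    rw [← hcmul a ha a ha b hb]
    have := hScen _ (hsqS a ha) b hb
    show (a * a)⁻¹ * b * (a * a) * b⁻¹ = 1
    rw [mul_assoc (a * a)⁻¹, ← this]
    group
  -- fourth powers
  have h4 : ∀ x ∈ K, (x * x) * (x * x) = 1 := by
    have hmain : ∀ x ∈ K, x ∈ Y ∧ (x * x) * (x * x) = 1 := by
      intro x hx
      induction hx using Subgroup.closure_induction with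
      | mem x hx =>
        obtain ⟨l, a, ha, rfl⟩ := hx
        refine ⟨mul_mem (hY l a ha) (inv_mem ha), ?_⟩
        have h1 : ((l • a) * a⁻¹) * ((l • a) * a⁻¹) = c (l • a) a⁻¹ := by
          rw [hmulsq _ (hY l a ha) _ (inv_mem ha), ← smul_mul', hSfix l _ (hsqS a ha)]
          group
        rw [h1]
        exact hc2 _ (hY l a ha) _ (inv_mem ha)
      | one => exact ⟨one_mem _, by simp⟩
      | mul a b _ _ ha hb =>
        refine ⟨mul_mem ha.1 hb.1, ?_⟩
        rw [hmulsq a ha.1 b hb.1]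
        have e1 := hScen _ (hsqS a ha.1)
        have e2 := hScen _ (hsqS b hb.1)
        have e3 := hScen _ (hcS a ha.1 b hb.1)
        have hbY := mul_mem hb.1 hb.1
        have haY := mul_mem ha.1 ha.1
        have hcY := hSY (hcS a ha.1 b hb.1)
        calc (a * a) * (b * b) * c a b * ((a * a) * (b * b) * c a b)
            = (a * a) * ((b * b) * (c a b * ((a * a) * (b * b)))) * c a b := by group
          _ = (a * a) * ((b * b) * (((a * a) * (b * b)) * c a b)) * c a b := by
              rw [e3 _ (mul_mem haY hbY)]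
          _ = (a * a) * ((b * b) * (a * a)) * (b * b) * (c a b * c a b) := by group
          _ = (a * a) * ((a * a) * (b * b)) * (b * b) * (c a b * c a b) := by rw [e2 _ haY]
          _ = ((a * a) * (a * a)) * ((b * b) * (b * b)) * (c a b * c a b) := by group
          _ = 1 := by rw [ha.2, hb.2, hc2 a ha.1 b hb.1]; simp
      | inv a _ ha =>
        refine ⟨inv_mem ha.1, ?_⟩
        have : (a⁻¹ * a⁻¹) * (a⁻¹ * a⁻¹) = ((a * a) * (a * a))⁻¹ := by group
        rw [this, ha.2, inv_one]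
    exact fun x hx => (hmain x hx).2
  rw [hKn] at h4
  -- M
  by_cases hM : Ω ⊓ Y = Y
  · exact hΩL y ((inf_eq_right.1 hM) hy) l
  have hMcen := hcen (Ω ⊓ Y) inf_le_right hM (by
    intro l m hm
    obtain ⟨hm1, hm2⟩ := Subgroup.mem_inf.1 hm
    refine Subgroup.mem_inf.2 ⟨?_, hY l m hm2⟩
    rw [hΩL m hm1 l]; exact hm1) (by
    intro a ha m hm
    obtain ⟨hm1, hm2⟩ := Subgroup.mem_inf.1 hm
    refine Subgroup.mem_inf.2 ⟨?_, mul_mem (mul_mem ha hm2) (inv_mem ha)⟩
    rw [hΩ] at hm1 ⊢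
    have : a * m * a⁻¹ * (a * m * a⁻¹) = a * (m * m) * a⁻¹ := by group
    rw [this, hm1]; simp)
  letI act : MulDistribMulAction L Y :=
    { smul := fun l y => ⟨l • y.1, hY l y.1 y.2⟩
      one_smul := fun y => Subtype.ext (one_smul L y.1)
      mul_smul := fun a b y => Subtype.ext (mul_smul a b y.1)
      smul_mul := fun a x y => Subtype.ext (smul_mul' a x.1 y.1)
      smul_one := fun a => Subtype.ext (smul_one a) }
  have hsm : ∀ (l : L) (y : Y), (l • y).1 = l • y.1 := fun l y => rfl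
  have hΩ2 : ∀ d : Ω, d * d = 1 := fun d => Subtype.ext ((hΩ d.1).1 d.2)
  letI cg : CommGroup Ω :=
    { (inferInstance : Group Ω) with
      mul_comm := fun a b => by
        have hinv : ∀ w : Ω, w⁻¹ = w := fun w => by rw [inv_eq_iff_mul_eq_one]; exact hΩ2 w
        have h := hinv (a * b)
        rw [mul_inv_rev, hinv, hinv] at h
        exact h.symm }
  have hsqΩ : ∀ y : Y, y.1 * y.1 ∈ Ω := fun y => (hΩ _).2 (h4 y.1 y.2)
  have hcΩ : ∀ a b : Y, c a.1 b.1 ∈ Ω := fun a b => (hΩ _).2 (hc2 _ a.2 _ b.2)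
  have hfin := lemmaY (L := L) (Y := Y) (D := Ω) hL (fun y => ⟨y.1 * y.1, hsqΩ y⟩) (by
      intro l y
      refine Subtype.ext ?_
      show (l • y).1 * (l • y).1 = y.1 * y.1
      rw [hsm, ← smul_mul']
      exact hSfix l _ (hsqS _ y.2)) (Ω.subgroupOf Y) (by
      intro z hz y
      exact Subtype.ext (hMcen z.1 ⟨Subgroup.mem_subgroupOf.1 hz, z.2⟩ y.1 y.2)) (by
      intro y
      rw [Subgroup.mem_subgroupOf, hΩ]
      exact ⟨fun h => congrArg Subtype.val h, fun h => Subtype.ext h⟩) (by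
      intro y z hz
      refine Subtype.ext ?_
      show (y.1 * z.1) * (y.1 * z.1) = y.1 * y.1
      have hz' : z.1 ∈ Ω := Subgroup.mem_subgroupOf.1 hz
      have hz2 : z.1 * z.1 = 1 := (hΩ _).1 hz'
      have hzc := hMcen z.1 ⟨hz', z.2⟩ y.1 y.2
      calc (y.1 * z.1) * (y.1 * z.1) = y.1 * (z.1 * y.1) * z.1 := by group
        _ = y.1 * (y.1 * z.1) * z.1 := by rw [hzc]
        _ = y.1 * y.1 * (z.1 * z.1) := by group
        _ = y.1 * y.1 := by rw [hz2, mul_one]) (fun a b => ⟨c a.1 b.1, hcΩ a b⟩) (by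
      intro x y
      exact Subtype.ext (hmulsq x.1 x.2 y.1 y.2)) (by
      intro x y z
      exact Subtype.ext (hcmul x.1 x.2 y.1 y.2 z.1 z.2)) (by
      intro y
      rw [Subgroup.mem_subgroupOf]
      exact hsqΩ y) hΩ4 hΩ2
  exfalso
  apply hM
  refine le_antisymm inf_le_right ?_
  have hle : K ≤ Ω ⊓ Y := by
    refine (Subgroup.closure_le _).2 ?_
    rintro _ ⟨l, a, ha, rfl⟩
    have := hfin l ⟨a, ha⟩
    rw [Subgroup.mem_subgroupOf] at this
    exact Subgroup.mem_inf.2 ⟨this, mul_mem (hY l a ha) (inv_mem ha)⟩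
  rw [hKn] at hle
  exact hle

end Cfsg.Agent.H20.TI
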